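import Mathlib
import Cfsg.Agent.Helper28.C2Ad

set_option autoImplicit false

namespace Cfsg.Agent.Helper28
namespace SL52

open Matrix

/-! ### The normal 2-subgroup of the centraliser of a transvection, and a Sylow lemma -/

/-- the block map as a monoid homomorphism into the matrices -/
def blkM : ↥(Subgroup.centralizer ({sT} : Set (Matrix.SpecialLinearGroup (Fin 5) (ZMod 2)))) →*
    Matrix (Fin 3) (Fin 3) (ZMod 2) where
  toFun A := blk3 A.1.1
  map_one' := blk3_one
  map_mul' A B := by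
    show blk3 ((A * B).1.1) = _
    rw [Subgroup.coe_mul, Matrix.SpecialLinearGroup.coe_mul]
    exact blk3_mul _ _ (cent_shape A.1 A.2).2.1 (cent_shape B.1 B.2).1

/-- the shape of the elements of the kernel -/
def kerMat (a b1 b2 b3 c1 c2 c3 : ZMod 2) : Matrix (Fin 5) (Fin 5) (ZMod 2) :=
  Matrix.of ![![1, a, b1, b2, b3], ![0, 1, 0, 0, 0], ![0, c1, 1, 0, 0], ![0, c2, 0, 1, 0],
    ![0, c3, 0, 0, 1]]

theorem kerMat_pow : ∀ a b1 b2 b3 c1 c2 c3 : ZMod 2,
    (kerMat a b1 b2 b3 c1 c2 c3 * kerMat a b1 b2 b3 c1 c2 c3) *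
      (kerMat a b1 b2 b3 c1 c2 c3 * kerMat a b1 b2 b3 c1 c2 c3) = 1 := by
  decide

theorem ker_shape (M : ↥(Subgroup.centralizer ({sT} : Set (Matrix.SpecialLinearGroup (Fin 5)
    (ZMod 2))))) (hM : M ∈ blkM.ker) :
    M.1.1 = kerMat (M.1.1 0 1) (M.1.1 0 2) (M.1.1 0 3) (M.1.1 0 4) (M.1.1 2 1) (M.1.1 3 1)
      (M.1.1 4 1) := by
  obtain ⟨r1, c0, a00, a11⟩ := cent_shape M.1 M.2
  have hb : blk3 M.1.1 = 1 := MonoidHom.mem_ker.1 hM
  have hb' : ∀ i j : Fin 3, M.1.1 (emb i) (emb j) = (1 : Matrix (Fin 3) (Fin 3) (ZMod 2)) i j :=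
    fun i j => congrFun (congrFun hb i) j
  ext i j
  fin_cases i
  · fin_cases j
    · exact a00
    · rfl
    · rfl
    · rfl
    · rfl
  · fin_cases j
    · exact r1 0 (by decide)
    · exact a11
    · exact r1 2 (by decide)
    · exact r1 3 (by decide)
    · exact r1 4 (by decide)
  · fin_cases j
    · exact c0 2 (by decide)
    · rfl
    · exact hb' 0 0
    · exact hb' 0 1
    · exact hb' 0 2
  · fin_cases j
    · exact c0 3 (by decide)
    · rfl
    · exact hb' 1 0
    · exact hb' 1 1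
    · exact hb' 1 2
  · fin_cases j
    · exact c0 4 (by decide)
    · rfl
    · exact hb' 2 0
    · exact hb' 2 1
    · exact hb' 2 2

theorem ker_pow4 (M : ↥(Subgroup.centralizer ({sT} : Set (Matrix.SpecialLinearGroup (Fin 5)
    (ZMod 2))))) (hM : M ∈ blkM.ker) : M ^ 4 = 1 := by
  have h4 : M ^ 4 = (M * M) * (M * M) := by
    rw [show (4 : ℕ) = 2 + 2 from rfl, pow_add, pow_two]
  rw [h4]
  apply Subtype.ext
  apply Subtype.ext
  show (M.1.1 * M.1.1) * (M.1.1 * M.1.1) = 1
  rw [ker_shape M hM]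
  exact kerMat_pow _ _ _ _ _ _ _

/-- a transvection -/
def tv (i j : Fin 5) (h : i ≠ j) : Matrix.SpecialLinearGroup (Fin 5) (ZMod 2) :=
  ⟨Matrix.transvection i j 1, Matrix.det_transvection_of_ne i j h 1⟩

theorem tv_mem (i j : Fin 5) (h : i ≠ j) (hi : i ≠ 1) (hj : j ≠ 0) :
    tv i j h ∈ Subgroup.centralizer ({sT} : Set (Matrix.SpecialLinearGroup (Fin 5) (ZMod 2))) := by
  rw [Subgroup.mem_centralizer_iff]
  intro g hg
  rw [Set.mem_singleton_iff] at hg
  subst hg
  apply Subtype.ext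
  show (Matrix.transvection 0 1 1 : Matrix (Fin 5) (Fin 5) (ZMod 2)) * Matrix.transvection i j 1 =
    Matrix.transvection i j 1 * Matrix.transvection 0 1 1
  have e1 : (Matrix.single 0 1 1 : Matrix (Fin 5) (Fin 5) (ZMod 2)) * Matrix.single i j 1 = 0 :=
    Matrix.single_mul_single_of_ne 1 0 1 i (Ne.symm hi) 1
  have e2 : (Matrix.single i j 1 : Matrix (Fin 5) (Fin 5) (ZMod 2)) * Matrix.single 0 1 1 = 0 :=
    Matrix.single_mul_single_of_ne 1 i j 0 hj 1
  simp only [Matrix.transvection, add_mul, mul_add, one_mul, mul_one, e1, e2, add_zero]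
  abel

theorem emb_ne0 : ∀ j : Fin 3, (0 : Fin 5) ≠ emb j := by decide
theorem emb_ne1 : ∀ j : Fin 3, emb j ≠ (1 : Fin 5) := by decide
theorem emb_ne0' : ∀ j : Fin 3, emb j ≠ (0 : Fin 5) := by decide

/-- the transvections of the first kind, in the centraliser -/
def tA (j : Fin 3) : ↥(Subgroup.centralizer ({sT} : Set (Matrix.SpecialLinearGroup (Fin 5)
    (ZMod 2)))) :=
  ⟨tv 0 (emb j) (emb_ne0 j), tv_mem 0 (emb j) (emb_ne0 j) (by decide) (emb_ne0' j)⟩

/-- the transvections of the second kind, in the centraliser -/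
def tB (i : Fin 3) : ↥(Subgroup.centralizer ({sT} : Set (Matrix.SpecialLinearGroup (Fin 5)
    (ZMod 2)))) :=
  ⟨tv (emb i) 1 (emb_ne1 i), tv_mem (emb i) 1 (emb_ne1 i) (emb_ne1 i) (by decide)⟩

/-- the transvection itself, in its centraliser -/
def sTc : ↥(Subgroup.centralizer ({sT} : Set (Matrix.SpecialLinearGroup (Fin 5) (ZMod 2)))) :=
  ⟨sT, Subgroup.mem_centralizer_iff.2 (fun h hh => by rw [Set.mem_singleton_iff.1 hh])⟩

theorem blk3_tA : ∀ j : Fin 3, blk3 (Matrix.transvection 0 (emb j) 1) = 1 := by decide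
theorem blk3_tB : ∀ i : Fin 3, blk3 (Matrix.transvection (emb i) 1 1) = 1 := by decide
theorem blk3_sT : blk3 (Matrix.transvection 0 1 1) = 1 := by decide

theorem tA_ker (j : Fin 3) : tA j ∈ blkM.ker := MonoidHom.mem_ker.2 (blk3_tA j)
theorem tB_ker (i : Fin 3) : tB i ∈ blkM.ker := MonoidHom.mem_ker.2 (blk3_tB i)
theorem sTc_ker : sTc ∈ blkM.ker := MonoidHom.mem_ker.2 blk3_sT

/-- the matrices commuting with the six transvections -/
def cMat (a : ZMod 2) : Matrix (Fin 5) (Fin 5) (ZMod 2) :=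
  Matrix.of ![![1, a, 0, 0, 0], ![0, 1, 0, 0, 0], ![0, 0, 1, 0, 0], ![0, 0, 0, 1, 0],
    ![0, 0, 0, 0, 1]]

theorem cMat_zero : cMat 0 = 1 := by decide
theorem cMat_one : cMat 1 = Matrix.transvection 0 1 1 := by decide

theorem comm_six (M : Matrix.SpecialLinearGroup (Fin 5) (ZMod 2))
    (hM : M ∈ Subgroup.centralizer ({sT} : Set (Matrix.SpecialLinearGroup (Fin 5) (ZMod 2))))
    (hA : ∀ j : Fin 3, (Matrix.transvection 0 (emb j) 1 : Matrix (Fin 5) (Fin 5) (ZMod 2)) * M.1 =
      M.1 * Matrix.transvection 0 (emb j) 1)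
    (hB : ∀ i : Fin 3, (Matrix.transvection (emb i) 1 1 : Matrix (Fin 5) (Fin 5) (ZMod 2)) * M.1 =
      M.1 * Matrix.transvection (emb i) 1 1) : M = 1 ∨ M = sT := by
  obtain ⟨r1, c0, a00, a11⟩ := cent_shape M hM
  have hA' : ∀ j : Fin 3, (Matrix.single 0 (emb j) 1 : Matrix (Fin 5) (Fin 5) (ZMod 2)) * M.1 =
      M.1 * Matrix.single 0 (emb j) 1 := by
    intro j
    have h := hA j
    rw [Matrix.transvection, add_mul, mul_add, one_mul, mul_one] at h
    exact add_left_cancel h
  have hB' : ∀ i : Fin 3, (Matrix.single (emb i) 1 1 : Matrix (Fin 5) (Fin 5) (ZMod 2)) * M.1 =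
      M.1 * Matrix.single (emb i) 1 1 := by
    intro i
    have h := hB i
    rw [Matrix.transvection, add_mul, mul_add, one_mul, mul_one] at h
    exact add_left_cancel h
  have rowE : ∀ (j : Fin 3) (b : Fin 5), M.1 (emb j) b = if b = emb j then 1 else 0 := by
    intro j b
    have e := congrFun (congrFun (hA' j) 0) b
    rw [Matrix.single_mul_apply_same, one_mul] at e
    rw [e]
    by_cases hb : b = emb j
    · rw [if_pos hb, hb, Matrix.mul_single_apply_same, mul_one, a00]
    · rw [if_neg hb, Matrix.mul_single_apply_of_ne _ _ _ _ _ hb]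
  have col0 : ∀ i : Fin 3, M.1 0 (emb i) = 0 := by
    intro i
    have e := congrFun (congrFun (hB' i) 0) 1
    rw [Matrix.single_mul_apply_of_ne _ _ _ _ _ (emb_ne0 i), Matrix.mul_single_apply_same,
      mul_one] at e
    exact e.symm
  have hshape : M.1 = cMat (M.1 0 1) := by
    ext i j
    fin_cases i
    · fin_cases j
      · exact a00
      · rfl
      · exact col0 0
      · exact col0 1
      · exact col0 2
    · fin_cases j
      · exact r1 0 (by decide)
      · exact a11
      · exact r1 2 (by decide)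
      · exact r1 3 (by decide)
      · exact r1 4 (by decide)
    · fin_cases j
      · exact rowE 0 0
      · exact rowE 0 1
      · exact rowE 0 2
      · exact rowE 0 3
      · exact rowE 0 4
    · fin_cases j
      · exact rowE 1 0
      · exact rowE 1 1
      · exact rowE 1 2
      · exact rowE 1 3
      · exact rowE 1 4
    · fin_cases j
      · exact rowE 2 0
      · exact rowE 2 1
      · exact rowE 2 2
      · exact rowE 2 3
      · exact rowE 2 4
  have h01 : ∀ x : ZMod 2, x = 0 ∨ x = 1 := by decide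
  rcases h01 (M.1 0 1) with h | h
  · left
    apply Subtype.ext
    rw [hshape, h, cMat_zero]
    rfl
  · right
    apply Subtype.ext
    rw [hshape, h, cMat_one]
    rfl

theorem cent_ker (M : ↥(Subgroup.centralizer ({sT} : Set (Matrix.SpecialLinearGroup (Fin 5)
    (ZMod 2))))) (h : ∀ g ∈ blkM.ker, g * M = M * g) : M = 1 ∨ M = sTc := by
  have hA : ∀ j : Fin 3, (Matrix.transvection 0 (emb j) 1 : Matrix (Fin 5) (Fin 5) (ZMod 2)) *
      M.1.1 = M.1.1 * Matrix.transvection 0 (emb j) 1 := fun j =>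
    congrArg (fun x : ↥(Subgroup.centralizer ({sT} : Set (Matrix.SpecialLinearGroup (Fin 5)
      (ZMod 2)))) => x.1.1) (h (tA j) (tA_ker j))
  have hB : ∀ i : Fin 3, (Matrix.transvection (emb i) 1 1 : Matrix (Fin 5) (Fin 5) (ZMod 2)) *
      M.1.1 = M.1.1 * Matrix.transvection (emb i) 1 1 := fun i =>
    congrArg (fun x : ↥(Subgroup.centralizer ({sT} : Set (Matrix.SpecialLinearGroup (Fin 5)
      (ZMod 2)))) => x.1.1) (h (tB i) (tB_ker i))
  rcases comm_six M.1 M.2 hA hB with h1 | h1
  · left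
    exact Subtype.ext h1
  · right
    exact Subtype.ext h1

/-- a Sylow 2-subgroup of the centraliser of `z` whose centre is small is a Sylow 2-subgroup of
the whole group -/
theorem sylow_of_center {G : Type*} [Group G] [Finite G] (z : G) (hz1 : z ≠ 1)
    (T : Sylow 2 ↥(Subgroup.centralizer ({z} : Set G)))
    (hzT : ∀ t : ↥(Subgroup.centralizer ({z} : Set G)), t.1 = z → t ∈ T)
    (hc : ∀ t : ↥(Subgroup.centralizer ({z} : Set G)), t ∈ T → (∀ u ∈ T, t * u = u * t) →
      t = 1 ∨ t.1 = z) :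
    ¬ 2 ∣ ((T : Subgroup ↥(Subgroup.centralizer ({z} : Set G))).map
      (Subgroup.subtype (Subgroup.centralizer ({z} : Set G)))).index := by
  have : Fact (Nat.Prime 2) := ⟨by norm_num⟩
  have hzC : z ∈ Subgroup.centralizer ({z} : Set G) :=
    Subgroup.mem_centralizer_iff.2 (fun h hh => by rw [Set.mem_singleton_iff.1 hh])
  have hTG : IsPGroup 2 ↥((T : Subgroup ↥(Subgroup.centralizer ({z} : Set G))).map
      (Subgroup.subtype (Subgroup.centralizer ({z} : Set G)))) := T.isPGroup'.map _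
  obtain ⟨P, hP⟩ := hTG.exists_le_sylow
  have hPT : (P : Subgroup G).subgroupOf (Subgroup.centralizer ({z} : Set G)) = T := by
    apply T.is_maximal' (P.isPGroup'.comap_subtype)
    intro t ht
    show t.1 ∈ (P : Subgroup G)
    exact hP (Subgroup.mem_map.2 ⟨t, ht, rfl⟩)
  have zP : z ∈ (P : Subgroup G) := hP (Subgroup.mem_map.2 ⟨⟨z, hzC⟩, hzT _ rfl, rfl⟩)
  have : Nontrivial ↥(P : Subgroup G) :=
    ⟨⟨⟨z, zP⟩, 1, fun h => hz1 (congrArg Subtype.val h)⟩⟩
  have hcn := P.isPGroup'.center_nontrivial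
  obtain ⟨c, hc1⟩ := exists_ne (1 : ↥(Subgroup.center ↥(P : Subgroup G)))
  have hcomm : ∀ p : G, p ∈ (P : Subgroup G) → p * c.1.1 = c.1.1 * p := by
    intro p hp
    have h := Subgroup.mem_center_iff.1 c.2 ⟨p, hp⟩
    exact congrArg Subtype.val h
  have hcC : c.1.1 ∈ Subgroup.centralizer ({z} : Set G) := by
    rw [Subgroup.mem_centralizer_iff]
    intro h hh
    rw [Set.mem_singleton_iff.1 hh]
    exact hcomm z zP
  have hcT : (⟨c.1.1, hcC⟩ : ↥(Subgroup.centralizer ({z} : Set G))) ∈ T := by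
    show (⟨c.1.1, hcC⟩ : ↥(Subgroup.centralizer ({z} : Set G))) ∈
      (T : Subgroup ↥(Subgroup.centralizer ({z} : Set G)))
    rw [← hPT, Subgroup.mem_subgroupOf]
    exact c.1.2
  have hcz : c.1.1 = z := by
    rcases hc ⟨c.1.1, hcC⟩ hcT (fun u hu => by
      apply Subtype.ext
      have huP : u.1 ∈ (P : Subgroup G) := hP (Subgroup.mem_map.2 ⟨u, hu, rfl⟩)
      exact (hcomm u.1 huP).symm) with h | h
    · exfalso
      apply hc1
      have h5 : c.1.1 = 1 := congrArg Subtype.val h
      exact Subtype.ext (Subtype.ext h5)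
    · exact h
  have hPC : ∀ p : G, p ∈ (P : Subgroup G) → p ∈ Subgroup.centralizer ({z} : Set G) := by
    intro p hp
    rw [Subgroup.mem_centralizer_iff]
    intro h hh
    rw [Set.mem_singleton_iff.1 hh, ← hcz]
    exact (hcomm p hp).symm
  have hEq : (T : Subgroup ↥(Subgroup.centralizer ({z} : Set G))).map
      (Subgroup.subtype (Subgroup.centralizer ({z} : Set G))) = (P : Subgroup G) := by
    apply le_antisymm hP
    intro p hp
    have h1 : (⟨p, hPC p hp⟩ : ↥(Subgroup.centralizer ({z} : Set G))) ∈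
        (P : Subgroup G).subgroupOf (Subgroup.centralizer ({z} : Set G)) := by
      rw [Subgroup.mem_subgroupOf]
      exact hp
    rw [hPT] at h1
    exact Subgroup.mem_map.2 ⟨_, h1, rfl⟩
  rw [hEq]
  exact P.not_dvd_index

/-- the main statement for the fixed transvection -/
theorem sylow_main {G : Type*} [Group G] [Finite G] (z : G) (hz : orderOf z = 2)
    (e : ↥(Subgroup.centralizer ({z} : Set G)) ≃*
      ↥(Subgroup.centralizer ({sT} : Set (Matrix.SpecialLinearGroup (Fin 5) (ZMod 2)))))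
    (T : Sylow 2 ↥(Subgroup.centralizer ({z} : Set G))) :
    ¬ 2 ∣ ((T : Subgroup ↥(Subgroup.centralizer ({z} : Set G))).map
      (Subgroup.subtype (Subgroup.centralizer ({z} : Set G)))).index := by
  have : Fact (Nat.Prime 2) := ⟨by norm_num⟩
  have hz1 : z ≠ 1 := by
    intro h
    rw [h, orderOf_one] at hz
    exact absurd hz (by decide)
  have hzC : z ∈ Subgroup.centralizer ({z} : Set G) :=
    Subgroup.mem_centralizer_iff.2 (fun h hh => by rw [Set.mem_singleton_iff.1 hh])
  have hzcen : ∀ g : ↥(Subgroup.centralizer ({z} : Set G)),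
      g * (⟨z, hzC⟩ : ↥(Subgroup.centralizer ({z} : Set G))) = ⟨z, hzC⟩ * g := by
    intro g
    apply Subtype.ext
    exact (Subgroup.mem_centralizer_iff.1 g.2 z rfl).symm
  have hQp : IsPGroup 2 ↥(blkM.ker.comap e.toMonoidHom) := by
    intro g
    refine ⟨2, ?_⟩
    apply Subtype.ext
    apply e.injective
    have h := ker_pow4 (e g.1) (Subgroup.mem_comap.1 g.2)
    rw [Subgroup.coe_pow, map_pow, Subgroup.coe_one, map_one]
    exact h
  have hQT : blkM.ker.comap e.toMonoidHom ≤ (T : Subgroup ↥(Subgroup.centralizer ({z} : Set G))) :=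
    hQp.le_sylow_of_normal T
  have hez : e ⟨z, hzC⟩ = sTc := by
    rcases cent_ker (e ⟨z, hzC⟩) (fun g _ => by
      have h := hzcen (e.symm g)
      have h2 := congrArg e h
      rw [map_mul, map_mul, MulEquiv.apply_symm_apply] at h2
      exact h2) with h | h
    · exfalso
      apply hz1
      have h3 : (⟨z, hzC⟩ : ↥(Subgroup.centralizer ({z} : Set G))) = 1 :=
        e.injective (h.trans (map_one e).symm)
      exact congrArg Subtype.val h3
    · exact h
  have hzQ : (⟨z, hzC⟩ : ↥(Subgroup.centralizer ({z} : Set G))) ∈ blkM.ker.comap e.toMonoidHom := by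
    rw [Subgroup.mem_comap]
    show e ⟨z, hzC⟩ ∈ blkM.ker
    rw [hez]
    exact sTc_ker
  apply sylow_of_center z hz1 T
  · intro t ht
    have : t = ⟨z, hzC⟩ := Subtype.ext ht
    rw [this]
    exact hQT hzQ
  · intro t _ htc
    rcases cent_ker (e t) (fun g hg => by
      have hg' : e.symm g ∈ blkM.ker.comap e.toMonoidHom := by
        rw [Subgroup.mem_comap]
        show e (e.symm g) ∈ blkM.ker
        rw [MulEquiv.apply_symm_apply]
        exact hg
      have h := htc (e.symm g) (hQT hg')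
      have h2 := congrArg e h
      rw [map_mul, map_mul, MulEquiv.apply_symm_apply] at h2
      exact h2.symm) with h | h
    · left
      exact e.injective (h.trans (map_one e).symm)
    · right
      have h3 : t = ⟨z, hzC⟩ := e.injective (h.trans hez.symm)
      rw [h3]

end SL52
end Cfsg.Agent.Helper28
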