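import Mathlib
import Cfsg.Agent.Helper28.Prune
import Cfsg.Agent.Helper28.Fast

set_option autoImplicit false

namespace Cfsg.Agent.Helper28
namespace Golay

open Cfsg
open scoped Pointwise

/-! ### The elements fixing each tetrad of a sextet -/

/-- the tetrads of the standard sextet -/
def MsK : List Nat := [8396803, 1352, 950272, 1069184, 2099744, 4259860]

/-- the tetrad of the standard sextet through a point -/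
def tetOfK (i : Nat) : Nat := (MsK.find? fun m => m.testBit i).getD 0

/-- the tables of the elements of the group of the code fixing each tetrad -/
def KLit : List (List Nat) :=
  [[23, 13, 22, 6, 16, 11, 3, 20, 10, 21, 8, 5, 14, 1, 12, 18, 4, 19, 15, 17, 7, 9, 2, 0],
   [23, 13, 22, 10, 16, 5, 8, 7, 6, 9, 3, 11, 12, 1, 14, 17, 4, 15, 19, 18, 20, 21, 2, 0],
   [23, 13, 22, 3, 16, 9, 6, 12, 8, 5, 10, 21, 7, 1, 20, 15, 4, 17, 18, 19, 14, 11, 2, 0],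
   [23, 13, 22, 8, 16, 21, 10, 14, 3, 11, 6, 9, 20, 1, 7, 19, 4, 18, 17, 15, 12, 5, 2, 0],
   [23, 13, 16, 3, 22, 21, 6, 7, 8, 11, 10, 9, 12, 1, 14, 18, 2, 19, 15, 17, 20, 5, 4, 0],
   [23, 13, 16, 8, 22, 9, 10, 20, 3, 5, 6, 21, 14, 1, 12, 17, 2, 15, 19, 18, 7, 11, 4, 0],
   [23, 13, 16, 10, 22, 11, 8, 12, 6, 21, 3, 5, 7, 1, 20, 19, 2, 18, 17, 15, 14, 9, 4, 0],
   [23, 13, 16, 6, 22, 5, 3, 14, 10, 9, 8, 11, 20, 1, 7, 15, 2, 17, 18, 19, 12, 21, 4, 0],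
   [23, 13, 2, 8, 4, 5, 10, 12, 3, 9, 6, 11, 7, 1, 20, 18, 16, 19, 15, 17, 14, 21, 22, 0],
   [23, 13, 2, 3, 4, 11, 6, 14, 8, 21, 10, 5, 20, 1, 7, 17, 16, 15, 19, 18, 12, 9, 22, 0],
   [23, 13, 2, 10, 4, 21, 8, 20, 6, 11, 3, 9, 14, 1, 12, 15, 16, 17, 18, 19, 7, 5, 22, 0],
   [23, 13, 2, 6, 4, 9, 3, 7, 10, 5, 8, 21, 12, 1, 14, 19, 16, 18, 17, 15, 20, 11, 22, 0],
   [23, 13, 4, 10, 2, 9, 8, 14, 6, 5, 3, 21, 20, 1, 7, 18, 22, 19, 15, 17, 12, 11, 16, 0],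
   [23, 13, 4, 3, 2, 5, 6, 20, 8, 9, 10, 11, 14, 1, 12, 19, 22, 18, 17, 15, 7, 21, 16, 0],
   [23, 13, 4, 8, 2, 11, 10, 7, 3, 21, 6, 5, 12, 1, 14, 15, 22, 17, 18, 19, 20, 9, 16, 0],
   [23, 13, 4, 6, 2, 21, 3, 12, 10, 11, 8, 9, 7, 1, 20, 17, 22, 15, 19, 18, 14, 5, 16, 0],
   [13, 1, 16, 8, 2, 5, 3, 12, 6, 21, 10, 9, 20, 23, 14, 15, 4, 18, 19, 17, 7, 11, 22, 0],
   [13, 1, 16, 10, 2, 21, 6, 20, 3, 5, 8, 11, 12, 23, 7, 18, 4, 15, 17, 19, 14, 9, 22, 0],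
   [13, 1, 16, 6, 2, 9, 10, 7, 8, 11, 3, 5, 14, 23, 20, 17, 4, 19, 18, 15, 12, 21, 22, 0],
   [13, 1, 16, 3, 2, 11, 8, 14, 10, 9, 6, 21, 7, 23, 12, 19, 4, 17, 15, 18, 20, 5, 22, 0],
   [13, 1, 2, 3, 16, 21, 8, 7, 10, 5, 6, 11, 14, 23, 20, 15, 22, 18, 19, 17, 12, 9, 4, 0],
   [13, 1, 2, 10, 16, 11, 6, 12, 3, 9, 8, 21, 20, 23, 14, 17, 22, 19, 18, 15, 7, 5, 4, 0],
   [13, 1, 2, 8, 16, 9, 3, 20, 6, 11, 10, 5, 12, 23, 7, 19, 22, 17, 15, 18, 14, 21, 4, 0],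
   [13, 1, 2, 6, 16, 5, 10, 14, 8, 21, 3, 9, 7, 23, 12, 18, 22, 15, 17, 19, 20, 11, 4, 0],
   [13, 1, 4, 6, 22, 11, 10, 20, 8, 9, 3, 21, 12, 23, 7, 15, 16, 18, 19, 17, 14, 5, 2, 0],
   [13, 1, 4, 3, 22, 9, 8, 12, 10, 11, 6, 5, 20, 23, 14, 18, 16, 15, 17, 19, 7, 21, 2, 0],
   [13, 1, 4, 8, 22, 21, 3, 14, 6, 5, 10, 11, 7, 23, 12, 17, 16, 19, 18, 15, 20, 9, 2, 0],
   [13, 1, 4, 10, 22, 5, 6, 7, 3, 21, 8, 9, 14, 23, 20, 19, 16, 17, 15, 18, 12, 11, 2, 0],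
   [13, 1, 22, 8, 4, 11, 3, 7, 6, 9, 10, 21, 14, 23, 20, 18, 2, 15, 17, 19, 12, 5, 16, 0],
   [13, 1, 22, 10, 4, 9, 6, 14, 3, 11, 8, 5, 7, 23, 12, 15, 2, 18, 19, 17, 20, 21, 16, 0],
   [13, 1, 22, 3, 4, 5, 8, 20, 10, 21, 6, 9, 12, 23, 7, 17, 2, 19, 18, 15, 14, 11, 16, 0],
   [13, 1, 22, 6, 4, 21, 10, 12, 8, 5, 3, 11, 20, 23, 14, 19, 2, 17, 15, 18, 7, 9, 16, 0],
   [1, 23, 22, 6, 2, 5, 8, 14, 3, 11, 10, 21, 12, 13, 20, 17, 16, 18, 15, 19, 7, 9, 4, 0],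
   [1, 23, 22, 3, 2, 21, 10, 7, 6, 9, 8, 5, 20, 13, 12, 19, 16, 15, 18, 17, 14, 11, 4, 0],
   [1, 23, 22, 8, 2, 9, 6, 20, 10, 21, 3, 11, 7, 13, 14, 15, 16, 19, 17, 18, 12, 5, 4, 0],
   [1, 23, 22, 10, 2, 11, 3, 12, 8, 5, 6, 9, 14, 13, 7, 18, 16, 17, 19, 15, 20, 21, 4, 0],
   [1, 23, 16, 3, 4, 9, 10, 12, 6, 21, 8, 11, 14, 13, 7, 17, 22, 18, 15, 19, 20, 5, 2, 0],
   [1, 23, 16, 6, 4, 11, 8, 20, 3, 5, 10, 9, 7, 13, 14, 19, 22, 15, 18, 17, 12, 21, 2, 0],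
   [1, 23, 16, 10, 4, 5, 3, 7, 8, 11, 6, 21, 20, 13, 12, 15, 22, 19, 17, 18, 14, 9, 2, 0],
   [1, 23, 16, 8, 4, 21, 6, 14, 10, 9, 3, 5, 12, 13, 20, 18, 22, 17, 19, 15, 7, 11, 2, 0],
   [1, 23, 2, 8, 22, 11, 6, 7, 10, 5, 3, 9, 20, 13, 12, 17, 4, 18, 15, 19, 14, 21, 16, 0],
   [1, 23, 2, 10, 22, 9, 3, 14, 8, 21, 6, 11, 12, 13, 20, 19, 4, 15, 18, 17, 7, 5, 16, 0],
   [1, 23, 2, 3, 22, 5, 10, 20, 6, 11, 8, 21, 7, 13, 14, 18, 4, 17, 19, 15, 12, 9, 16, 0],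
   [1, 23, 2, 6, 22, 21, 8, 12, 3, 9, 10, 5, 14, 13, 7, 15, 4, 19, 17, 18, 20, 11, 16, 0],
   [1, 23, 4, 3, 16, 11, 10, 14, 6, 5, 8, 9, 12, 13, 20, 15, 2, 19, 17, 18, 7, 21, 22, 0],
   [1, 23, 4, 6, 16, 9, 8, 7, 3, 21, 10, 11, 20, 13, 12, 18, 2, 17, 19, 15, 14, 5, 22, 0],
   [1, 23, 4, 10, 16, 21, 3, 20, 8, 9, 6, 5, 7, 13, 14, 17, 2, 18, 15, 19, 12, 11, 22, 0],
   [1, 23, 4, 8, 16, 5, 6, 12, 10, 11, 3, 21, 14, 13, 7, 19, 2, 15, 18, 17, 20, 9, 22, 0],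
   [23, 0, 16, 10, 2, 5, 6, 14, 3, 21, 8, 9, 7, 13, 12, 17, 4, 19, 18, 15, 20, 11, 22, 1],
   [23, 0, 16, 6, 2, 11, 10, 12, 8, 9, 3, 21, 20, 13, 14, 18, 4, 15, 17, 19, 7, 5, 22, 1],
   [23, 0, 16, 3, 2, 9, 8, 20, 10, 11, 6, 5, 12, 13, 7, 15, 4, 18, 19, 17, 14, 21, 22, 1],
   [23, 0, 16, 8, 2, 21, 3, 7, 6, 5, 10, 11, 14, 13, 20, 19, 4, 17, 15, 18, 12, 9, 22, 1],
   [23, 0, 22, 6, 4, 5, 10, 7, 8, 21, 3, 9, 14, 13, 20, 15, 2, 18, 19, 17, 12, 11, 16, 1],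
   [23, 0, 22, 10, 4, 11, 6, 20, 3, 9, 8, 21, 12, 13, 7, 19, 2, 17, 15, 18, 14, 5, 16, 1],
   [23, 0, 22, 3, 4, 21, 8, 14, 10, 5, 6, 11, 7, 13, 12, 18, 2, 15, 17, 19, 20, 9, 16, 1],
   [23, 0, 22, 8, 4, 9, 3, 12, 6, 11, 10, 5, 20, 13, 14, 17, 2, 19, 18, 15, 7, 21, 16, 1],
   [23, 0, 4, 10, 22, 21, 6, 12, 3, 5, 8, 11, 20, 13, 14, 15, 16, 18, 19, 17, 7, 9, 2, 1],
   [23, 0, 4, 6, 22, 9, 10, 14, 8, 11, 3, 5, 7, 13, 12, 19, 16, 17, 15, 18, 20, 21, 2, 1],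
   [23, 0, 4, 3, 22, 11, 8, 7, 10, 9, 6, 21, 14, 13, 20, 17, 16, 19, 18, 15, 12, 5, 2, 1],
   [23, 0, 4, 8, 22, 5, 3, 20, 6, 21, 10, 9, 12, 13, 7, 18, 16, 15, 17, 19, 14, 11, 2, 1],
   [23, 0, 2, 6, 16, 21, 10, 20, 8, 5, 3, 11, 12, 13, 7, 17, 22, 19, 18, 15, 14, 9, 4, 1],
   [23, 0, 2, 8, 16, 11, 3, 14, 6, 9, 10, 21, 7, 13, 12, 15, 22, 18, 19, 17, 20, 5, 4, 1],
   [23, 0, 2, 3, 16, 5, 8, 12, 10, 21, 6, 9, 20, 13, 14, 19, 22, 17, 15, 18, 7, 11, 4, 1],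
   [23, 0, 2, 10, 16, 9, 6, 7, 3, 11, 8, 5, 14, 13, 20, 18, 22, 15, 17, 19, 12, 21, 4, 1],
   [0, 13, 16, 3, 4, 11, 10, 7, 6, 5, 8, 9, 20, 23, 12, 18, 22, 17, 19, 15, 14, 21, 2, 1],
   [0, 13, 16, 8, 4, 5, 6, 20, 10, 11, 3, 21, 7, 23, 14, 17, 22, 18, 15, 19, 12, 9, 2, 1],
   [0, 13, 16, 6, 4, 9, 8, 14, 3, 21, 10, 11, 12, 23, 20, 15, 22, 19, 17, 18, 7, 5, 2, 1],
   [0, 13, 16, 10, 4, 21, 3, 12, 8, 9, 6, 5, 14, 23, 7, 19, 22, 15, 18, 17, 20, 11, 2, 1],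
   [0, 13, 22, 6, 2, 21, 8, 20, 3, 9, 10, 5, 7, 23, 14, 18, 16, 17, 19, 15, 12, 11, 4, 1],
   [0, 13, 22, 3, 2, 5, 10, 12, 6, 11, 8, 21, 14, 23, 7, 15, 16, 19, 17, 18, 20, 9, 4, 1],
   [0, 13, 22, 8, 2, 11, 6, 14, 10, 5, 3, 9, 12, 23, 20, 19, 16, 15, 18, 17, 7, 21, 4, 1],
   [0, 13, 22, 10, 2, 9, 3, 7, 8, 21, 6, 11, 20, 23, 12, 17, 16, 18, 15, 19, 14, 5, 4, 1],
   [0, 13, 4, 10, 16, 5, 3, 14, 8, 11, 6, 21, 12, 23, 20, 18, 2, 17, 19, 15, 7, 9, 22, 1],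
   [0, 13, 4, 3, 16, 9, 10, 20, 6, 21, 8, 11, 7, 23, 14, 19, 2, 15, 18, 17, 12, 5, 22, 1],
   [0, 13, 4, 8, 16, 21, 6, 7, 10, 9, 3, 5, 20, 23, 12, 15, 2, 19, 17, 18, 14, 11, 22, 1],
   [0, 13, 4, 6, 16, 11, 8, 12, 3, 5, 10, 9, 14, 23, 7, 17, 2, 18, 15, 19, 20, 21, 22, 1],
   [0, 13, 2, 10, 22, 11, 3, 20, 8, 5, 6, 9, 7, 23, 14, 15, 4, 19, 17, 18, 12, 21, 16, 1],
   [0, 13, 2, 6, 22, 5, 8, 7, 3, 11, 10, 21, 20, 23, 12, 19, 4, 15, 18, 17, 14, 9, 16, 1],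
   [0, 13, 2, 3, 22, 21, 10, 14, 6, 9, 8, 5, 12, 23, 20, 17, 4, 18, 15, 19, 7, 11, 16, 1],
   [0, 13, 2, 8, 22, 9, 6, 12, 10, 21, 3, 11, 14, 23, 7, 18, 4, 17, 19, 15, 20, 5, 16, 1],
   [13, 23, 2, 6, 4, 11, 3, 12, 10, 21, 8, 5, 7, 0, 20, 15, 16, 17, 18, 19, 14, 9, 22, 1],
   [13, 23, 2, 8, 4, 21, 10, 7, 3, 11, 6, 9, 12, 0, 14, 17, 16, 15, 19, 18, 20, 5, 22, 1],
   [13, 23, 2, 10, 4, 5, 8, 14, 6, 9, 3, 11, 20, 0, 7, 19, 16, 18, 17, 15, 12, 21, 22, 1],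
   [13, 23, 2, 3, 4, 9, 6, 20, 8, 5, 10, 21, 14, 0, 12, 18, 16, 19, 15, 17, 7, 11, 22, 1],
   [13, 23, 16, 6, 22, 21, 3, 20, 10, 11, 8, 9, 14, 0, 12, 19, 2, 18, 17, 15, 7, 5, 4, 1],
   [13, 23, 16, 10, 22, 9, 8, 7, 6, 5, 3, 21, 12, 0, 14, 15, 2, 17, 18, 19, 20, 11, 4, 1],
   [13, 23, 16, 8, 22, 11, 10, 14, 3, 21, 6, 5, 20, 0, 7, 18, 2, 19, 15, 17, 12, 9, 4, 1],
   [13, 23, 16, 3, 22, 5, 6, 12, 8, 9, 10, 11, 7, 0, 20, 17, 2, 15, 19, 18, 14, 21, 4, 1],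
   [13, 23, 22, 10, 16, 21, 8, 12, 6, 11, 3, 9, 7, 0, 20, 18, 4, 19, 15, 17, 14, 5, 2, 1],
   [13, 23, 22, 3, 16, 11, 6, 7, 8, 21, 10, 5, 12, 0, 14, 19, 4, 18, 17, 15, 20, 9, 2, 1],
   [13, 23, 22, 8, 16, 5, 10, 20, 3, 9, 6, 11, 14, 0, 12, 15, 4, 17, 18, 19, 7, 21, 2, 1],
   [13, 23, 22, 6, 16, 9, 3, 14, 10, 5, 8, 21, 20, 0, 7, 17, 4, 15, 19, 18, 12, 11, 2, 1],
   [13, 23, 4, 8, 2, 9, 10, 12, 3, 5, 6, 21, 7, 0, 20, 19, 22, 18, 17, 15, 14, 11, 16, 1],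
   [13, 23, 4, 10, 2, 11, 8, 20, 6, 21, 3, 5, 14, 0, 12, 17, 22, 15, 19, 18, 7, 9, 16, 1],
   [13, 23, 4, 6, 2, 5, 3, 7, 10, 9, 8, 11, 12, 0, 14, 18, 22, 19, 15, 17, 20, 21, 16, 1],
   [13, 23, 4, 3, 2, 21, 6, 14, 8, 11, 10, 9, 20, 0, 7, 15, 22, 17, 18, 19, 12, 5, 16, 1],
   [1, 0, 4, 10, 2, 5, 8, 12, 6, 9, 3, 11, 7, 23, 20, 15, 22, 17, 18, 19, 14, 21, 16, 13],
   [1, 0, 4, 6, 2, 11, 3, 14, 10, 21, 8, 5, 20, 23, 7, 19, 22, 18, 17, 15, 12, 9, 16, 13],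
   [1, 0, 4, 3, 2, 9, 6, 7, 8, 5, 10, 21, 12, 23, 14, 17, 22, 15, 19, 18, 20, 11, 16, 13],
   [1, 0, 4, 8, 2, 21, 10, 20, 3, 11, 6, 9, 14, 23, 12, 18, 22, 19, 15, 17, 7, 5, 16, 13],
   [1, 0, 16, 3, 22, 11, 6, 20, 8, 21, 10, 5, 14, 23, 12, 15, 2, 17, 18, 19, 7, 9, 4, 13],
   [1, 0, 16, 6, 22, 9, 3, 12, 10, 5, 8, 21, 7, 23, 20, 18, 2, 19, 15, 17, 14, 11, 4, 13],
   [1, 0, 16, 10, 22, 21, 8, 14, 6, 11, 3, 9, 20, 23, 7, 17, 2, 15, 19, 18, 12, 5, 4, 13],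
   [1, 0, 16, 8, 22, 5, 10, 7, 3, 9, 6, 11, 12, 23, 14, 19, 2, 18, 17, 15, 20, 21, 4, 13],
   [1, 0, 22, 10, 16, 9, 8, 20, 6, 5, 3, 21, 14, 23, 12, 19, 4, 18, 17, 15, 7, 11, 2, 13],
   [1, 0, 22, 6, 16, 21, 3, 7, 10, 11, 8, 9, 12, 23, 14, 15, 4, 17, 18, 19, 20, 5, 2, 13],
   [1, 0, 22, 3, 16, 5, 6, 14, 8, 9, 10, 11, 20, 23, 7, 18, 4, 19, 15, 17, 12, 21, 2, 13],
   [1, 0, 22, 8, 16, 11, 10, 12, 3, 21, 6, 5, 7, 23, 20, 17, 4, 15, 19, 18, 14, 9, 2, 13],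
   [1, 0, 2, 6, 4, 5, 3, 20, 10, 9, 8, 11, 14, 23, 12, 17, 16, 15, 19, 18, 7, 21, 22, 13],
   [1, 0, 2, 10, 4, 11, 8, 7, 6, 21, 3, 5, 12, 23, 14, 18, 16, 19, 15, 17, 20, 9, 22, 13],
   [1, 0, 2, 3, 4, 21, 6, 12, 8, 11, 10, 9, 7, 23, 20, 19, 16, 18, 17, 15, 14, 5, 22, 13],
   [1, 0, 2, 8, 4, 9, 10, 14, 3, 5, 6, 21, 20, 23, 7, 15, 16, 17, 18, 19, 12, 11, 22, 13],
   [23, 1, 22, 10, 2, 21, 3, 14, 8, 9, 6, 5, 12, 0, 20, 15, 16, 19, 17, 18, 7, 11, 4, 13],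
   [23, 1, 22, 3, 2, 11, 10, 20, 6, 5, 8, 9, 7, 0, 14, 17, 16, 18, 15, 19, 12, 21, 4, 13],
   [23, 1, 22, 6, 2, 9, 8, 12, 3, 21, 10, 11, 14, 0, 7, 19, 16, 15, 18, 17, 20, 5, 4, 13],
   [23, 1, 22, 8, 2, 5, 6, 7, 10, 11, 3, 21, 20, 0, 12, 18, 16, 17, 19, 15, 14, 9, 4, 13],
   [23, 1, 2, 10, 22, 5, 3, 12, 8, 11, 6, 21, 14, 0, 7, 17, 4, 18, 15, 19, 20, 9, 16, 13],
   [23, 1, 2, 3, 22, 9, 10, 7, 6, 21, 8, 11, 20, 0, 12, 15, 4, 19, 17, 18, 14, 5, 16, 13],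
   [23, 1, 2, 8, 22, 21, 6, 20, 10, 9, 3, 5, 7, 0, 14, 19, 4, 15, 18, 17, 12, 11, 16, 13],
   [23, 1, 2, 6, 22, 11, 8, 14, 3, 5, 10, 9, 12, 0, 20, 18, 4, 17, 19, 15, 7, 21, 16, 13],
   [23, 1, 4, 6, 16, 5, 8, 20, 3, 11, 10, 21, 7, 0, 14, 15, 2, 19, 17, 18, 12, 9, 22, 13],
   [23, 1, 4, 8, 16, 9, 6, 14, 10, 21, 3, 11, 12, 0, 20, 17, 2, 18, 15, 19, 7, 5, 22, 13],
   [23, 1, 4, 10, 16, 11, 3, 7, 8, 5, 6, 9, 20, 0, 12, 19, 2, 15, 18, 17, 14, 21, 22, 13],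
   [23, 1, 4, 3, 16, 21, 10, 12, 6, 9, 8, 5, 14, 0, 7, 18, 2, 17, 19, 15, 20, 11, 22, 13],
   [23, 1, 16, 3, 4, 5, 10, 14, 6, 11, 8, 21, 12, 0, 20, 19, 22, 15, 18, 17, 7, 9, 2, 13],
   [23, 1, 16, 6, 4, 21, 8, 7, 3, 9, 10, 5, 20, 0, 12, 17, 22, 18, 15, 19, 14, 11, 2, 13],
   [23, 1, 16, 8, 4, 11, 6, 12, 10, 5, 3, 9, 14, 0, 7, 15, 22, 19, 17, 18, 20, 21, 2, 13],
   [23, 1, 16, 10, 4, 9, 3, 20, 8, 21, 6, 11, 7, 0, 14, 18, 22, 17, 19, 15, 12, 5, 2, 13],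
   [0, 23, 22, 8, 4, 21, 3, 20, 6, 5, 10, 11, 12, 1, 7, 15, 2, 18, 19, 17, 14, 9, 16, 13],
   [0, 23, 22, 10, 4, 5, 6, 12, 3, 21, 8, 9, 20, 1, 14, 18, 2, 15, 17, 19, 7, 11, 16, 13],
   [0, 23, 22, 6, 4, 11, 10, 14, 8, 9, 3, 21, 7, 1, 12, 17, 2, 19, 18, 15, 20, 5, 16, 13],
   [0, 23, 22, 3, 4, 9, 8, 7, 10, 11, 6, 5, 14, 1, 20, 19, 2, 17, 15, 18, 12, 21, 16, 13],
   [0, 23, 2, 6, 16, 9, 10, 12, 8, 11, 3, 5, 20, 1, 14, 15, 22, 18, 19, 17, 7, 21, 4, 13],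
   [0, 23, 2, 3, 16, 11, 8, 20, 10, 9, 6, 21, 12, 1, 7, 18, 22, 15, 17, 19, 14, 5, 4, 13],
   [0, 23, 2, 8, 16, 5, 3, 7, 6, 21, 10, 9, 14, 1, 20, 17, 22, 19, 18, 15, 12, 11, 4, 13],
   [0, 23, 2, 10, 16, 21, 6, 14, 3, 5, 8, 11, 7, 1, 12, 19, 22, 17, 15, 18, 20, 9, 4, 13],
   [0, 23, 4, 8, 22, 11, 3, 12, 6, 9, 10, 21, 20, 1, 14, 19, 16, 17, 15, 18, 7, 5, 2, 13],
   [0, 23, 4, 3, 22, 5, 8, 14, 10, 21, 6, 9, 7, 1, 12, 15, 16, 18, 19, 17, 20, 11, 2, 13],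
   [0, 23, 4, 6, 22, 21, 10, 7, 8, 5, 3, 11, 14, 1, 20, 18, 16, 15, 17, 19, 12, 9, 2, 13],
   [0, 23, 4, 10, 22, 9, 6, 20, 3, 11, 8, 5, 12, 1, 7, 17, 16, 19, 18, 15, 14, 21, 2, 13],
   [0, 23, 16, 3, 2, 21, 8, 12, 10, 5, 6, 11, 20, 1, 14, 17, 4, 19, 18, 15, 7, 9, 22, 13],
   [0, 23, 16, 6, 2, 5, 10, 20, 8, 21, 3, 9, 12, 1, 7, 19, 4, 17, 15, 18, 14, 11, 22, 13],
   [0, 23, 16, 10, 2, 11, 6, 7, 3, 9, 8, 21, 14, 1, 20, 15, 4, 18, 19, 17, 12, 5, 22, 13],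
   [0, 23, 16, 8, 2, 9, 3, 14, 6, 11, 10, 5, 7, 1, 12, 18, 4, 15, 17, 19, 20, 21, 22, 13],
   [0, 1, 2, 3, 4, 5, 6, 7, 8, 9, 10, 11, 12, 13, 14, 15, 16, 17, 18, 19, 20, 21, 22, 23],
   [0, 1, 2, 10, 4, 9, 8, 12, 6, 5, 3, 21, 7, 13, 20, 17, 16, 15, 19, 18, 14, 11, 22, 23],
   [0, 1, 2, 8, 4, 11, 10, 20, 3, 21, 6, 5, 14, 13, 12, 19, 16, 18, 17, 15, 7, 9, 22, 23],
   [0, 1, 2, 6, 4, 21, 3, 14, 10, 11, 8, 9, 20, 13, 7, 18, 16, 19, 15, 17, 12, 5, 22, 23],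
   [0, 1, 4, 8, 2, 5, 10, 14, 3, 9, 6, 11, 20, 13, 7, 17, 22, 15, 19, 18, 12, 21, 16, 23],
   [0, 1, 4, 3, 2, 11, 6, 12, 8, 21, 10, 5, 7, 13, 20, 18, 22, 19, 15, 17, 14, 9, 16, 23],
   [0, 1, 4, 10, 2, 21, 8, 7, 6, 11, 3, 9, 12, 13, 14, 19, 22, 18, 17, 15, 20, 5, 16, 23],
   [0, 1, 4, 6, 2, 9, 3, 20, 10, 5, 8, 21, 14, 13, 12, 15, 22, 17, 18, 19, 7, 11, 16, 23],
   [0, 1, 16, 3, 22, 9, 6, 14, 8, 5, 10, 21, 20, 13, 7, 19, 2, 18, 17, 15, 12, 11, 4, 23],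
   [0, 1, 16, 10, 22, 5, 8, 20, 6, 9, 3, 11, 14, 13, 12, 18, 2, 19, 15, 17, 7, 21, 4, 23],
   [0, 1, 16, 8, 22, 21, 10, 12, 3, 11, 6, 9, 7, 13, 20, 15, 2, 17, 18, 19, 14, 5, 4, 23],
   [0, 1, 16, 6, 22, 11, 3, 7, 10, 21, 8, 5, 12, 13, 14, 17, 2, 15, 19, 18, 20, 9, 4, 23],
   [0, 1, 22, 6, 16, 5, 3, 12, 10, 9, 8, 11, 7, 13, 20, 19, 4, 18, 17, 15, 14, 21, 2, 23],
   [0, 1, 22, 10, 16, 11, 8, 14, 6, 21, 3, 5, 20, 13, 7, 15, 4, 17, 18, 19, 12, 9, 2, 23],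
   [0, 1, 22, 3, 16, 21, 6, 20, 8, 11, 10, 9, 14, 13, 12, 17, 4, 15, 19, 18, 7, 5, 2, 23],
   [0, 1, 22, 8, 16, 9, 10, 7, 3, 5, 6, 21, 12, 13, 14, 18, 4, 19, 15, 17, 20, 11, 2, 23],
   [1, 13, 2, 8, 16, 21, 3, 12, 6, 5, 10, 11, 20, 0, 14, 18, 22, 15, 17, 19, 7, 9, 4, 23],
   [1, 13, 2, 3, 16, 9, 8, 14, 10, 11, 6, 5, 7, 0, 12, 17, 22, 19, 18, 15, 20, 21, 4, 23],
   [1, 13, 2, 6, 16, 11, 10, 7, 8, 9, 3, 21, 14, 0, 20, 19, 22, 17, 15, 18, 12, 5, 4, 23],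
   [1, 13, 2, 10, 16, 5, 6, 20, 3, 21, 8, 9, 12, 0, 7, 15, 22, 18, 19, 17, 14, 11, 4, 23],
   [1, 13, 4, 8, 22, 9, 3, 7, 6, 11, 10, 5, 14, 0, 20, 15, 16, 18, 19, 17, 12, 21, 2, 23],
   [1, 13, 4, 10, 22, 11, 6, 14, 3, 9, 8, 21, 7, 0, 12, 18, 16, 15, 17, 19, 20, 5, 2, 23],
   [1, 13, 4, 3, 22, 21, 8, 20, 10, 5, 6, 11, 12, 0, 7, 19, 16, 17, 15, 18, 14, 9, 2, 23],
   [1, 13, 4, 6, 22, 5, 10, 12, 8, 21, 3, 9, 20, 0, 14, 17, 16, 19, 18, 15, 7, 11, 2, 23],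
   [1, 13, 16, 3, 2, 5, 8, 7, 10, 21, 6, 9, 14, 0, 20, 18, 4, 15, 17, 19, 12, 11, 22, 23],
   [1, 13, 16, 6, 2, 21, 10, 14, 8, 5, 3, 11, 7, 0, 12, 15, 4, 18, 19, 17, 20, 9, 22, 23],
   [1, 13, 16, 8, 2, 11, 3, 20, 6, 9, 10, 21, 12, 0, 7, 17, 4, 19, 18, 15, 14, 5, 22, 23],
   [1, 13, 16, 10, 2, 9, 6, 12, 3, 11, 8, 5, 20, 0, 14, 19, 4, 17, 15, 18, 7, 21, 22, 23],
   [1, 13, 22, 3, 4, 11, 8, 12, 10, 9, 6, 21, 20, 0, 14, 15, 2, 18, 19, 17, 7, 5, 16, 23],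
   [1, 13, 22, 10, 4, 21, 6, 7, 3, 5, 8, 11, 14, 0, 20, 17, 2, 19, 18, 15, 12, 9, 16, 23],
   [1, 13, 22, 6, 4, 9, 10, 20, 8, 11, 3, 5, 12, 0, 7, 18, 2, 15, 17, 19, 14, 21, 16, 23],
   [1, 13, 22, 8, 4, 5, 3, 14, 6, 21, 10, 9, 7, 0, 12, 19, 2, 17, 15, 18, 20, 11, 16, 23],
   [13, 0, 16, 6, 4, 5, 8, 12, 3, 11, 10, 21, 14, 1, 7, 18, 22, 17, 19, 15, 20, 9, 2, 23],
   [13, 0, 16, 8, 4, 9, 6, 7, 10, 21, 3, 11, 20, 1, 12, 19, 22, 15, 18, 17, 14, 5, 2, 23],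
   [13, 0, 16, 3, 4, 21, 10, 20, 6, 9, 8, 5, 7, 1, 14, 15, 22, 19, 17, 18, 12, 11, 2, 23],
   [13, 0, 16, 10, 4, 11, 3, 14, 8, 5, 6, 9, 12, 1, 20, 17, 22, 18, 15, 19, 7, 21, 2, 23],
   [13, 0, 22, 6, 2, 11, 8, 7, 3, 5, 10, 9, 20, 1, 12, 15, 16, 19, 17, 18, 14, 21, 4, 23],
   [13, 0, 22, 10, 2, 5, 3, 20, 8, 11, 6, 21, 7, 1, 14, 19, 16, 15, 18, 17, 12, 9, 4, 23],
   [13, 0, 22, 3, 2, 9, 10, 14, 6, 21, 8, 11, 12, 1, 20, 18, 16, 17, 19, 15, 7, 5, 4, 23],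
   [13, 0, 22, 8, 2, 21, 6, 12, 10, 9, 3, 5, 14, 1, 7, 17, 16, 18, 15, 19, 20, 11, 4, 23],
   [13, 0, 2, 10, 22, 21, 3, 7, 8, 9, 6, 5, 20, 1, 12, 18, 4, 17, 19, 15, 14, 11, 16, 23],
   [13, 0, 2, 3, 22, 11, 10, 12, 6, 5, 8, 9, 14, 1, 7, 19, 4, 15, 18, 17, 20, 21, 16, 23],
   [13, 0, 2, 8, 22, 5, 6, 14, 10, 11, 3, 21, 12, 1, 20, 15, 4, 19, 17, 18, 7, 9, 16, 23],
   [13, 0, 2, 6, 22, 9, 8, 20, 3, 21, 10, 11, 7, 1, 14, 17, 4, 18, 15, 19, 12, 5, 16, 23],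
   [13, 0, 4, 10, 16, 9, 3, 12, 8, 21, 6, 11, 14, 1, 7, 15, 2, 19, 17, 18, 20, 5, 22, 23],
   [13, 0, 4, 8, 16, 11, 6, 20, 10, 5, 3, 9, 7, 1, 14, 18, 2, 17, 19, 15, 12, 21, 22, 23],
   [13, 0, 4, 3, 16, 5, 10, 7, 6, 11, 8, 21, 20, 1, 12, 17, 2, 18, 15, 19, 14, 9, 22, 23],
   [13, 0, 4, 6, 16, 21, 8, 14, 3, 9, 10, 5, 12, 1, 20, 19, 2, 15, 18, 17, 7, 11, 22, 23]]

set_option maxRecDepth 100000 in
theorem KL_eq : eqLL ((pruneElems tetOfK chM idT).filter fun T =>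
    MsK.all fun m => Nat.beq (permMask (tf T) m) m) KLit = true := by decide +kernel

theorem tet_spec : ∀ i, i < 24 → tetOfK i ∈ MsK ∧ (tetOfK i).testBit i = true := by decide +kernel

theorem MsK_lt : ∀ m ∈ MsK, m < 2 ^ 24 := by decide +kernel

theorem K_enum (σ : Equiv.Perm GolayPt) (hσ : σ ∈ GS MsK []) :
    ∃ T ∈ KLit, isPerm T = true ∧ σ = permOf T := by
  have hal : ∀ i, i < 24 → σ (pt i) ∈ toSet (tetOfK i) := by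
    intro i hi
    have h1 := tet_spec i hi
    rw [← hσ.2.1 _ h1.1]
    exact Finset.smul_mem_smul_finset (by rw [mem_toSet, idx_pt i hi]; exact h1.2)
  obtain ⟨T, hT, hT1, rfl⟩ := prune_M24 tetOfK σ hσ.1 hal
  refine ⟨T, ?_, hT1, rfl⟩
  rw [← eqLL_sound _ _ KL_eq, List.mem_filter]
  refine ⟨hT, List.all_eq_true.2 fun m hm => ?_⟩
  rw [nbeq_iff]
  have h2 := hσ.2.1 m hm
  rw [smul_toSet_permOf hT1] at h2
  exact toSet_inj (permMask_lt' hT1 m) (MsK_lt m hm) h2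

set_option maxRecDepth 100000 in
theorem KLit_ok : (KLit.all fun T => inGS MsK [] T && normT T) = true := by decide +kernel

theorem K_mem {T : List Nat} (hT : T ∈ KLit) :
    inM24 T = true ∧ permOf T ∈ GS MsK [] ∧ normT T = true := by
  have h := List.all_eq_true.1 KLit_ok T hT
  rw [Bool.and_eq_true] at h
  obtain ⟨h1, h2⟩ := permOf_mem_GS (fun i hi => absurd hi List.not_mem_nil) h.1
  exact ⟨h1, h2, h.2⟩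

set_option maxRecDepth 100000 in
theorem KLit_nodup : KLit.Nodup := by decide +kernel

theorem KLit_length : KLit.length = 192 := by decide +kernel

theorem K_inj : ∀ T ∈ KLit, ∀ T' ∈ KLit, permOf T = permOf T' → T = T' := fun _ hT _ hT' e =>
  permOf_inj_norm (isPerm_of_inM24 (K_mem hT).1) (isPerm_of_inM24 (K_mem hT').1) (K_mem hT).2.2
    (K_mem hT').2.2 e

theorem card_K : Nat.card (GS MsK []) = 192 := by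
  have e : ((GS MsK [] : Subgroup (Equiv.Perm GolayPt)) : Set (Equiv.Perm GolayPt)) =
      permOf '' {T | T ∈ KLit ∧ (fun _ => true) T = true} := by
    ext σ
    constructor
    · intro hσ
      obtain ⟨T, hT, -, rfl⟩ := K_enum σ hσ
      exact ⟨T, ⟨hT, rfl⟩, rfl⟩
    · rintro ⟨T, ⟨hT, -⟩, rfl⟩
      exact (K_mem hT).2.1
  show Nat.card ((GS MsK [] : Subgroup (Equiv.Perm GolayPt)) : Set (Equiv.Perm GolayPt)) = 192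
  rw [Nat.card_coe_set_eq, e, ncard_image_list KLit KLit_nodup permOf K_inj (fun _ => true),
    List.filter_true, KLit_length]

/-- the standard sextet -/
theorem MsK_mem : MsK ∈ sextLL := by decide +kernel

theorem presents_mem {L : List Nat} {X : Finset (Finset GolayPt)} (h : Presents L X)
    (t : Finset GolayPt) : t ∈ X ↔ ∃ m ∈ L, toSet m = t := by
  have h1 := h (fun u => if u = t then 1 else 0)
  rw [Finset.sum_ite_eq' X t (fun _ => 1)] at h1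
  constructor
  · intro ht
    rw [if_pos ht] at h1
    by_contra hne
    push Not at hne
    have h2 : (L.map fun m => if toSet m = t then 1 else 0).sum = 0 := by
      apply List.sum_eq_zero
      intro x hx
      obtain ⟨m, hm, rfl⟩ := List.mem_map.1 hx
      rw [if_neg (hne m hm)]
    omega
  · rintro ⟨m, hm, rfl⟩
    by_contra hnot
    rw [if_neg hnot] at h1
    have h2 : 1 ≤ (L.map fun m' => if toSet m' = toSet m then 1 else 0).sum :=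
      List.single_le_sum (fun x _ => Nat.zero_le x) _ (List.mem_map.2 ⟨m, hm, by simp⟩)
    omega

theorem mem_S0 (t : Finset GolayPt) : t ∈ sextOf (toSet 8396803) ↔ ∃ m ∈ MsK, toSet m = t :=
  presents_mem (presents_sextLL MsK_mem) t

theorem S0_mem : sextOf (toSet 8396803) ∈ sextets :=
  sextOf_mem _ (by rw [card_toSet]; decide +kernel)

theorem fix_S0_iff (g : Equiv.Perm GolayPt) (hg : g ∈ M24) :
    (∀ t ∈ sextOf (toSet 8396803), g • t = t) ↔ g ∈ GS MsK [] := by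
  constructor
  · intro h
    exact ⟨hg, fun m hm => h _ ((mem_S0 _).2 ⟨m, hm, rfl⟩), fun i hi => absurd hi List.not_mem_nil⟩
  · intro h t ht
    obtain ⟨m, hm, rfl⟩ := (mem_S0 t).1 ht
    exact h.2.1 m hm

/-- the fixed-point-free involutions fixing each tetrad -/
def E18 : List (List Nat) :=
  [[23, 13, 22, 6, 16, 11, 3, 20, 10, 21, 8, 5, 14, 1, 12, 18, 4, 19, 15, 17, 7, 9, 2, 0],
   [23, 13, 22, 8, 16, 21, 10, 14, 3, 11, 6, 9, 20, 1, 7, 19, 4, 18, 17, 15, 12, 5, 2, 0],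
   [23, 13, 16, 8, 22, 9, 10, 20, 3, 5, 6, 21, 14, 1, 12, 17, 2, 15, 19, 18, 7, 11, 4, 0],
   [23, 13, 16, 10, 22, 11, 8, 12, 6, 21, 3, 5, 7, 1, 20, 19, 2, 18, 17, 15, 14, 9, 4, 0],
   [23, 13, 4, 10, 2, 9, 8, 14, 6, 5, 3, 21, 20, 1, 7, 18, 22, 19, 15, 17, 12, 11, 16, 0],
   [23, 13, 4, 6, 2, 21, 3, 12, 10, 11, 8, 9, 7, 1, 20, 17, 22, 15, 19, 18, 14, 5, 16, 0],
   [13, 23, 16, 6, 22, 21, 3, 20, 10, 11, 8, 9, 14, 0, 12, 19, 2, 18, 17, 15, 7, 5, 4, 1],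
   [13, 23, 16, 8, 22, 11, 10, 14, 3, 21, 6, 5, 20, 0, 7, 18, 2, 19, 15, 17, 12, 9, 4, 1],
   [13, 23, 22, 10, 16, 21, 8, 12, 6, 11, 3, 9, 7, 0, 20, 18, 4, 19, 15, 17, 14, 5, 2, 1],
   [13, 23, 22, 6, 16, 9, 3, 14, 10, 5, 8, 21, 20, 0, 7, 17, 4, 15, 19, 18, 12, 11, 2, 1],
   [13, 23, 4, 8, 2, 9, 10, 12, 3, 5, 6, 21, 7, 0, 20, 19, 22, 18, 17, 15, 14, 11, 16, 1],
   [13, 23, 4, 10, 2, 11, 8, 20, 6, 21, 3, 5, 14, 0, 12, 17, 22, 15, 19, 18, 7, 9, 16, 1],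
   [1, 0, 4, 6, 2, 11, 3, 14, 10, 21, 8, 5, 20, 23, 7, 19, 22, 18, 17, 15, 12, 9, 16, 13],
   [1, 0, 4, 8, 2, 21, 10, 20, 3, 11, 6, 9, 14, 23, 12, 18, 22, 19, 15, 17, 7, 5, 16, 13],
   [1, 0, 16, 6, 22, 9, 3, 12, 10, 5, 8, 21, 7, 23, 20, 18, 2, 19, 15, 17, 14, 11, 4, 13],
   [1, 0, 16, 10, 22, 21, 8, 14, 6, 11, 3, 9, 20, 23, 7, 17, 2, 15, 19, 18, 12, 5, 4, 13],
   [1, 0, 22, 10, 16, 9, 8, 20, 6, 5, 3, 21, 14, 23, 12, 19, 4, 18, 17, 15, 7, 11, 2, 13],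
   [1, 0, 22, 8, 16, 11, 10, 12, 3, 21, 6, 5, 7, 23, 20, 17, 4, 15, 19, 18, 14, 9, 2, 13]]

/-- the test for a fixed-point-free involution -/
def fpfInv (T : List Nat) : Bool :=
  powId 2 T && (List.range 24).all fun i => !(Nat.beq (tf T i) i)

set_option maxRecDepth 100000 in
theorem E18_eq : eqLL (KLit.filter fpfInv) E18 = true := by decide +kernel

theorem E18_length : E18.length = 18 := by decide +kernel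

set_option maxRecDepth 100000 in
theorem uniqS0 : (sextLL.all fun L => !(L.all fun m => Nat.beq (permMask (tf t0T) m) m) ||
    eqNats L MsK) = true := by decide +kernel

set_option maxRecDepth 100000 in
theorem sextLL_lt : (sextLL.all fun L => L.all fun m => Nat.blt m 16777216) = true := by
  decide +kernel

theorem MsK_fix : (MsK.all fun m => Nat.beq (permMask (tf t0T) m) m) = true := by decide +kernel

/-- certificates: elements of the stabiliser of the standard sextet conjugating the standard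
involution to each of the 18 -/
def certsH : List Nat :=
  [255112993875495630165520946532321539, 588641705639356736709276284172215687, 3016512730919723886785156371321271, 460156400650695973607909164249798949,
   984818244535754528103549039458486304, 715447330470499474417399491694252655, 15184616557568537593759136338301997, 800930176418065188388799782432478801,
   852159644704980876919607300706293998, 602694852900431673838370340875733383, 266822999334356573715785953385831530, 545815316189298965929280208287946784,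
   192875152351239631386821777529445890, 983420617143087131775163045150073901, 802778410977494891042791507121838673, 355334441841492676621458933849148518,
   8402795596244485524310461693405921, 518367077030078871829214604389829063]

/-- the test of such a certificate -/
def testH (T : List Nat) (n : Nat) : Bool :=
  stabSextN 8396803 n && (List.range 24).all fun k => Nat.beq (tfN n (tf t0T k)) (tf T (tfN n k))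

set_option maxRecDepth 100000 in
theorem certsH_ok : zipAll testH E18 certsH = true := by decide +kernel

/-- certificates: elements of the centraliser of the standard involution mapping the point 0 to
each point -/
def certsC : List Nat :=
  [984818244535754528103549039458486304, 547126174696963286418459744992876257, 173175595785860142092388351581204162, 446140967232848856868335503227270403,
   109589788711898589482746592484826820, 398516575585686694643266570529521317, 335855365017834398521949834959280454, 581910812064974511746342662809650567,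
   252327856786121300773530549203556456, 215499636997315104194975636444941673, 144985070711304272499690578243734794, 876752324312920450701423184573438251,
   845111838537352936536144008715703532, 52144993216646680396940726851020813, 291379952554053790240461255278429838, 762545714540296276723467936668362351,
   913991910552836643991443338968728720, 805009714273722635019004399227976273, 631773198217750621585912945961209394, 718242249237361996057780459895084627,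
   511469967393806073182085603882737908, 462359695406952177144904861968914613, 680435987815417332924755795245571158, 16357941711095220862938896564329911]

/-- the test of such a certificate -/
def testC (q : Nat) (n : Nat) : Bool :=
  inM24N n && Nat.beq (tfN n 0) q &&
    (List.range 24).all fun k => Nat.beq (tfN n (tf t0T k)) (tf t0T (tfN n k))

set_option maxRecDepth 100000 in
theorem certsC_ok : zipAll testC (List.range 24) certsC = true := by decide +kernel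

end Golay
end Cfsg.Agent.Helper28
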