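import Mathlib
import Cfsg.Agent.Helper28.SextK

set_option autoImplicit false

namespace Cfsg.Agent.Helper28
namespace Golay

open Cfsg
open scoped Pointwise

/-! ### The centraliser of a fixed-point-free involution -/

/-- the centraliser of a permutation in the group of the code -/
def Cent (t : Equiv.Perm GolayPt) : Subgroup (Equiv.Perm GolayPt) where
  carrier := {c | c ∈ M24 ∧ c * t = t * c}
  mul_mem' := by
    rintro a b ⟨ha, ha'⟩ ⟨hb, hb'⟩
    refine ⟨M24.mul_mem ha hb, ?_⟩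
    rw [mul_assoc, hb', ← mul_assoc, ha', mul_assoc]
  one_mem' := ⟨M24.one_mem, by rw [one_mul, mul_one]⟩
  inv_mem' := by
    rintro a ⟨ha, ha'⟩
    refine ⟨M24.inv_mem ha, ?_⟩
    rw [inv_mul_eq_iff_eq_mul, ← mul_assoc, ha', mul_assoc, mul_inv_cancel, mul_one]

theorem mul_tables {A B C D : List Nat} (hA : isPerm A = true) (hB : isPerm B = true)
    (hC : isPerm C = true) (hD : isPerm D = true)
    (h : ∀ i, i < 24 → tf A (tf B i) = tf C (tf D i)) :
    permOf A * permOf B = permOf C * permOf D := by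
  rw [permOf_mul hA hB, permOf_mul hC hD]
  exact permOf_eq_of_tf (isPerm_comp hA hB) (isPerm_comp hC hD) fun i hi => by
    rw [tf_comp A B hi, tf_comp C D hi]
    exact h i hi

theorem t0_fix_tet {τ : Finset GolayPt} (hτ : τ ∈ sextOf (toSet 8396803)) :
    permOf t0T • τ = τ := by
  obtain ⟨m', hm', rfl⟩ := (mem_S0 τ).1 hτ
  rw [smul_toSet_permOf (isPerm_of_inM24 in_t0),
    (nbeq_iff _ _).1 (List.all_eq_true.1 MsK_fix m' hm')]

/-- the centraliser of the standard involution fixes the standard sextet -/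
theorem cent_le (c : Equiv.Perm GolayPt) (hc : c ∈ Cent (permOf t0T)) :
    c • sextOf (toSet 8396803) = sextOf (toSet 8396803) := by
  obtain ⟨hc1, hc2⟩ := hc
  have hS := smul_mem_sextets hc1 S0_mem
  obtain ⟨L, hL, e⟩ := sextLL_dec hS
  have hP := presents_sextLL hL
  rw [e] at hP
  have hfix : (L.all fun m => Nat.beq (permMask (tf t0T) m) m) = true := by
    rw [List.all_eq_true]
    intro m hm
    rw [nbeq_iff]
    have h1 : toSet m ∈ c • sextOf (toSet 8396803) := (presents_mem hP _).2 ⟨m, hm, rfl⟩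
    obtain ⟨τ, hτ, hτm⟩ := Finset.mem_smul_finset.1 h1
    have h3 : permOf t0T • toSet m = toSet m := by
      rw [← hτm, ← mul_smul, ← hc2, mul_smul, t0_fix_tet hτ]
    rw [smul_toSet_permOf (isPerm_of_inM24 in_t0)] at h3
    have hlt : m < 2 ^ 24 :=
      Nat.blt_eq.mp (List.all_eq_true.1 (List.all_eq_true.1 sextLL_lt L hL) m hm)
    exact toSet_inj (permMask_lt' (isPerm_of_inM24 in_t0) m) hlt h3
  have h4 := List.all_eq_true.1 uniqS0 L hL
  rw [hfix] at h4
  have h5 : L = MsK := eqNats_sound _ _ (by simpa using h4)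
  rw [← e, h5]
  rfl

/-- the centraliser of the standard involution is transitive -/
theorem cent_trans (p q : GolayPt) : ∃ c ∈ Cent (permOf t0T), c p = q := by
  have ht := isPerm_of_inM24 in_t0
  have key : ∀ j, j < 24 → ∃ c ∈ Cent (permOf t0T), c (pt 0) = pt j := by
    intro j hj
    obtain ⟨n, hn⟩ := zipAll_sound testC (List.range 24) certsC certsC_ok j (List.mem_range.2 hj)
    rw [testC, Bool.and_eq_true, Bool.and_eq_true, nbeq_iff, List.all_eq_true] at hn
    obtain ⟨⟨h1, h2⟩, h3⟩ := hn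
    have hM : inM24 (decT n) = true := by
      rw [inM24N_eq]
      exact h1
    have hP := isPerm_of_inM24 hM
    refine ⟨permOf (decT n), ⟨permOf_mem_M24 hM, ?_⟩, ?_⟩
    · exact mul_tables hP ht ht hP fun i hi => by
        have h4 := (nbeq_iff _ _).1 (h3 i (List.mem_range.2 hi))
        rw [tf_decT n (tf_lt ht hi), tf_decT n hi]
        exact h4
    · rw [permOf_pt hP (by norm_num), tf_decT n (by norm_num), h2]
  obtain ⟨c1, hc1, e1⟩ := key (idx p) (idx_lt p)
  obtain ⟨c2, hc2, e2⟩ := key (idx q) (idx_lt q)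
  refine ⟨c2 * c1⁻¹, (Cent _).mul_mem hc2 ((Cent _).inv_mem hc1), ?_⟩
  have hp : c1⁻¹ p = pt 0 := by rw [Equiv.Perm.inv_eq_iff_eq, e1, pt_idx]
  rw [Equiv.Perm.mul_apply, hp, e2, pt_idx]

theorem card_stab_sext (S : Finset (Finset GolayPt)) (hS : S ∈ sextets) :
    Nat.card ↥(M24 ⊓ MulAction.stabilizer (Equiv.Perm GolayPt) S) = 138240 := by
  rw [← card_stab_sub]
  have h1 := Subgroup.card_mul_index (MulAction.stabilizer M24 S)
  have h2 : MulAction.orbit M24 S = sextets := by
    ext e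
    constructor
    · rintro ⟨⟨σ, hσ⟩, rfl⟩
      exact smul_mem_sextets hσ hS
    · intro he
      obtain ⟨σ, hσ, h⟩ := sext_trans _ e hS he
      exact ⟨⟨σ, hσ⟩, h⟩
  rw [MulAction.index_stabilizer, h2, ncard_sextets, card_M24] at h1
  omega

theorem card_stab_S0 :
    Nat.card ↥(M24 ⊓ MulAction.stabilizer (Equiv.Perm GolayPt) (sextOf (toSet 8396803))) =
      138240 := card_stab_sext _ S0_mem

theorem E18_sub {T : List Nat} (hT : T ∈ E18) : T ∈ KLit := by
  have h : T ∈ KLit.filter fpfInv := by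
    rw [eqLL_sound _ _ E18_eq]
    exact hT
  exact (List.mem_filter.1 h).1

theorem hh_spec (T : List Nat) (hT : T ∈ E18) :
    ∃ h ∈ M24 ⊓ MulAction.stabilizer (Equiv.Perm GolayPt) (sextOf (toSet 8396803)),
      h * permOf t0T = permOf T * h := by
  obtain ⟨n, hn⟩ := zipAll_sound testH E18 certsH certsH_ok T hT
  rw [testH, Bool.and_eq_true, List.all_eq_true] at hn
  obtain ⟨h1, h2⟩ := stabSextN_sound (m0 := 8396803) (by decide +kernel) (by norm_num) n hn.1
  have hP := isPerm_of_inM24 h1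
  have ht := isPerm_of_inM24 in_t0
  have hTP := isPerm_of_inM24 (K_mem (E18_sub hT)).1
  refine ⟨permOf (decT n), ⟨permOf_mem_M24 h1, h2⟩, ?_⟩
  exact mul_tables hP ht hTP hP fun i hi => by
    have h4 := (nbeq_iff _ _).1 (hn.2 i (List.mem_range.2 hi))
    rw [tf_decT n (tf_lt ht hi), tf_decT n hi]
    exact h4

theorem conj_in_E18 (h : Equiv.Perm GolayPt)
    (hh : h ∈ M24 ⊓ MulAction.stabilizer (Equiv.Perm GolayPt) (sextOf (toSet 8396803))) :
    ∃ T ∈ E18, h * permOf t0T = permOf T * h := by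
  have hinv : h⁻¹ • sextOf (toSet 8396803) = sextOf (toSet 8396803) := by
    rw [inv_smul_eq_iff]
    exact (MulAction.mem_stabilizer_iff.1 hh.2).symm
  have ht'K : h * permOf t0T * h⁻¹ ∈ GS MsK [] := by
    rw [← fix_S0_iff _ (M24.mul_mem (M24.mul_mem hh.1 t0_mem) (M24.inv_mem hh.1))]
    intro τ hτ
    have h1 : h⁻¹ • τ ∈ h⁻¹ • sextOf (toSet 8396803) := Finset.smul_mem_smul_finset hτ
    rw [hinv] at h1
    rw [mul_smul, mul_smul, t0_fix_tet h1, smul_inv_smul]
  obtain ⟨T, hT, hT1, e⟩ := K_enum _ ht'K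
  have hsq : permOf T ^ 2 = 1 := by
    rw [← e, conj_pow, t0_sq, mul_one, mul_inv_cancel]
  have hfpf : ∀ i, i < 24 → tf T i ≠ i := by
    intro i hi heq
    have h2 : (h * permOf t0T * h⁻¹) (pt i) = pt i := by rw [e, permOf_pt hT1 hi, heq]
    have h3 : permOf t0T (h⁻¹ (pt i)) = h⁻¹ (pt i) := by
      rw [Equiv.Perm.mul_apply, Equiv.Perm.mul_apply] at h2
      calc permOf t0T (h⁻¹ (pt i)) = h⁻¹ (h (permOf t0T (h⁻¹ (pt i)))) :=
            (perm_inv_apply h _).symm
        _ = h⁻¹ (pt i) := by rw [h2]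
    exact t0_fix _ h3
  have hTE : T ∈ E18 := by
    rw [← eqLL_sound _ _ E18_eq, List.mem_filter]
    refine ⟨hT, ?_⟩
    rw [fpfInv, Bool.and_eq_true, List.all_eq_true]
    refine ⟨powId_of_pow hT1 hsq, fun i hi => ?_⟩
    have h4 := hfpf i (List.mem_range.1 hi)
    rw [Bool.not_eq_true', ← Bool.not_eq_true, nbeq_iff]
    exact h4
  refine ⟨T, hTE, ?_⟩
  rw [← e]
  group

set_option maxRecDepth 100000 in
theorem E18_nodup : E18.Nodup := by decide +kernel

/-- the order of the centraliser of the standard involution -/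
theorem card_cent0 : Nat.card (Cent (permOf t0T)) = 7680 := by
  classical
  have hch : ∀ T : ↥E18.toFinset,
      ∃ h ∈ M24 ⊓ MulAction.stabilizer (Equiv.Perm GolayPt) (sextOf (toSet 8396803)),
        h * permOf t0T = permOf T.1 * h := fun T => hh_spec T.1 (List.mem_toFinset.1 T.2)
  choose hOf hOf1 hOf2 using hch
  have hCle : ∀ c ∈ Cent (permOf t0T),
      c ∈ M24 ⊓ MulAction.stabilizer (Equiv.Perm GolayPt) (sextOf (toSet 8396803)) :=
    fun c hc => ⟨hc.1, cent_le c hc⟩
  let F : ↥E18.toFinset × ↥(Cent (permOf t0T)) →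
      ↥(M24 ⊓ MulAction.stabilizer (Equiv.Perm GolayPt) (sextOf (toSet 8396803))) :=
    fun x => ⟨hOf x.1 * x.2.1, Subgroup.mul_mem _ (hOf1 x.1) (hCle _ x.2.2)⟩
  have hF : Function.Bijective F := by
    constructor
    · rintro ⟨T, c⟩ ⟨T', c'⟩ he
      have he' : hOf T * c.1 = hOf T' * c'.1 := congrArg Subtype.val he
      have k1 : hOf T * c.1 * permOf t0T = permOf T.1 * (hOf T * c.1) := by
        rw [mul_assoc, c.2.2, ← mul_assoc, hOf2 T, mul_assoc]
      have k2 : hOf T' * c'.1 * permOf t0T = permOf T'.1 * (hOf T' * c'.1) := by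
        rw [mul_assoc, c'.2.2, ← mul_assoc, hOf2 T', mul_assoc]
      rw [he'] at k1
      have k3 : permOf T.1 = permOf T'.1 := mul_right_cancel (k1.symm.trans k2)
      have k4 : T.1 = T'.1 := K_inj _ (E18_sub (List.mem_toFinset.1 T.2)) _
        (E18_sub (List.mem_toFinset.1 T'.2)) k3
      have k5 : T = T' := Subtype.ext k4
      subst k5
      have k6 : c.1 = c'.1 := mul_left_cancel he'
      rw [Subtype.ext k6]
    · rintro ⟨h, hh⟩
      obtain ⟨T, hT, e⟩ := conj_in_E18 h hh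
      let T' : ↥E18.toFinset := ⟨T, List.mem_toFinset.2 hT⟩
      have e2 : hOf T' * permOf t0T = permOf T * hOf T' := hOf2 T'
      have hc : (hOf T')⁻¹ * h ∈ Cent (permOf t0T) := by
        refine ⟨M24.mul_mem (M24.inv_mem (hOf1 T').1) hh.1, ?_⟩
        have e3 : permOf t0T * (hOf T')⁻¹ = (hOf T')⁻¹ * permOf T := by
          rw [eq_inv_mul_iff_mul_eq, ← mul_assoc, e2, mul_assoc, mul_inv_cancel, mul_one]
        rw [mul_assoc, e, ← mul_assoc, ← e3, mul_assoc]
      refine ⟨(T', ⟨_, hc⟩), Subtype.ext ?_⟩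
      show hOf T' * ((hOf T')⁻¹ * h) = h
      rw [mul_inv_cancel_left]
  have h1 := Nat.card_congr (Equiv.ofBijective F hF)
  rw [Nat.card_prod, card_stab_S0, Nat.card_eq_fintype_card, Fintype.card_coe,
    List.toFinset_card_of_nodup E18_nodup, E18_length] at h1
  omega

end Golay
end Cfsg.Agent.Helper28
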