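import Mathlib
import Cfsg.Agent.Helper28.M12More

set_option autoImplicit false

namespace Cfsg.Agent.Helper28
namespace Golay

open Cfsg
open scoped Pointwise

/-! ### The stabiliser of three points of a dodecad in the dodecad stabiliser -/

def U72c : List (List Nat) :=
  [[0, 1, 2, 3, 4, 5, 6, 7, 8, 9, 10, 11, 12, 13, 14, 15, 16, 17, 18, 19, 20, 21, 22, 23],
   [0, 1, 2, 6, 13, 7, 4, 15, 16, 8, 5, 14, 12, 3, 23, 10, 18, 19, 9, 17, 22, 11, 20, 21],
   [0, 1, 2, 8, 3, 10, 6, 19, 9, 4, 15, 14, 16, 18, 22, 17, 13, 5, 12, 7, 11, 23, 20, 21],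
   [0, 1, 2, 4, 6, 11, 18, 14, 16, 9, 20, 19, 8, 12, 17, 23, 13, 21, 3, 22, 10, 7, 5, 15],
   [0, 1, 2, 3, 6, 14, 12, 22, 13, 4, 11, 7, 9, 16, 5, 21, 18, 23, 8, 20, 15, 19, 10, 17],
   [0, 1, 2, 4, 12, 15, 16, 7, 9, 13, 10, 22, 3, 8, 21, 19, 18, 17, 6, 5, 14, 20, 23, 11],
   [0, 1, 2, 3, 8, 17, 18, 15, 12, 13, 19, 21, 16, 6, 23, 10, 4, 5, 9, 7, 11, 22, 20, 14],
   [0, 1, 2, 6, 18, 19, 3, 17, 13, 9, 10, 22, 16, 8, 21, 15, 12, 7, 4, 5, 20, 14, 11, 23],
   [0, 1, 2, 9, 6, 20, 13, 11, 12, 8, 22, 7, 3, 18, 15, 21, 16, 23, 4, 14, 5, 19, 17, 10],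
   [0, 1, 2, 4, 13, 21, 12, 22, 6, 3, 23, 10, 16, 9, 15, 14, 8, 11, 18, 20, 5, 19, 7, 17],
   [0, 1, 2, 8, 4, 22, 3, 14, 12, 16, 20, 15, 6, 9, 10, 11, 18, 21, 13, 23, 7, 17, 19, 5],
   [0, 1, 2, 3, 13, 23, 8, 21, 9, 16, 20, 19, 18, 12, 17, 11, 6, 14, 4, 22, 7, 10, 15, 5]]

def prog72c : List Step :=
  [Step.pushAll, Step.bxor 0 1]

theorem lv72c : levelCheck2 [d0] [2, 1, 0] 5 U72c prog72c = true := by decide +kernel

theorem mask72c : levelMask [d0] [2, 1, 0] prog72c = 16436384 := by decide +kernel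

theorem lv72 : levelsOK [d0] [2, 1, 0] (ch12.drop 3) = true := by decide +kernel

theorem fin72 : GS [d0] (finalL [2, 1, 0] (ch12.drop 3)) = ⊥ := triv12

theorem card_GS72 : Nat.card (GS [d0] [2, 1, 0]) = 72 := by
  rw [chain_card [d0] (ch12.drop 3) [2, 1, 0] lv72 fin72]
  decide +kernel

theorem compl_d0 : ∀ q : GolayPt, q ∉ toSet d0 → q ∈ toSet 16436384 := by decide +kernel

theorem GS72_trans (x y : GolayPt) (hx : x ∉ toSet d0) (hy : y ∉ toSet d0) :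
    ∃ σ ∈ GS [d0] [2, 1, 0], σ x = y := by
  obtain ⟨T, -, -, hT, e⟩ := reach2 lv72c x (by rw [mask72c]; exact compl_d0 x hx)
  obtain ⟨T', -, -, hT', e'⟩ := reach2 lv72c y (by rw [mask72c]; exact compl_d0 y hy)
  refine ⟨permOf T' * (permOf T)⁻¹, mul_mem hT' (inv_mem hT), ?_⟩
  rw [Equiv.Perm.mul_apply, ← e, perm_inv_apply, e']

theorem exists_emb5_three (s : Finset GolayPt) (h : 5 ≤ s.card) (p q r : GolayPt) (hp : p ∈ s)
    (hq : q ∈ s) (hr : r ∈ s) (hpq : p ≠ q) (hpr : p ≠ r) (hqr : q ≠ r) :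
    ∃ x : Fin 5 ↪ GolayPt, x 0 = p ∧ x 1 = q ∧ x 2 = r ∧ ∀ i, x i ∈ s := by
  have hq' : q ∈ s.erase p := Finset.mem_erase.2 ⟨hpq.symm, hq⟩
  have hr' : r ∈ (s.erase p).erase q :=
    Finset.mem_erase.2 ⟨hqr.symm, Finset.mem_erase.2 ⟨hpr.symm, hr⟩⟩
  obtain ⟨t, ht, ht2⟩ := Finset.exists_subset_card_eq (s := ((s.erase p).erase q).erase r) (n := 2)
    (by rw [Finset.card_erase_of_mem hr', Finset.card_erase_of_mem hq',
      Finset.card_erase_of_mem hp]; omega)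
  let e := (Finset.equivFinOfCardEq ht2).symm
  have hmem : ∀ i, (e i : GolayPt) ∈ s ∧ (e i : GolayPt) ≠ p ∧ (e i : GolayPt) ≠ q ∧
      (e i : GolayPt) ≠ r := by
    intro i
    have h1 := ht (e i).2
    rw [Finset.mem_erase, Finset.mem_erase, Finset.mem_erase] at h1
    exact ⟨h1.2.2.2, h1.2.2.1, h1.2.1, h1.1⟩
  have hf2 : Function.Injective (Fin.cons r (fun i => (e i : GolayPt)) : Fin 3 → GolayPt) := by
    rw [Fin.cons_injective_iff]
    constructor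
    · rintro ⟨i, hi⟩
      exact (hmem i).2.2.2 hi
    · intro i j hij
      exact e.injective (Subtype.ext hij)
  have hf1 : Function.Injective (Fin.cons q
      (Fin.cons r (fun i => (e i : GolayPt)) : Fin 3 → GolayPt) : Fin 4 → GolayPt) := by
    rw [Fin.cons_injective_iff]
    refine ⟨?_, hf2⟩
    rintro ⟨i, hi⟩
    revert hi
    refine Fin.cases ?_ (fun j => ?_) i
    · intro hi
      exact hqr (show r = q from hi).symm
    · intro hi
      exact (hmem j).2.2.1 hi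
  have hf : Function.Injective (Fin.cons p (Fin.cons q
      (Fin.cons r (fun i => (e i : GolayPt)) : Fin 3 → GolayPt) : Fin 4 → GolayPt) :
      Fin 5 → GolayPt) := by
    rw [Fin.cons_injective_iff]
    refine ⟨?_, hf1⟩
    rintro ⟨i, hi⟩
    revert hi
    refine Fin.cases ?_ (fun j => ?_) i
    · intro hi
      exact hpq (show q = p from hi).symm
    · refine Fin.cases ?_ (fun k => ?_) j
      · intro hi
        exact hpr (show r = p from hi).symm
      · intro hi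
        exact (hmem k).2.1 hi
  refine ⟨⟨_, hf⟩, rfl, rfl, rfl, fun i => ?_⟩
  refine Fin.cases ?_ (fun j => ?_) i
  · exact hp
  · refine Fin.cases ?_ (fun k => ?_) j
    · exact hq
    · refine Fin.cases ?_ (fun l => ?_) k
      · exact hr
      · exact (hmem l).1

/-- a dodecad with three of its points can be moved to the standard position -/
theorem normalize3 (d : Finset GolayPt) (hd : d ∈ dodecads) (p q r : GolayPt) (hp : p ∈ d)
    (hq : q ∈ d) (hr : r ∈ d) (hpq : p ≠ q) (hpr : p ≠ r) (hqr : q ≠ r) :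
    ∃ κ ∈ M24, κ • d = toSet d0 ∧ κ p = pt 0 ∧ κ q = pt 1 ∧ κ r = pt 2 := by
  obtain ⟨x, x0, x1, x2, hx⟩ := exists_emb5_three d (by rw [hd.2]; norm_num) p q r hp hq hr
    hpq hpr hqr
  obtain ⟨κ, hκ, k0, k⟩ := normalize5 d hd x hx
  exact ⟨κ, hκ, k0, by rw [← x0]; exact k 0, by rw [← x1]; exact k 1, by rw [← x2]; exact k 2⟩

theorem conj72 (d : Finset GolayPt) (p q r : GolayPt) (κ : Equiv.Perm GolayPt) (hκ : κ ∈ M24)
    (k0 : κ • d = toSet d0) (k1 : κ p = pt 0) (k2 : κ q = pt 1) (k3 : κ r = pt 2)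
    (g : Equiv.Perm GolayPt) :
    (g ∈ M24 ∧ g • d = d ∧ g p = p ∧ g q = q ∧ g r = r) ↔ κ * g * κ⁻¹ ∈ GS [d0] [2, 1, 0] := by
  rw [mem_GS]
  constructor
  · rintro ⟨h0, h1, h2, h3, h4⟩
    refine ⟨M24.mul_mem (M24.mul_mem hκ h0) (M24.inv_mem hκ), fun m hm => ?_, fun i hi => ?_⟩
    · rw [List.mem_singleton] at hm
      subst hm
      rw [← k0, mul_smul, mul_smul, inv_smul_smul, h1]
    · simp only [List.mem_cons, List.not_mem_nil, or_false] at hi
      rcases hi with rfl | rfl | rfl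
      · rw [← k3, Equiv.Perm.mul_apply, Equiv.Perm.mul_apply, perm_inv_apply, h4]
      · rw [← k2, Equiv.Perm.mul_apply, Equiv.Perm.mul_apply, perm_inv_apply, h3]
      · rw [← k1, Equiv.Perm.mul_apply, Equiv.Perm.mul_apply, perm_inv_apply, h2]
  · rintro ⟨h0, h1, h2⟩
    have a1 := h1 d0 (List.mem_singleton.2 rfl)
    rw [← k0, mul_smul, mul_smul, inv_smul_smul] at a1
    have fixpt : ∀ (u : GolayPt) (i : Nat), i ∈ [2, 1, 0] → κ u = pt i → g u = u := by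
      intro u i hi hu
      have a2 := h2 i hi
      rw [← hu, Equiv.Perm.mul_apply, Equiv.Perm.mul_apply, perm_inv_apply] at a2
      exact κ.injective a2
    refine ⟨?_, smul_left_cancel κ a1, fixpt p 0 (by simp) k1, fixpt q 1 (by simp) k2,
      fixpt r 2 (by simp) k3⟩
    have := M24.mul_mem (M24.mul_mem (M24.inv_mem hκ) h0) hκ
    simpa [mul_assoc] using this

end Golay
end Cfsg.Agent.Helper28
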