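import Mathlib
import Cfsg.Agent.Helper28.M12Three
import Cfsg.Agent.Helper28.Classes
import Cfsg.Agent.Helper28.Prune
import Cfsg.Agent.Helper28.Sext

set_option autoImplicit false

namespace Cfsg.Agent.Helper28
namespace Golay

open Cfsg
open scoped Pointwise

/-! ### The structure of the stabiliser of three points of a dodecad -/

theorem pow_of_powId {p : Nat} {T : List Nat} (hT : isPerm T = true) (h : powId p T = true) :
    permOf T ^ p = 1 := by
  refine Equiv.ext fun q => ?_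
  have h1 := idx_pow hT p q
  rw [powId, List.all_eq_true] at h
  rw [(nbeq_iff _ _).1 (h (idx q) (List.mem_range.2 (idx_lt q)))] at h1
  exact idx_injective h1

def L72 : List (List Nat) := chainElems (ch12.drop 3)

def L9 : List (List Nat) := L72.filter (powId 3)

theorem L72_norm : (L72.all normT) = true := by decide +kernel

theorem L72_nodup : L72.Nodup := by decide +kernel

theorem L9_length : L9.length = 9 := by decide +kernel

theorem L9_closed : (L9.all fun A => L9.all fun B => powId 3 (comp A B)) = true := by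
  decide +kernel

theorem L72_mem {T : List Nat} (hT : T ∈ L72) :
    isPerm T = true ∧ permOf T ∈ GS [d0] [2, 1, 0] :=
  chain_mem [d0] (ch12.drop 3) [2, 1, 0] lv72 T hT

theorem L72_inj : ∀ T ∈ L72, ∀ T' ∈ L72, permOf T = permOf T' → T = T' :=
  fun T hT T' hT' e => permOf_inj_norm (L72_mem hT).1 (L72_mem hT').1
    (List.all_eq_true.1 L72_norm T hT) (List.all_eq_true.1 L72_norm T' hT') e

theorem G72_enum (σ : Equiv.Perm GolayPt) (hσ : σ ∈ GS [d0] [2, 1, 0]) :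
    ∃ T ∈ L72, isPerm T = true ∧ σ = permOf T :=
  chain_enum [d0] (ch12.drop 3) [2, 1, 0] lv72 fin72 σ hσ

/-- the elements of order dividing three in the standard group of order 72 -/
def N9 : Subgroup ↥(GS [d0] [2, 1, 0]) where
  carrier := {x | x ^ 3 = 1}
  mul_mem' := by
    intro a b ha hb
    obtain ⟨A, hA, hA1, eA⟩ := G72_enum a.1 a.2
    obtain ⟨B, hB, hB1, eB⟩ := G72_enum b.1 b.2
    have ha' : permOf A ^ 3 = 1 := by
      rw [← eA]
      exact congrArg Subtype.val ha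
    have hb' : permOf B ^ 3 = 1 := by
      rw [← eB]
      exact congrArg Subtype.val hb
    have hA2 : A ∈ L9 := List.mem_filter.2 ⟨hA, powId_of_pow hA1 ha'⟩
    have hB2 : B ∈ L9 := List.mem_filter.2 ⟨hB, powId_of_pow hB1 hb'⟩
    have h := List.all_eq_true.1 (List.all_eq_true.1 L9_closed A hA2) B hB2
    apply Subtype.ext
    show (a.1 * b.1) ^ 3 = 1
    rw [eA, eB, permOf_mul hA1 hB1]
    exact pow_of_powId (isPerm_comp hA1 hB1) h
  one_mem' := one_pow 3
  inv_mem' := by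
    intro a ha
    show a⁻¹ ^ 3 = 1
    rw [inv_pow, show a ^ 3 = 1 from ha, inv_one]

theorem N9_normal : N9.Normal := ⟨fun n hn g => by
  show (g * n * g⁻¹) ^ 3 = 1
  rw [conj_pow, show n ^ 3 = 1 from hn, mul_one, mul_inv_cancel]⟩

theorem N9_card : Nat.card N9 = 9 := by
  have e : {σ : Equiv.Perm GolayPt | σ ∈ GS [d0] [2, 1, 0] ∧ σ ^ 3 = 1} =
      permOf '' {T | T ∈ L72 ∧ powId 3 T = true} := by
    ext σ
    constructor
    · rintro ⟨hσ, h3⟩
      obtain ⟨T, hT, hT1, rfl⟩ := G72_enum σ hσ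
      exact ⟨T, ⟨hT, powId_of_pow hT1 h3⟩, rfl⟩
    · rintro ⟨T, ⟨hT, hp⟩, rfl⟩
      exact ⟨(L72_mem hT).2, pow_of_powId (L72_mem hT).1 hp⟩
  have h1 : Nat.card N9 =
      Nat.card ↥{σ : Equiv.Perm GolayPt | σ ∈ GS [d0] [2, 1, 0] ∧ σ ^ 3 = 1} := by
    refine Nat.card_congr ⟨fun x => ⟨x.1.1, x.1.2, congrArg Subtype.val x.2⟩,
      fun y => ⟨⟨y.1, y.2.1⟩, Subtype.ext y.2.2⟩, fun _ => rfl, fun _ => rfl⟩
  rw [h1, Nat.card_coe_set_eq, e, ncard_image_list L72 L72_nodup permOf L72_inj (powId 3)]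
  exact L9_length

/-- the powers of an element of order four -/
def qA : List (List Nat) :=
  [[0, 1, 2, 3, 4, 5, 6, 7, 8, 9, 10, 11, 12, 13, 14, 15, 16, 17, 18, 19, 20, 21, 22, 23],
   [0, 1, 2, 3, 6, 14, 12, 22, 13, 4, 11, 7, 9, 16, 5, 21, 18, 23, 8, 20, 15, 19, 10, 17],
   [0, 1, 2, 3, 12, 5, 9, 10, 16, 6, 7, 22, 4, 18, 14, 19, 8, 17, 13, 15, 21, 20, 11, 23],
   [0, 1, 2, 3, 9, 14, 4, 11, 18, 12, 22, 10, 6, 8, 5, 20, 13, 23, 16, 21, 19, 15, 7, 17]]

/-- the other four elements of the quaternion subgroup -/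
def qX : List (List Nat) :=
  [[0, 1, 2, 3, 8, 17, 18, 15, 12, 13, 19, 21, 16, 6, 23, 10, 4, 5, 9, 7, 11, 22, 20, 14],
   [0, 1, 2, 3, 18, 23, 16, 20, 6, 8, 21, 15, 13, 4, 17, 22, 9, 14, 12, 11, 10, 7, 19, 5],
   [0, 1, 2, 3, 16, 17, 13, 19, 4, 18, 15, 20, 8, 9, 23, 7, 12, 5, 6, 10, 22, 11, 21, 14],
   [0, 1, 2, 3, 13, 23, 8, 21, 9, 16, 20, 19, 18, 12, 17, 11, 6, 14, 4, 22, 7, 10, 15, 5]]

/-- the quaternion group as a list of tables -/
def qf : QuaternionGroup 2 → List Nat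
  | QuaternionGroup.a i => qA.getD i.val []
  | QuaternionGroup.xa i => qX.getD i.val []

theorem qf_mul : ∀ x y : QuaternionGroup 2, qf (x * y) = comp (qf x) (qf y) := by
  decide +kernel

theorem qf_mem : ∀ x : QuaternionGroup 2, qf x ∈ L72 := by decide +kernel

theorem qf_inj : ∀ x y : QuaternionGroup 2, qf x = qf y → x = y := by decide +kernel

/-- the quaternion subgroup -/
noncomputable def qHom : QuaternionGroup 2 →* ↥(GS [d0] [2, 1, 0]) :=
  MonoidHom.mk' (fun x => ⟨permOf (qf x), (L72_mem (qf_mem x)).2⟩) fun x y => Subtype.ext (by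
    show permOf (qf (x * y)) = permOf (qf x) * permOf (qf y)
    rw [qf_mul, permOf_mul (L72_mem (qf_mem x)).1 (L72_mem (qf_mem y)).1])

theorem qHom_inj : Function.Injective qHom := by
  intro x y h
  have h1 : permOf (qf x) = permOf (qf y) := congrArg Subtype.val h
  exact qf_inj x y (L72_inj _ (qf_mem x) _ (qf_mem y) h1)

theorem sylow3_unique {G : Type*} [Group G] [Finite G] (hG : Nat.card G = 72) (N : Subgroup G)
    (hn : N.Normal) (hN : Nat.card N = 9) (Q : Sylow 3 G) : (Q : Subgroup G) = N := by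
  have : Fact (Nat.Prime 3) := ⟨by norm_num⟩
  have hp : IsPGroup 3 N := IsPGroup.of_card (n := 2) (by rw [hN]; norm_num)
  obtain ⟨Q0, hQ0⟩ := hp.exists_le_sylow
  have hc : Nat.card Q0 = 9 := by
    obtain ⟨k, hk⟩ := IsPGroup.iff_card.mp Q0.isPGroup'
    have h1 : 9 ∣ Nat.card Q0 := by
      rw [← hN]
      exact Subgroup.card_dvd_of_le hQ0
    have h2 : Nat.card Q0 ∣ 72 := by
      rw [← hG]
      exact Subgroup.card_subgroup_dvd_card _
    rw [hk] at h1 h2 ⊢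
    have h3 : k ≤ 2 := by
      by_contra hcon
      have : 3 ^ 3 ∣ 3 ^ k := pow_dvd_pow 3 (by omega)
      have := this.trans h2
      omega
    interval_cases k <;> omega
  have hQN : N = (Q0 : Subgroup G) := Subgroup.eq_of_le_of_card_ge hQ0 (by rw [hc, hN])
  have : (Q0 : Subgroup G).Normal := hQN ▸ hn
  obtain ⟨g, hg⟩ := MulAction.exists_smul_eq G Q0 Q
  rw [Sylow.smul_eq_of_normal] at hg
  rw [← hg, ← hQN]

theorem sylow2_iso {G : Type*} [Group G] [Finite G] (hG : Nat.card G = 72) (P0 : Subgroup G)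
    (hP0 : Nat.card P0 = 8) (P : Sylow 2 G) : Nonempty (↥P ≃* ↥P0) := by
  have : Fact (Nat.Prime 2) := ⟨by norm_num⟩
  have hp : IsPGroup 2 P0 := IsPGroup.of_card (n := 3) (by rw [hP0]; norm_num)
  obtain ⟨P1, hP1⟩ := hp.exists_le_sylow
  have hc : Nat.card P1 = 8 := by
    obtain ⟨k, hk⟩ := IsPGroup.iff_card.mp P1.isPGroup'
    have h1 : 8 ∣ Nat.card P1 := by
      rw [← hP0]
      exact Subgroup.card_dvd_of_le hP1
    have h2 : Nat.card P1 ∣ 72 := by
      rw [← hG]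
      exact Subgroup.card_subgroup_dvd_card _
    rw [hk] at h1 h2 ⊢
    have h3 : k ≤ 3 := by
      by_contra hcon
      have : 2 ^ 4 ∣ 2 ^ k := pow_dvd_pow 2 (by omega)
      have := this.trans h2
      omega
    interval_cases k <;> omega
  have hPP : P0 = (P1 : Subgroup G) := Subgroup.eq_of_le_of_card_ge hP1 (by rw [hc, hP0])
  have E := Sylow.equiv P P1
  rw [← hPP] at E
  exact ⟨E⟩

/-- the structure of a group isomorphic to the standard group of order 72 -/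
theorem m9_struct {G : Type*} [Group G] (E : G ≃* ↥(GS [d0] [2, 1, 0])) :
    (∀ Q : Sylow 3 G, (Q : Subgroup G).Normal ∧ Nat.card ↥Q = 9 ∧
      ∀ x ∈ (Q : Subgroup G), x ^ 3 = 1) ∧
    ∀ P : Sylow 2 G, Nonempty (↥P ≃* QuaternionGroup 2) := by
  have : Finite G := Finite.of_equiv _ E.symm.toEquiv
  have hG : Nat.card G = 72 := by rw [Nat.card_congr E.toEquiv, card_GS72]
  have hsurj : Function.Surjective E.symm.toMonoidHom := E.symm.surjective
  have hinj : Function.Injective E.symm.toMonoidHom := E.symm.injective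
  have hN1 : (N9.map E.symm.toMonoidHom).Normal := N9_normal.map _ hsurj
  have hN2 : Nat.card (N9.map E.symm.toMonoidHom) = 9 := by
    rw [Subgroup.card_map_of_injective hinj, N9_card]
  constructor
  · intro Q
    have hQ := sylow3_unique hG _ hN1 hN2 Q
    have hcard : Nat.card ↥(Q : Subgroup G) = 9 := by rw [hQ, hN2]
    rw [hQ]
    refine ⟨hN1, hcard, fun x hx => ?_⟩
    obtain ⟨y, hy, rfl⟩ := Subgroup.mem_map.1 hx
    have h3 : y ^ 3 = 1 := hy
    rw [← map_pow, h3, map_one]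
  · intro P
    have hc : Nat.card (qHom.range.map E.symm.toMonoidHom) = 8 := by
      rw [Subgroup.card_map_of_injective hinj,
        ← Nat.card_congr (MonoidHom.ofInjective qHom_inj).toEquiv, Nat.card_eq_fintype_card,
        QuaternionGroup.card]
    obtain ⟨E1⟩ := sylow2_iso hG _ hc P
    exact ⟨E1.trans ((Subgroup.equivMapOfInjective _ _ hinj).symm.trans
      (MonoidHom.ofInjective qHom_inj).symm)⟩

theorem mem_H3 (d : Finset GolayPt) (p q r : GolayPt) (h : ↥M24) :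
    h ∈ (MulAction.stabilizer M24 d ⊓ MulAction.stabilizer M24 p ⊓
      MulAction.stabilizer M24 q ⊓ MulAction.stabilizer M24 r) ↔
      (h : Equiv.Perm GolayPt) • d = d ∧ (h : Equiv.Perm GolayPt) p = p ∧
      (h : Equiv.Perm GolayPt) q = q ∧ (h : Equiv.Perm GolayPt) r = r := by
  rw [Subgroup.mem_inf, Subgroup.mem_inf, Subgroup.mem_inf, MulAction.mem_stabilizer_iff,
    MulAction.mem_stabilizer_iff, MulAction.mem_stabilizer_iff, MulAction.mem_stabilizer_iff]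
  constructor
  · rintro ⟨⟨⟨h1, h2⟩, h3⟩, h4⟩
    exact ⟨h1, h2, h3, h4⟩
  · rintro ⟨h1, h2, h3, h4⟩
    exact ⟨⟨⟨h1, h2⟩, h3⟩, h4⟩

theorem conj72_inv (d : Finset GolayPt) (p q r : GolayPt) (κ : Equiv.Perm GolayPt)
    (hκ : κ ∈ M24) (k0 : κ • d = toSet d0) (k1 : κ p = pt 0) (k2 : κ q = pt 1)
    (k3 : κ r = pt 2) (g : Equiv.Perm GolayPt) (hg : g ∈ GS [d0] [2, 1, 0]) :
    κ⁻¹ * g * κ ∈ M24 ∧ (κ⁻¹ * g * κ) • d = d ∧ (κ⁻¹ * g * κ) p = p ∧
      (κ⁻¹ * g * κ) q = q ∧ (κ⁻¹ * g * κ) r = r := by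
  have h1 : κ * (κ⁻¹ * g * κ) * κ⁻¹ ∈ GS [d0] [2, 1, 0] := by
    have : κ * (κ⁻¹ * g * κ) * κ⁻¹ = g := by group
    rw [this]
    exact hg
  exact (conj72 d p q r κ hκ k0 k1 k2 k3 _).2 h1

/-- conjugation to the standard position -/
def conjEquiv72 (d : Finset GolayPt) (p q r : GolayPt) (κ : Equiv.Perm GolayPt)
    (hκ : κ ∈ M24) (k0 : κ • d = toSet d0) (k1 : κ p = pt 0) (k2 : κ q = pt 1)
    (k3 : κ r = pt 2) :
    ↥(MulAction.stabilizer M24 d ⊓ MulAction.stabilizer M24 p ⊓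
      MulAction.stabilizer M24 q ⊓ MulAction.stabilizer M24 r) ≃* ↥(GS [d0] [2, 1, 0]) where
  toFun h := ⟨κ * h.1.1 * κ⁻¹,
    (conj72 d p q r κ hκ k0 k1 k2 k3 h.1.1).1 ⟨h.1.2, (mem_H3 d p q r h.1).1 h.2⟩⟩
  invFun g := ⟨⟨κ⁻¹ * g.1 * κ, (conj72_inv d p q r κ hκ k0 k1 k2 k3 g.1 g.2).1⟩,
    (mem_H3 d p q r _).2 (conj72_inv d p q r κ hκ k0 k1 k2 k3 g.1 g.2).2⟩
  left_inv h := by
    apply Subtype.ext
    apply Subtype.ext
    show κ⁻¹ * (κ * h.1.1 * κ⁻¹) * κ = h.1.1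
    group
  right_inv g := by
    apply Subtype.ext
    show κ * (κ⁻¹ * g.1 * κ) * κ⁻¹ = g.1
    group
  map_mul' h h' := by
    apply Subtype.ext
    show κ * (h.1.1 * h'.1.1) * κ⁻¹ = (κ * h.1.1 * κ⁻¹) * (κ * h'.1.1 * κ⁻¹)
    group

end Golay
end Cfsg.Agent.Helper28
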