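import Mathlib
import Cfsg.Agent.Helper28.GolayChain

set_option autoImplicit false

namespace Cfsg.Agent.Helper28

/-- a point stabiliser is a maximal subgroup as soon as it is transitive on the classes of a class
function on the orbit and no proper union of classes has a size dividing the size of the orbit -/
theorem isCoatom_stabilizer {G X : Type*} [Group G] [Finite G] [MulAction G X] (x : X)
    (c : X → ℕ) (M N : ℕ) (n : ℕ → ℕ)
    (hc : ∀ y ∈ MulAction.orbit G x, c y < M)
    (htrans : ∀ y ∈ MulAction.orbit G x, ∀ y' ∈ MulAction.orbit G x, c y = c y' →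
      ∃ h ∈ MulAction.stabilizer G x, h • y = y')
    (hn : ∀ j < M, {y | y ∈ MulAction.orbit G x ∧ c y = j}.ncard = n j)
    (hN : (MulAction.orbit G x).ncard = N) (hN1 : 1 < N)
    (harith : ∀ J ∈ (Finset.range M).powerset, c x ∈ J → (∑ j ∈ J, n j) ∣ N →
      (∑ j ∈ J, n j) = 1 ∨ (∑ j ∈ J, n j) = N) :
    IsCoatom (MulAction.stabilizer G x) := by
  classical
  have hidx : (MulAction.stabilizer G x).index = N := by
    rw [MulAction.index_stabilizer, hN]
  have hcard : Nat.card (MulAction.stabilizer G x) * N = Nat.card G := by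
    rw [← hidx]
    exact Subgroup.card_mul_index _
  have hHpos : 0 < Nat.card (MulAction.stabilizer G x) := Nat.card_pos
  refine ⟨?_, fun K hK => ?_⟩
  · intro htop
    rw [htop, Subgroup.index_top] at hidx
    omega
  · have h1 := Golay.card_eq_orbit_mul_stab K x
    rw [inf_eq_right.2 hK.le] at h1
    have hOsub : MulAction.orbit K x ⊆ MulAction.orbit G x := by
      rintro y ⟨k, rfl⟩
      exact ⟨k.1, rfl⟩
    have hOfin : (MulAction.orbit K x).Finite := Set.finite_range _
    have hxO : x ∈ MulAction.orbit K x := MulAction.mem_orbit_self x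
    have hclass : ∀ y ∈ MulAction.orbit K x, ∀ y' ∈ MulAction.orbit G x, c y = c y' →
        y' ∈ MulAction.orbit K x := by
      intro y hy y' hy' hcc
      obtain ⟨h, hh, rfl⟩ := htrans y (hOsub hy) y' hy' hcc
      obtain ⟨k, rfl⟩ := hy
      exact ⟨⟨h, hK.le hh⟩ * k, mul_smul _ _ _⟩
    let J : Finset ℕ := (Finset.range M).filter fun j => ∃ y ∈ MulAction.orbit K x, c y = j
    have hfib : ∀ j ∈ Finset.range M,
        (hOfin.toFinset.filter fun y => c y = j).card = if j ∈ J then n j else 0 := by
      intro j hj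
      by_cases hjJ : j ∈ J
      · rw [if_pos hjJ, ← hn j (Finset.mem_range.1 hj), ← Set.ncard_coe_finset]
        congr 1
        ext y'
        simp only [Finset.coe_filter, Set.Finite.mem_toFinset, Set.mem_setOf_eq]
        constructor
        · rintro ⟨h1, h2⟩
          exact ⟨hOsub h1, h2⟩
        · rintro ⟨h1, h2⟩
          obtain ⟨y, hy, hyc⟩ := (Finset.mem_filter.1 hjJ).2
          exact ⟨hclass y hy y' h1 (hyc.trans h2.symm), h2⟩
      · rw [if_neg hjJ, Finset.card_eq_zero, Finset.filter_eq_empty_iff]
        intro y hy hyc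
        exact hjJ (Finset.mem_filter.2 ⟨hj, y, hOfin.mem_toFinset.1 hy, hyc⟩)
    have hmaps : (hOfin.toFinset : Set X).MapsTo c (Finset.range M) := by
      intro y hy
      exact Finset.mem_coe.2 (Finset.mem_range.2
        (hc y (hOsub (hOfin.mem_toFinset.1 (Finset.mem_coe.1 hy)))))
    have hsum : (MulAction.orbit K x).ncard = ∑ j ∈ J, n j := by
      rw [Set.ncard_eq_toFinset_card _ hOfin, Finset.card_eq_sum_card_fiberwise hmaps,
        Finset.sum_congr rfl hfib, ← Finset.sum_filter]
      congr 1
      ext j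
      simp only [Finset.mem_filter, Finset.mem_range, J]
      tauto
    have hJ : J ∈ (Finset.range M).powerset := Finset.mem_powerset.2 (Finset.filter_subset _ _)
    have hxJ : c x ∈ J :=
      Finset.mem_filter.2 ⟨Finset.mem_range.2 (hc x (MulAction.mem_orbit_self x)), x, hxO, rfl⟩
    have hdvd : (MulAction.orbit K x).ncard ∣ N := by
      have h2 : Nat.card K ∣ Nat.card G := Subgroup.card_subgroup_dvd_card K
      rw [h1, ← hcard, mul_comm] at h2
      exact Nat.dvd_of_mul_dvd_mul_left hHpos h2
    rw [hsum] at hdvd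
    rcases harith J hJ hxJ hdvd with h | h
    · exfalso
      rw [hsum, h, one_mul] at h1
      exact hK.ne (Subgroup.eq_of_le_of_card_ge hK.le h1.le)
    · rw [hsum, h, mul_comm, hcard] at h1
      exact (Subgroup.card_eq_iff_eq_top K).1 h1

end Cfsg.Agent.Helper28
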