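import Mathlib
import Cfsg.Agent.Helper28.OrbGen
import Cfsg.Agent.Helper28.Maximal

set_option autoImplicit false

namespace Cfsg.Agent.Helper28

theorem class_singleton {β : Type*} (Fam : Set β) (c : β → ℕ) (x : β) (hx : x ∈ Fam) (v0 : ℕ)
    (hx0 : c x = v0) (h0 : {X | X ∈ Fam ∧ c X = v0}.ncard = 1) :
    {X | X ∈ Fam ∧ c X = v0} = {x} := by
  obtain ⟨a, ha⟩ := Set.ncard_eq_one.1 h0
  have hxa : x ∈ {X | X ∈ Fam ∧ c X = v0} := ⟨hx, hx0⟩
  rw [ha, Set.mem_singleton_iff] at hxa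
  rw [ha, hxa]

theorem one_three_orbits {H β : Type*} [Group H] [MulAction H β] (Fam : Set β) (hfin : Fam.Finite)
    (c : β → ℕ) (horb : ∀ X ∈ Fam, MulAction.orbit H X = {Y | Y ∈ Fam ∧ c Y = c X})
    (x : β) (hx : x ∈ Fam) (v0 v1 v2 v3 n1 n2 n3 : ℕ) (hx0 : c x = v0)
    (h0 : {X | X ∈ Fam ∧ c X = v0}.ncard = 1)
    (h1 : {X | X ∈ Fam ∧ c X = v1}.ncard = n1) (h2 : {X | X ∈ Fam ∧ c X = v2}.ncard = n2)
    (h3 : {X | X ∈ Fam ∧ c X = v3}.ncard = n3)
    (hp1 : 0 < n1) (hp2 : 0 < n2) (hp3 : 0 < n3) (hnd : [v0, v1, v2, v3].Nodup)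
    (hN : Fam.ncard = 1 + n1 + n2 + n3) :
    ∃ X₁ ∈ Fam, ∃ X₂ ∈ Fam, ∃ X₃ ∈ Fam, (MulAction.orbit H X₁).ncard = n1 ∧
      (MulAction.orbit H X₂).ncard = n2 ∧ (MulAction.orbit H X₃).ncard = n3 ∧
      Fam = {x} ∪ MulAction.orbit H X₁ ∪ MulAction.orbit H X₂ ∪ MulAction.orbit H X₃ := by
  obtain ⟨X1, hX1, e1⟩ := exists_of_count Fam c v1 n1 h1 hp1
  obtain ⟨X2, hX2, e2⟩ := exists_of_count Fam c v2 n2 h2 hp2
  obtain ⟨X3, hX3, e3⟩ := exists_of_count Fam c v3 n3 h3 hp3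
  have hcov := cover_of_counts Fam hfin c [v0, v1, v2, v3] hnd
    (by simp only [List.map_cons, List.map_nil, List.sum_cons, List.sum_nil, h0, h1, h2, h3, hN]
        omega)
  have hs := class_singleton Fam c x hx v0 hx0 h0
  refine ⟨X1, hX1, X2, hX2, X3, hX3, ?_, ?_, ?_, ?_⟩
  · rw [horb X1 hX1, e1]; exact h1
  · rw [horb X2 hX2, e2]; exact h2
  · rw [horb X3 hX3, e3]; exact h3
  · rw [horb X1 hX1, horb X2 hX2, horb X3 hX3, e1, e2, e3, ← hs]
    ext X
    simp only [Set.mem_union, Set.mem_ofPred_eq]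
    constructor
    · intro hX
      have := hcov X hX
      simp only [List.mem_cons, List.mem_nil_iff, or_false] at this
      rcases this with h | h | h | h
      · exact Or.inl (Or.inl (Or.inl ⟨hX, h⟩))
      · exact Or.inl (Or.inl (Or.inr ⟨hX, h⟩))
      · exact Or.inl (Or.inr ⟨hX, h⟩)
      · exact Or.inr ⟨hX, h⟩
    · rintro (((h | h) | h) | h) <;> exact h.1

theorem one_four_orbits {H β : Type*} [Group H] [MulAction H β] (Fam : Set β) (hfin : Fam.Finite)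
    (c : β → ℕ) (horb : ∀ X ∈ Fam, MulAction.orbit H X = {Y | Y ∈ Fam ∧ c Y = c X})
    (x : β) (hx : x ∈ Fam) (v0 v1 v2 v3 v4 n1 n2 n3 n4 : ℕ) (hx0 : c x = v0)
    (h0 : {X | X ∈ Fam ∧ c X = v0}.ncard = 1)
    (h1 : {X | X ∈ Fam ∧ c X = v1}.ncard = n1) (h2 : {X | X ∈ Fam ∧ c X = v2}.ncard = n2)
    (h3 : {X | X ∈ Fam ∧ c X = v3}.ncard = n3) (h4 : {X | X ∈ Fam ∧ c X = v4}.ncard = n4)
    (hp1 : 0 < n1) (hp2 : 0 < n2) (hp3 : 0 < n3) (hp4 : 0 < n4)
    (hnd : [v0, v1, v2, v3, v4].Nodup) (hN : Fam.ncard = 1 + n1 + n2 + n3 + n4) :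
    ∃ X₁ ∈ Fam, ∃ X₂ ∈ Fam, ∃ X₃ ∈ Fam, ∃ X₄ ∈ Fam, (MulAction.orbit H X₁).ncard = n1 ∧
      (MulAction.orbit H X₂).ncard = n2 ∧ (MulAction.orbit H X₃).ncard = n3 ∧
      (MulAction.orbit H X₄).ncard = n4 ∧
      Fam = {x} ∪ MulAction.orbit H X₁ ∪ MulAction.orbit H X₂ ∪ MulAction.orbit H X₃ ∪
        MulAction.orbit H X₄ := by
  obtain ⟨X1, hX1, e1⟩ := exists_of_count Fam c v1 n1 h1 hp1
  obtain ⟨X2, hX2, e2⟩ := exists_of_count Fam c v2 n2 h2 hp2
  obtain ⟨X3, hX3, e3⟩ := exists_of_count Fam c v3 n3 h3 hp3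
  obtain ⟨X4, hX4, e4⟩ := exists_of_count Fam c v4 n4 h4 hp4
  have hcov := cover_of_counts Fam hfin c [v0, v1, v2, v3, v4] hnd
    (by simp only [List.map_cons, List.map_nil, List.sum_cons, List.sum_nil, h0, h1, h2, h3, h4,
          hN]
        omega)
  have hs := class_singleton Fam c x hx v0 hx0 h0
  refine ⟨X1, hX1, X2, hX2, X3, hX3, X4, hX4, ?_, ?_, ?_, ?_, ?_⟩
  · rw [horb X1 hX1, e1]; exact h1
  · rw [horb X2 hX2, e2]; exact h2
  · rw [horb X3 hX3, e3]; exact h3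
  · rw [horb X4 hX4, e4]; exact h4
  · rw [horb X1 hX1, horb X2 hX2, horb X3 hX3, horb X4 hX4, e1, e2, e3, e4, ← hs]
    ext X
    simp only [Set.mem_union, Set.mem_ofPred_eq]
    constructor
    · intro hX
      have := hcov X hX
      simp only [List.mem_cons, List.mem_nil_iff, or_false] at this
      rcases this with h | h | h | h | h
      · exact Or.inl (Or.inl (Or.inl (Or.inl ⟨hX, h⟩)))
      · exact Or.inl (Or.inl (Or.inl (Or.inr ⟨hX, h⟩)))
      · exact Or.inl (Or.inl (Or.inr ⟨hX, h⟩))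
      · exact Or.inl (Or.inr ⟨hX, h⟩)
      · exact Or.inr ⟨hX, h⟩
    · rintro ((((h | h) | h) | h) | h) <;> exact h.1

/-- maximality of a stabiliser from the classes of a class function -/
theorem coatom_of_classes {G X : Type*} [Group G] [Finite G] [MulAction G X] (x : X)
    (Fam : Set X) (horbit : MulAction.orbit G x = Fam) (c : X → ℕ) (vals counts : List ℕ)
    (hnd : vals.Nodup) (hlen : counts.length = vals.length)
    (hcov : ∀ y ∈ Fam, c y ∈ vals)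
    (horb : ∀ y ∈ Fam, MulAction.orbit ↥(MulAction.stabilizer G x) y =
      {z | z ∈ Fam ∧ c z = c y})
    (hcount : ∀ j < vals.length, {y | y ∈ Fam ∧ c y = vals.getD j 0}.ncard = counts.getD j 0)
    (N : ℕ) (hN : Fam.ncard = N) (hN1 : 1 < N)
    (harith : ∀ J ∈ (Finset.range (vals.length + 1)).powerset, vals.idxOf (c x) ∈ J →
      (∑ j ∈ J, counts.getD j 0) ∣ N →
      (∑ j ∈ J, counts.getD j 0) = 1 ∨ (∑ j ∈ J, counts.getD j 0) = N) :
    IsCoatom (MulAction.stabilizer G x) := by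
  refine isCoatom_stabilizer x (fun y => vals.idxOf (c y)) (vals.length + 1) N
    (fun j => counts.getD j 0) ?_ ?_ ?_ (by rw [horbit]; exact hN) hN1 harith
  · intro y _
    exact Nat.lt_succ_of_le List.idxOf_le_length
  · intro y hy y' hy' hcc
    rw [horbit] at hy hy'
    have hcy : c y = c y' := (List.idxOf_inj (hcov y hy)).1 hcc
    have hmem : y' ∈ MulAction.orbit ↥(MulAction.stabilizer G x) y := by
      rw [horb y hy]
      exact ⟨hy', hcy.symm⟩
    obtain ⟨h, rfl⟩ := hmem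
    exact ⟨h.1, h.2, rfl⟩
  · intro j hj
    rw [horbit]
    rcases Nat.lt_or_ge j vals.length with hj' | hj'
    · rw [← hcount j hj']
      congr 1
      ext y
      simp only [Set.mem_ofPred_eq]
      constructor
      · rintro ⟨hy, hi⟩
        refine ⟨hy, ?_⟩
        have h1 := hcov y hy
        subst hi
        rw [List.getD_eq_getElem _ _ (List.idxOf_lt_length_of_mem h1), List.getElem_idxOf]
      · rintro ⟨hy, hi⟩
        refine ⟨hy, ?_⟩
        rw [hi, List.getD_eq_getElem _ _ hj']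
        exact List.Nodup.idxOf_getElem hnd j hj'
    · have e : {y | y ∈ Fam ∧ vals.idxOf (c y) = j} = ∅ := by
        ext y
        simp only [Set.mem_ofPred_eq, Set.mem_empty_iff_false, iff_false]
        rintro ⟨hy, hi⟩
        have := List.idxOf_lt_length_of_mem (hcov y hy)
        omega
      show {y | y ∈ Fam ∧ vals.idxOf (c y) = j}.ncard = counts.getD j 0
      rw [e, Set.ncard_empty, List.getD_eq_default _ _ (by omega)]

end Cfsg.Agent.Helper28
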