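import Mathlib

set_option autoImplicit false

namespace Cfsg.Agent.Helper28

/-- orbits of a subgroup that is the stabiliser of an object, on a family depending on the object,
from certificates at a base object -/
theorem orbit_classes_sub {G A β : Type*} [Group G] [MulAction G A] [MulAction G β]
    (Fam : A → Set β) (hFam : ∀ (g : G) x X, X ∈ Fam x → g • X ∈ Fam (g • x))
    (c : A → β → ℕ) (hc : ∀ (g : G) x X, c (g • x) (g • X) = c x X)
    (x0 : A) (rep : ℕ → β)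
    (hcert : ∀ X ∈ Fam x0, ∃ g : G, g • x0 = x0 ∧ g • X = rep (c x0 X))
    (x : A) (σ : G) (hx : σ • x = x0) (H : Subgroup G) (hH : ∀ g : G, g ∈ H ↔ g • x = x) :
    (∀ X ∈ Fam x, MulAction.orbit ↥H X = {Y | Y ∈ Fam x ∧ c x Y = c x X}) ∧
    (∀ v, {X | X ∈ Fam x ∧ c x X = v}.ncard = {X | X ∈ Fam x0 ∧ c x0 X = v}.ncard) := by
  have hcx : ∀ X, c x X = c x0 (σ • X) := fun X => by rw [← hx, hc]
  have hF0 : ∀ X, X ∈ Fam x → σ • X ∈ Fam x0 := fun X hX => by
    have h := hFam σ x X hX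
    rwa [hx] at h
  have hx' : σ⁻¹ • x0 = x := by rw [inv_smul_eq_iff, hx]
  constructor
  · intro X hX
    ext Y
    constructor
    · rintro ⟨⟨h, hh⟩, rfl⟩
      have e : h • x = x := (hH h).1 hh
      have h1 := hFam h x X hX
      rw [e] at h1
      refine ⟨h1, ?_⟩
      show c x (h • X) = c x X
      nth_rewrite 1 [← e]
      exact hc h x X
    · rintro ⟨hY, hcY⟩
      obtain ⟨g1, hg1, e1⟩ := hcert (σ • X) (hF0 X hX)
      obtain ⟨g2, hg2, e2⟩ := hcert (σ • Y) (hF0 Y hY)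
      rw [← hcx] at e1 e2
      rw [hcY] at e2
      refine ⟨⟨σ⁻¹ * g2⁻¹ * g1 * σ, (hH _).2 ?_⟩, ?_⟩
      · rw [mul_smul, mul_smul, mul_smul, hx, hg1, inv_smul_eq_iff, hx, inv_smul_eq_iff, hg2]
      · show (σ⁻¹ * g2⁻¹ * g1 * σ) • X = Y
        rw [mul_smul, mul_smul, mul_smul, e1, ← e2, inv_smul_smul, inv_smul_smul]
  · intro v
    have himg : {X | X ∈ Fam x0 ∧ c x0 X = v} = (fun X => σ • X) '' {X | X ∈ Fam x ∧ c x X = v} := by
      ext Y
      constructor
      · rintro ⟨hY, hcY⟩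
        have h1 := hFam σ⁻¹ x0 Y hY
        rw [hx'] at h1
        refine ⟨σ⁻¹ • Y, ⟨h1, ?_⟩, smul_inv_smul σ Y⟩
        show c x (σ⁻¹ • Y) = v
        rw [hcx, smul_inv_smul]
        exact hcY
      · rintro ⟨X, ⟨hX, hcX⟩, rfl⟩
        exact ⟨hF0 X hX, by rw [← hcx]; exact hcX⟩
    rw [himg, Set.ncard_image_of_injective _ (MulAction.injective σ)]

end Cfsg.Agent.Helper28
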