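import Mathlib
import Cfsg.Agent.Helper28.Classes

set_option autoImplicit false

namespace Cfsg.Agent.Helper28
namespace Golay

open Cfsg
open scoped Pointwise

/-! ### Elements of order 6 -/

def G6T : List Nat := [2, 1, 4, 13, 5, 22, 20, 8, 21, 7, 3, 15, 11, 18, 23, 10, 9, 16, 17, 6, 12, 14, 19, 0]

theorem inG6 : inM24 G6T = true := by decide +kernel

/-- the mask of the fixed points of the `k`-th power of a table -/
def fixMask (k : Nat) (T : List Nat) : Nat :=
  orList (fun i => Nat.beq ((tf T)^[k] i) i) (List.range 24)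

theorem fix_pow (k : Nat) {T : List Nat} (hT : isPerm T = true) (p : GolayPt) :
    (permOf T ^ k) p = p ↔ p ∈ toSet (fixMask k T) := by
  rw [mem_toSet, fixMask, testBit_orList, Bool.and_eq_true, decide_eq_true_iff, nbeq_iff]
  constructor
  · intro h
    refine ⟨List.mem_range.2 (idx_lt p), ?_⟩
    rw [← idx_pow hT, h]
  · rintro ⟨-, h⟩
    apply idx_injective
    rw [idx_pow hT, h]

theorem card_fix_pow (k : Nat) {T : List Nat} (hT : isPerm T = true) :
    (Finset.univ.filter fun p => (permOf T ^ k) p = p).card = wt (fixMask k T) := by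
  rw [← card_toSet]
  congr 1
  ext p
  rw [Finset.mem_filter, fix_pow k hT]
  simp

/-- the fixed points of the square and the cube of an element of order 6 -/
def ord6OK (T : List Nat) : Bool :=
  !(powId 6 T) || powId 2 T || powId 3 T ||
    (Nat.beq (wt (fixMask 2 T)) 6 && Nat.beq (wt (fixMask 3 T)) 8) ||
    (Nat.beq (wt (fixMask 2 T)) 0 && Nat.beq (wt (fixMask 3 T)) 0)

set_option maxRecDepth 100000 in
theorem ord6A : (((chainElems ch4).map (comp G6T)).all ord6OK) = true := by decide +kernel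

set_option maxRecDepth 100000 in
theorem ord6B : (((chainElems ch4).map (comp G3T)).all ord6OK) = true := by decide +kernel

theorem card_fix_conj (σ y : Equiv.Perm GolayPt) :
    (Finset.univ.filter fun p => (σ * y * σ⁻¹) p = p).card =
      (Finset.univ.filter fun p => y p = p).card := by
  have e : (Finset.univ.filter fun p => (σ * y * σ⁻¹) p = p) =
      σ • (Finset.univ.filter fun p => y p = p) := by
    ext p
    rw [← Finset.inv_smul_mem_iff, Finset.mem_filter, Finset.mem_filter]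
    simp only [Finset.mem_univ, true_and, Equiv.Perm.mul_apply, Equiv.Perm.smul_def]
    constructor
    · intro h
      rw [Equiv.Perm.eq_inv_iff_eq]
      exact h
    · intro h
      rw [h, perm_apply_inv]
  rw [e, Finset.card_smul_finset]

theorem ord6_of_table {y σ : Equiv.Perm GolayPt} {T : List Nat} (hT1 : isPerm T = true)
    (hT2 : σ * y * σ⁻¹ = permOf T) (hchk : ord6OK T = true) (h6 : y ^ 6 = 1) (h2 : y ^ 2 ≠ 1)
    (h3 : y ^ 3 ≠ 1) :
    ((Finset.univ.filter fun p => (y ^ 2) p = p).card = 6 ∧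
      (Finset.univ.filter fun p => (y ^ 3) p = p).card = 8) ∨
    ((Finset.univ.filter fun p => (y ^ 2) p = p).card = 0 ∧
      (Finset.univ.filter fun p => (y ^ 3) p = p).card = 0) := by
  have hpow : ∀ k, permOf T ^ k = σ * y ^ k * σ⁻¹ := fun k => by rw [← hT2, conj_pow]
  have hne : ∀ k, y ^ k ≠ 1 → powId k T = false := by
    intro k hk
    rw [← Bool.not_eq_true]
    intro hc
    have h1 := permOf_pow_eq_one hT1 k hc
    rw [hpow k] at h1
    apply hk
    have h4 := congrArg (fun z => σ⁻¹ * z * σ) h1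
    simpa [mul_assoc] using h4
  have h6' : powId 6 T = true := by
    apply powId_of_pow hT1
    rw [hpow 6, h6, mul_one, mul_inv_cancel]
  have hc : ∀ k, (Finset.univ.filter fun p => (y ^ k) p = p).card = wt (fixMask k T) := by
    intro k
    rw [← card_fix_pow k hT1, hpow k, card_fix_conj]
  rw [ord6OK, h6', hne 2 h2, hne 3 h3] at hchk
  simp only [Bool.not_true, Bool.false_or, Bool.or_eq_true, Bool.and_eq_true, nbeq_iff] at hchk
  rw [hc 2, hc 3]
  exact hchk

theorem ord6_fix (y : Equiv.Perm GolayPt) (hy : y ∈ M24) (h6 : y ^ 6 = 1) (h2 : y ^ 2 ≠ 1)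
    (h3 : y ^ 3 ≠ 1) :
    ((Finset.univ.filter fun p => (y ^ 2) p = p).card = 6 ∧
      (Finset.univ.filter fun p => (y ^ 3) p = p).card = 8) ∨
    ((Finset.univ.filter fun p => (y ^ 2) p = p).card = 0 ∧
      (Finset.univ.filter fun p => (y ^ 3) p = p).card = 0) := by
  have e2 : ∀ p, (y ^ 2) p = y (y p) := fun p => by simp [pow_succ]
  have e3 : ∀ p, (y ^ 3) p = y (y (y p)) := fun p => by simp [pow_succ]
  have e6 : ∀ p, y (y (y (y (y (y p))))) = p := fun p => by
    have := congrArg (fun σ : Equiv.Perm GolayPt => σ p) h6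
    simpa [pow_succ] using this
  have inj : ∀ {u v : GolayPt}, u ≠ v → y u ≠ y v := fun h hc => h (y.injective hc)
  by_cases hA : ∃ a, (y ^ 3) a ≠ a ∧ (y ^ 2) a ≠ a
  · obtain ⟨a, ha3, ha2⟩ := hA
    rw [e3] at ha3
    rw [e2] at ha2
    have h1 : y a ≠ a := fun h => ha2 (by rw [h, h])
    have h4 : y (y (y (y a))) ≠ a := fun h => ha2 (by
      have := e6 a
      rw [h] at this
      exact this)
    obtain ⟨τ, hτ, s1, s2, s3, s4, s5⟩ := map5 a (y a) (y (y a)) (y (y (y a))) (y (y (y (y a))))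
      (Ne.symm h1) (Ne.symm ha2) (inj (Ne.symm h1)) (Ne.symm ha3) (inj (Ne.symm ha2))
      (inj (inj (Ne.symm h1))) (Ne.symm h4) (inj (Ne.symm ha3)) (inj (inj (Ne.symm ha2)))
      (inj (inj (inj (Ne.symm h1))))
    have t1 : τ⁻¹ a = pt 23 := by rw [← s1, perm_inv_apply]
    have t2 : τ⁻¹ (y a) = pt 0 := by rw [← s2, perm_inv_apply]
    have t3 : τ⁻¹ (y (y a)) = pt 2 := by rw [← s3, perm_inv_apply]
    have t4 : τ⁻¹ (y (y (y a))) = pt 4 := by rw [← s4, perm_inv_apply]
    have t5 : τ⁻¹ (y (y (y (y a)))) = pt 5 := by rw [← s5, perm_inv_apply]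
    have hσ : τ⁻¹ ∈ M24 := M24.inv_mem hτ
    generalize τ⁻¹ = σ at t1 t2 t3 t4 t5 hσ
    have hmem : σ * y * σ⁻¹ ∈ M24 := M24.mul_mem (M24.mul_mem hσ hy) (M24.inv_mem hσ)
    obtain ⟨T, hT, hT1, hT2⟩ := coset_enum inG6 _ hmem (by
      intro i hi
      simp only [List.mem_cons, List.not_mem_nil, or_false] at hi
      rcases hi with rfl | rfl | rfl | rfl
      · exact conj_apply t4 t5 rfl
      · exact conj_apply t3 t4 rfl
      · exact conj_apply t2 t3 rfl
      · exact conj_apply t1 t2 rfl)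
    exact ord6_of_table hT1 hT2 (List.all_eq_true.1 ord6A T hT) h6 h2 h3
  · push Not at hA
    obtain ⟨a, ha⟩ : ∃ a, (y ^ 2) a ≠ a := by
      by_contra hcon
      push Not at hcon
      exact h2 (Equiv.ext hcon)
    obtain ⟨d, hd⟩ : ∃ d, (y ^ 3) d ≠ d := by
      by_contra hcon
      push Not at hcon
      exact h3 (Equiv.ext hcon)
    have ha3 : y (y (y a)) = a := by
      by_contra h
      exact ha (hA a (by rw [e3]; exact h))
    have hd2 : y (y d) = d := by
      have := hA d hd
      rwa [e2] at this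
    rw [e2] at ha
    rw [e3] at hd
    have hab : y a ≠ a := fun h => ha (by rw [h, h])
    have hde : y d ≠ d := fun h => hd (by rw [h, h, h])
    have f3 : ∀ u, y (y (y u)) = u → u ≠ d := by
      rintro u hu rfl
      exact hd hu
    have f3' : ∀ u, y (y (y u)) = u → u ≠ y d := by
      rintro u hu rfl
      exact hd (y.injective hu)
    have hb3 : y (y (y (y a))) = y a := by rw [ha3]
    have hc3 : y (y (y (y (y a)))) = y (y a) := by rw [ha3]
    obtain ⟨τ, hτ, s1, s2, s3, s4, s5⟩ := map5 a (y a) (y (y a)) d (y d)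
      (Ne.symm hab) (Ne.symm ha) (inj (Ne.symm hab)) (f3 a ha3) (f3 _ hb3) (f3 _ hc3)
      (f3' a ha3) (f3' _ hb3) (f3' _ hc3) (Ne.symm hde)
    have t1 : τ⁻¹ a = pt 23 := by rw [← s1, perm_inv_apply]
    have t2 : τ⁻¹ (y a) = pt 0 := by rw [← s2, perm_inv_apply]
    have t3 : τ⁻¹ (y (y a)) = pt 2 := by rw [← s3, perm_inv_apply]
    have t4 : τ⁻¹ d = pt 4 := by rw [← s4, perm_inv_apply]
    have t5 : τ⁻¹ (y d) = pt 5 := by rw [← s5, perm_inv_apply]
    have hσ : τ⁻¹ ∈ M24 := M24.inv_mem hτ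
    generalize τ⁻¹ = σ at t1 t2 t3 t4 t5 hσ
    have hmem : σ * y * σ⁻¹ ∈ M24 := M24.mul_mem (M24.mul_mem hσ hy) (M24.inv_mem hσ)
    obtain ⟨T, hT, hT1, hT2⟩ := coset_enum inG3 _ hmem (by
      intro i hi
      simp only [List.mem_cons, List.not_mem_nil, or_false] at hi
      rcases hi with rfl | rfl | rfl | rfl
      · exact conj_apply t4 t5 rfl
      · exact conj_apply t3 t1 ha3
      · exact conj_apply t2 t3 rfl
      · exact conj_apply t1 t2 rfl)
    exact ord6_of_table hT1 hT2 (List.all_eq_true.1 ord6B T hT) h6 h2 h3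

end Golay
end Cfsg.Agent.Helper28
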