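import Mathlib
import Cfsg.Agent.Helper28.Fast
import Cfsg.Agent.Helper28.M12Three

set_option autoImplicit false

namespace Cfsg.Agent.Helper28
namespace Golay

open Cfsg
open scoped Pointwise

/-! ### Hexads and quartets of the standard dodecad -/

/-- the hexads of the standard dodecad -/
def hexL : List Nat :=
  [343, 591, 797, 858, 4127, 4430, 4441, 4691, 4700, 4875, 4886, 4933,
   8285, 8478, 8523, 8731, 8790, 8967, 9036, 9041, 12359, 12378, 12557, 12563,
   12628, 12814, 12821, 12873, 13080, 13122, 65627, 65807, 65884, 66078, 66133, 66323,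
   66374, 66377, 69709, 69718, 69909, 69914, 69955, 70151, 70169, 70218, 70412, 70480,
   73751, 73806, 74009, 74053, 74066, 74253, 74307, 74328, 74506, 74516, 77835, 77852,
   77905, 78086, 78152, 78354, 78404, 78593, 262238, 262427, 262477, 262679, 262745, 262926,
   262979, 262996, 266315, 266325, 266503, 266524, 266578, 266765, 266778, 266822, 267025, 267080,
   270351, 270419, 270613, 270662, 270680, 270876, 270917, 270922, 271113, 271122, 274454, 274457,
   274508, 274698, 274753, 274947, 275024, 275204, 327709, 327751, 327958, 328010, 328017, 328203,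
   328268, 328274, 328453, 328472, 331790, 331795, 331864, 332041, 332100, 332308, 332353, 332546,
   335898, 335945, 335956, 336131, 336140, 336390, 336401, 336704, 339973, 340034, 340240, 340488]

set_option maxRecDepth 100000 in
theorem hexL_spec : ((octL.map fun c => c &&& d0).all fun m =>
    !(Nat.beq (wt m) 6) || hexL.contains m) = true := by decide +kernel

set_option maxRecDepth 100000 in
theorem hexL_sound : (hexL.all fun m => (octL.any fun c => Nat.beq (c &&& d0) m) &&
    Nat.beq (wt m) 6) = true := by decide +kernel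

theorem mem_hexL_of {h : Finset GolayPt} (hh : h ∈ hexadsOn (toSet d0)) : maskOf h ∈ hexL := by
  obtain ⟨h6, o, ho, rfl⟩ := hh
  obtain ⟨c, hc, rfl⟩ := oct_dec ho
  rw [← toSet_and, card_toSet] at h6
  rw [← toSet_and, maskOf_toSet (Nat.and_lt_two_pow _ d0_lt)]
  have h1 := List.all_eq_true.1 hexL_spec (c &&& d0) (List.mem_map.2 ⟨c, hc, rfl⟩)
  rw [h6] at h1
  simpa using h1

theorem hexL_mem {m : Nat} (hm : m ∈ hexL) : toSet m ∈ hexadsOn (toSet d0) := by
  have h1 := List.all_eq_true.1 hexL_sound m hm
  rw [Bool.and_eq_true, List.any_eq_true, nbeq_iff] at h1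
  obtain ⟨⟨c, hc, e⟩, h6⟩ := h1
  rw [nbeq_iff] at e
  refine ⟨by rw [card_toSet, h6], toSet c, toSet_octL hc, ?_⟩
  rw [← toSet_and, e]

theorem smul_mem_hexadsOn {g : Equiv.Perm GolayPt} (hg : g ∈ M24) {d h : Finset GolayPt}
    (hh : h ∈ hexadsOn d) : g • h ∈ hexadsOn (g • d) := by
  obtain ⟨h6, o, ho, rfl⟩ := hh
  exact ⟨by rw [Finset.card_smul_finset]; exact h6, g • o, smul_mem_octads hg ho,
    (Finset.smul_finset_inter).symm⟩

theorem smul_mem_quartets {g : Equiv.Perm GolayPt} (hg : g ∈ M24) {d : Finset GolayPt}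
    {Q : Finset (Finset GolayPt)} (hQ : Q ∈ quartets d) : g • Q ∈ quartets (g • d) := by
  obtain ⟨h4, h3, hh⟩ := hQ
  refine ⟨by rw [Finset.card_smul_finset]; exact h4, ?_, ?_⟩
  · intro t ht
    obtain ⟨t', ht', rfl⟩ := Finset.mem_smul_finset.1 ht
    exact ⟨by rw [Finset.card_smul_finset]; exact (h3 t' ht').1,
      Finset.smul_finset_subset_smul_finset (h3 t' ht').2⟩
  · intro t ht u hu hne
    obtain ⟨t', ht', rfl⟩ := Finset.mem_smul_finset.1 ht
    obtain ⟨u', hu', rfl⟩ := Finset.mem_smul_finset.1 hu
    rw [← Finset.smul_finset_union]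
    exact smul_mem_hexadsOn hg (hh t' ht' u' hu' (fun e => hne (by rw [e])))

/-- the family of sets coded by a list of masks -/
def famM (L : List Nat) : Finset (Finset GolayPt) := (L.map toSet).toFinset

theorem mem_famM {L : List Nat} {t : Finset GolayPt} : t ∈ famM L ↔ ∃ m ∈ L, toSet m = t := by
  rw [famM, List.mem_toFinset, List.mem_map]

/-- the check of the code of a quartet -/
def quartOK (L : List Nat) : Bool :=
  Nat.beq L.length 4 && sortedLt L &&
    (L.all fun m => Nat.beq (wt m) 3 && Nat.beq (m &&& d0) m) &&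
    L.all fun a => L.all fun b => Nat.beq a b || hexL.contains (a ||| b)

theorem quartOK_spec {L : List Nat} (h : quartOK L = true) :
    L.length = 4 ∧ sortedLt L = true ∧ (∀ m ∈ L, wt m = 3 ∧ m &&& d0 = m) ∧
      ∀ a ∈ L, ∀ b ∈ L, a ≠ b → (a ||| b) ∈ hexL := by
  rw [quartOK, Bool.and_eq_true, Bool.and_eq_true, Bool.and_eq_true, nbeq_iff, List.all_eq_true,
    List.all_eq_true] at h
  obtain ⟨⟨⟨h1, h2⟩, h3⟩, h4⟩ := h
  refine ⟨h1, h2, fun m hm => ?_, fun a ha b hb hne => ?_⟩
  · have h5 := h3 m hm
    rw [Bool.and_eq_true, nbeq_iff, nbeq_iff] at h5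
    exact h5
  · have h5 := List.all_eq_true.1 (h4 a ha) b hb
    rw [Bool.or_eq_true, nbeq_iff, List.contains_iff_mem] at h5
    rcases h5 with h5 | h5
    · exact absurd h5 hne
    · exact h5

theorem lt_of_sub {m : Nat} (h : m &&& d0 = m) : m < 2 ^ 24 := by
  rw [← h]
  exact Nat.and_lt_two_pow _ d0_lt

theorem famM_nodup {L : List Nat} (hs : sortedLt L = true) (hlt : ∀ m ∈ L, m < 2 ^ 24) :
    (L.map toSet).Nodup :=
  List.Nodup.map_on (fun a ha b hb h => toSet_inj (hlt a ha) (hlt b hb) h) (sortedLt_nodup hs)

theorem presents_famM {L : List Nat} (hs : sortedLt L = true) (hlt : ∀ m ∈ L, m < 2 ^ 24) :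
    Presents L (famM L) := fun F => by
  rw [famM, List.sum_toFinset _ (famM_nodup hs hlt), List.map_map]
  rfl

theorem card_famM {L : List Nat} (hs : sortedLt L = true) (hlt : ∀ m ∈ L, m < 2 ^ 24) :
    (famM L).card = L.length := by
  rw [famM, List.toFinset_card_of_nodup (famM_nodup hs hlt), List.length_map]

theorem famM_mem {L : List Nat} (h : quartOK L = true) : famM L ∈ quartets (toSet d0) := by
  obtain ⟨h1, h2, h3, h4⟩ := quartOK_spec h
  have hlt : ∀ m ∈ L, m < 2 ^ 24 := fun m hm => lt_of_sub (h3 m hm).2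
  refine ⟨?_, ?_, ?_⟩
  · rw [card_famM h2 hlt, h1]
  · intro t ht
    obtain ⟨m, hm, rfl⟩ := mem_famM.1 ht
    refine ⟨by rw [card_toSet, (h3 m hm).1], ?_⟩
    rw [← (h3 m hm).2, toSet_and]
    exact Finset.inter_subset_right
  · intro t ht u hu hne
    obtain ⟨a, ha, rfl⟩ := mem_famM.1 ht
    obtain ⟨b, hb, rfl⟩ := mem_famM.1 hu
    rw [← toSet_or]
    exact hexL_mem (h4 a ha b hb (fun e => hne (by rw [e])))

theorem famM_sub {L L' : List Nat} (hl : ∀ m ∈ L, m &&& d0 = m) (hl' : ∀ m ∈ L', m &&& d0 = m)
    (e : famM L = famM L') : ∀ a ∈ L, a ∈ L' := by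
  intro a ha
  have h1 : toSet a ∈ famM L' := by
    rw [← e]
    exact mem_famM.2 ⟨a, ha, rfl⟩
  obtain ⟨b, hb, hab⟩ := mem_famM.1 h1
  rw [← toSet_inj (lt_of_sub (hl' b hb)) (lt_of_sub (hl a ha)) hab]
  exact hb

theorem famM_inj {L L' : List Nat} (h : quartOK L = true) (h' : quartOK L' = true)
    (e : famM L = famM L') : L = L' := by
  obtain ⟨-, h2, h3, -⟩ := quartOK_spec h
  obtain ⟨-, h2', h3', -⟩ := quartOK_spec h'
  exact List.Pairwise.eq_of_mem_iff (sortedLt_pairwise L h2) (sortedLt_pairwise L' h2') fun a =>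
    ⟨famM_sub (fun m hm => (h3 m hm).2) (fun m hm => (h3' m hm).2) e a,
      famM_sub (fun m hm => (h3' m hm).2) (fun m hm => (h3 m hm).2) e.symm a⟩

theorem famM_congr {L L' : List Nat} (h : ∀ a, a ∈ L ↔ a ∈ L') : famM L = famM L' := by
  ext t
  rw [mem_famM, mem_famM]
  constructor
  · rintro ⟨m, hm, rfl⟩
    exact ⟨m, (h m).1 hm, rfl⟩
  · rintro ⟨m, hm, rfl⟩
    exact ⟨m, (h m).2 hm, rfl⟩

theorem smul_famM {T : List Nat} (hT : isPerm T = true) (L : List Nat) :
    permOf T • famM L = famM (L.map (permMask (tf T))) := by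
  ext t
  rw [Finset.mem_smul_finset, mem_famM]
  constructor
  · rintro ⟨u, hu, rfl⟩
    obtain ⟨m, hm, rfl⟩ := mem_famM.1 hu
    exact ⟨permMask (tf T) m, List.mem_map_of_mem hm, (smul_toSet_permOf hT m).symm⟩
  · rintro ⟨m', hm', rfl⟩
    obtain ⟨m, hm, rfl⟩ := List.mem_map.1 hm'
    exact ⟨toSet m, mem_famM.2 ⟨m, hm, rfl⟩, smul_toSet_permOf hT m⟩

/-- the test that a table maps a coded family into another -/
def imgFam (T : List Nat) (L R : List Nat) : Bool :=
  (L.map (permMask (tf T))).all fun m => R.contains m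

theorem imgFam_sound {T : List Nat} (hT : isPerm T = true) {L R : List Nat}
    (hc : (famM R).card ≤ (famM L).card) (h : imgFam T L R = true) :
    permOf T • famM L = famM R := by
  apply Finset.eq_of_subset_of_card_le
  · rw [smul_famM hT]
    intro t ht
    obtain ⟨m, hm, rfl⟩ := mem_famM.1 ht
    exact mem_famM.2 ⟨m, List.contains_iff_mem.1 (List.all_eq_true.1 h m hm), rfl⟩
  · rw [Finset.card_smul_finset]
    exact hc

/-- the same test for a table coded by a number -/
def imgFamN (n : Nat) (L R : List Nat) : Bool :=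
  (L.map (permMask (tfN n))).all fun m => R.contains m

theorem imgFamN_eq (n : Nat) (L R : List Nat) : imgFamN n L R = imgFam (decT n) L R := by
  have e : L.map (permMask (tfN n)) = L.map (permMask (tf (decT n))) :=
    List.map_congr_left fun m _ => (permMask_decT n m).symm
  rw [imgFamN, imgFam, e]

/-- insertion into a sorted list -/
def ins (a : Nat) : List Nat → List Nat
  | [] => [a]
  | b :: l => bif Nat.ble a b then a :: b :: l else b :: ins a l

/-- insertion sort -/
def isort : List Nat → List Nat
  | [] => []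
  | a :: l => ins a (isort l)

theorem mem_ins (a x : Nat) : ∀ l : List Nat, x ∈ ins a l ↔ x = a ∨ x ∈ l
  | [] => by simp [ins]
  | b :: l => by
    rw [ins]
    cases Nat.ble a b
    · simp only [cond_false, List.mem_cons, mem_ins a x l]
      tauto
    · simp only [cond_true, List.mem_cons]

theorem mem_isort (x : Nat) : ∀ l : List Nat, x ∈ isort l ↔ x ∈ l
  | [] => by simp [isort]
  | a :: l => by
    rw [isort, mem_ins, mem_isort x l, List.mem_cons]

/-- the quartets of the standard dodecad -/
def quartLL : List (List Nat) :=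
  [[7, 336, 70144, 270344], [7, 584, 73744, 266496], [7, 4120, 8960, 327744], [7, 12352, 65800, 262672],
   [11, 580, 77824, 262416], [11, 4116, 8512, 328192], [11, 4864, 65616, 270340], [11, 8720, 65796, 266304],
   [13, 578, 12544, 327696], [13, 784, 69696, 270338], [13, 4114, 74240, 262464], [13, 8272, 65794, 266752],
   [14, 577, 8464, 331776], [14, 4113, 73792, 262912], [14, 4416, 66064, 270337], [14, 12800, 65793, 262224],
   [19, 324, 8712, 331776], [19, 4108, 66304, 270400], [19, 4672, 73732, 262408], [19, 12544, 65608, 262660],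
   [21, 322, 12800, 327688], [21, 776, 73730, 266304], [21, 4106, 66112, 270592], [21, 8264, 69888, 262658],
   [22, 321, 66056, 274432], [22, 4105, 8768, 327936], [22, 4864, 73729, 262216], [22, 8456, 69696, 262657],
   [25, 772, 65602, 274432], [25, 4102, 73984, 262720], [25, 4416, 8706, 327684], [25, 8260, 70144, 262402],
   [26, 832, 4101, 335872], [26, 8452, 65601, 266752], [26, 8705, 69888, 262212], [26, 12352, 66052, 262401],
   [28, 769, 77824, 262210], [28, 4099, 65856, 270848], [28, 4672, 8450, 327681], [28, 8257, 66050, 266496],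
   [67, 276, 74240, 266248], [67, 524, 69888, 270352], [67, 4624, 8456, 327684], [67, 12292, 65560, 262912],
   [69, 274, 69640, 270848], [69, 522, 73984, 266256], [69, 4864, 8216, 327682], [69, 12290, 66064, 262408],
   [70, 273, 73736, 266752], [70, 521, 69648, 270592], [70, 4360, 8720, 327681], [70, 12289, 66304, 262168],
   [73, 518, 4368, 335872], [73, 8212, 66304, 266242], [73, 8450, 69636, 262672], [73, 12800, 65554, 262404],
   [74, 517, 12304, 327936], [74, 784, 73732, 266241], [74, 4356, 65553, 270848], [74, 8449, 70144, 262164],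
   [76, 515, 65808, 274432], [76, 4354, 8209, 328192], [76, 4624, 73730, 262401], [76, 8960, 69633, 262162],
   [81, 262, 77824, 262664], [81, 4360, 66052, 270338], [81, 4610, 8204, 327936], [81, 8960, 65546, 266244],
   [82, 261, 12296, 328192], [82, 776, 69636, 270337], [82, 4609, 73984, 262156], [82, 8708, 65545, 266496],
   [84, 259, 4616, 335872], [84, 8201, 69634, 262912], [84, 8706, 65800, 266241], [84, 12544, 66049, 262154],
   [88, 770, 8197, 331776], [88, 4353, 74240, 262150], [88, 4612, 65539, 270592], [88, 12290, 65796, 262657],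
   [259, 8264, 66064, 266244], [259, 8708, 69696, 262168], [259, 12304, 65548, 262720], [261, 536, 73792, 266242],
   [261, 4672, 65546, 270352], [261, 8706, 69648, 262216], [262, 4168, 8705, 327696], [262, 4624, 65545, 270400],
   [262, 8216, 66112, 266241], [265, 532, 8258, 331776], [265, 4176, 65542, 270848], [265, 4610, 73744, 262212],
   [265, 12292, 66112, 262162], [266, 592, 65541, 274432], [266, 4164, 74240, 262161], [266, 4609, 8212, 327744],
   [266, 8257, 69648, 262660], [268, 529, 4162, 335872], [268, 8210, 70144, 262209], [268, 8768, 65539, 266256],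
   [268, 12289, 65616, 262658], [273, 524, 12290, 327744], [273, 4168, 66050, 270340], [273, 8768, 69636, 262154],
   [274, 584, 12289, 327684], [274, 4612, 73792, 262153], [274, 8204, 66049, 266304], [276, 521, 12352, 327682],
   [276, 4610, 65608, 270337], [276, 8202, 69633, 262720], [280, 517, 69634, 270400], [280, 578, 73729, 266244],
   [280, 4161, 8198, 328192], [280, 12800, 65604, 262147], [321, 4120, 73732, 262658], [321, 4612, 8202, 327696],
   [321, 8720, 69634, 262156], [322, 536, 69633, 270340], [322, 4108, 73744, 262657], [322, 8201, 66052, 266256],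
   [324, 4106, 73729, 262672], [324, 4609, 65560, 270338], [324, 12304, 66050, 262153], [328, 530, 77824, 262149],
   [328, 4102, 66049, 270352], [328, 4113, 8708, 327682], [328, 8195, 65556, 266752], [336, 522, 12292, 327681],
   [336, 4105, 73730, 262660], [336, 8705, 65548, 266242], [515, 4176, 8452, 327688], [515, 4360, 73792, 262164],
   [515, 8216, 69636, 262464], [517, 4416, 73736, 262162], [517, 8450, 65616, 266248], [518, 8272, 69633, 262408],
   [518, 8449, 65560, 266304], [518, 12296, 65856, 262161], [521, 4354, 73732, 262224], [521, 8210, 65856, 266244],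
   [522, 4353, 65556, 270400], [522, 8209, 69696, 262404], [524, 4176, 73729, 262402], [524, 8512, 65554, 266241],
   [529, 8202, 65604, 266496], [529, 8512, 69640, 262150], [529, 12292, 65794, 262216], [530, 4161, 65548, 270592],
   [530, 4356, 8201, 327744], [530, 8260, 65793, 266248], [532, 4168, 73984, 262147], [532, 4354, 65601, 270344],
   [532, 12289, 65546, 262464], [536, 4164, 8195, 327936], [536, 12544, 65542, 262209], [577, 4114, 65800, 270340],
   [577, 4356, 73730, 262168], [577, 12296, 65556, 262402], [578, 4113, 65796, 270344], [578, 8212, 69640, 262401],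
   [580, 4120, 65794, 270337], [580, 4353, 8210, 327688], [580, 8456, 65553, 266242], [584, 4116, 65793, 270338],
   [584, 8452, 69634, 262161], [592, 4099, 73736, 262404], [592, 4108, 8449, 327682], [592, 8198, 69888, 262153],
   [769, 4106, 8272, 327684], [769, 4164, 65554, 270344], [769, 8198, 65608, 266256], [770, 4105, 65604, 270352],
   [770, 4116, 73736, 262209], [770, 12352, 65553, 262156], [772, 4114, 8264, 327681], [772, 4161, 73744, 262154],
   [772, 8195, 69640, 262224], [776, 4099, 8260, 327696], [776, 12304, 65601, 262150], [784, 4102, 8257, 327688],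
   [784, 12296, 65539, 262212], [832, 8204, 69648, 262147], [832, 8209, 65542, 266248], [832, 12290, 65545, 262164],
   [4099, 8464, 66052, 262216], [4101, 8258, 65808, 262664], [4101, 8456, 66050, 262224], [4101, 8720, 65608, 262402],
   [4102, 8712, 65616, 262401], [4105, 8452, 66064, 262210], [4106, 8708, 65808, 262209], [4108, 8706, 65601, 262416],
   [4113, 8450, 66056, 262212], [4114, 8449, 65604, 262664], [4116, 8705, 65602, 262408], [4120, 8258, 66049, 262404],
   [4161, 8712, 65794, 262164], [4162, 8197, 66056, 262416], [4162, 8216, 65793, 262660], [4162, 8960, 65556, 262153],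
   [4164, 8464, 65545, 262658], [4168, 8210, 65541, 262912], [4176, 8202, 66304, 262149], [4353, 8204, 65602, 262672],
   [4354, 8768, 65560, 262149], [4356, 8272, 66056, 262147], [4360, 8197, 65554, 262720], [4368, 8195, 66112, 262156],
   [4368, 8260, 65546, 262657], [4368, 8712, 65541, 262210], [4416, 8212, 65539, 262664], [4609, 8264, 65542, 262416],
   [4610, 8512, 65541, 262168], [4612, 8209, 65800, 262210], [4616, 8198, 65553, 262464], [4616, 8257, 65796, 262162],
   [4616, 8464, 65602, 262149], [4624, 8197, 65856, 262154], [4672, 8201, 65808, 262150], [4864, 8258, 65548, 262161]]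

set_option maxRecDepth 100000 in
theorem quartLL_ok : quartLL.all quartOK = true := by decide +kernel

set_option maxRecDepth 100000 in
theorem quartLL_nodup : quartLL.Nodup := by decide +kernel

theorem quartLL_length : quartLL.length = 220 := by decide +kernel

theorem quartLL_spec {L : List Nat} (hL : L ∈ quartLL) : quartOK L = true :=
  List.all_eq_true.1 quartLL_ok L hL

/-- the first quartet -/
def L0 : List Nat := [7, 336, 70144, 270344]

theorem L0_mem : L0 ∈ quartLL := by decide +kernel

/-- the first two triples of the first quartet -/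
def T0 : Finset GolayPt := {pt 0, pt 1, pt 2}

/-- the first two triples of the first quartet -/
def U0 : Finset GolayPt := {pt 4, pt 6, pt 8}

theorem T0_mem : T0 ∈ famM L0 := by decide +kernel

theorem U0_mem : U0 ∈ famM L0 := by decide +kernel

theorem z_dec : ∀ z : GolayPt, hexL.contains (maskOf (T0 ∪ {pt 4, pt 6, z})) = true →
    z = pt 8 := by decide +kernel

set_option synthInstance.maxSize 2000 in
set_option synthInstance.maxHeartbeats 200000 in
set_option maxRecDepth 100000 in
theorem v_dec : ∀ x y z : GolayPt, (x ∈ toSet d0 ∧ x ∉ T0 ∧ x ∉ U0) →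
    (y ∈ toSet d0 ∧ y ∉ T0 ∧ y ∉ U0) → (z ∈ toSet d0 ∧ z ∉ T0 ∧ z ∉ U0) →
    hexL.contains (maskOf (T0 ∪ {x, y, z})) = true →
    hexL.contains (maskOf (U0 ∪ {x, y, z})) = true →
    ({x, y, z} : Finset GolayPt) ∈ famM L0 := by decide +kernel

end Golay
end Cfsg.Agent.Helper28
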