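import Mathlib
import Cfsg.Agent.Helper28.QuartCl
import Cfsg.Agent.Helper28.GL23
import Cfsg.Agent.Helper28.TabMore

set_option autoImplicit false

namespace Cfsg.Agent.Helper28
namespace Golay

open Cfsg
open scoped Pointwise

/-! ### The structure of the stabiliser of a quartet -/

/-- the standard quartet stabiliser -/
def HQ : Subgroup (Equiv.Perm GolayPt) :=
  GS [d0] [] ⊓ MulAction.stabilizer (Equiv.Perm GolayPt) (famM L0)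

theorem card_HQ : Nat.card HQ = 432 := by
  have h1 := card_eq_orbit_mul_stab (GS [d0] []) (famM L0)
  have h2 : MulAction.orbit ↥(GS [d0] []) (famM L0) = quartets (toSet d0) := by
    ext Q
    constructor
    · rintro ⟨⟨g, hg⟩, rfl⟩
      have h3 := smul_mem_quartets hg.1 (famM_mem (quartLL_spec L0_mem))
      rw [hg.2.1 d0 List.mem_cons_self] at h3
      exact h3
    · intro hQ
      obtain ⟨σ, hσ, e1, e2⟩ := quart_trans (toSet d0) d0_mem Q hQ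
      refine ⟨⟨σ⁻¹, M24.inv_mem hσ, fun m hm => ?_, fun i hi => absurd hi List.not_mem_nil⟩, ?_⟩
      · rw [List.mem_singleton] at hm
        subst hm
        rw [inv_smul_eq_iff, e1]
      · show σ⁻¹ • famM L0 = Q
        rw [inv_smul_eq_iff, e2]
  rw [h2, ncard_quartets0, card_GS12] at h1
  show Nat.card ↥(GS [d0] [] ⊓ MulAction.stabilizer (Equiv.Perm GolayPt) (famM L0)) = 432
  omega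

set_option maxRecDepth 100000 in
/-- the elements of the standard quartet stabiliser -/
def L432 : List (List Nat) :=
  [[0, 1, 2, 3, 4, 5, 6, 7, 8, 9, 10, 11, 12, 13, 14, 15, 16, 17, 18, 19, 20, 21, 22, 23],
   [0, 1, 2, 3, 12, 5, 9, 10, 16, 6, 7, 22, 4, 18, 14, 19, 8, 17, 13, 15, 21, 20, 11, 23],
   [0, 1, 2, 4, 12, 15, 16, 7, 9, 13, 10, 22, 3, 8, 21, 19, 18, 17, 6, 5, 14, 20, 23, 11],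
   [0, 1, 2, 4, 3, 15, 13, 10, 18, 16, 7, 23, 12, 6, 21, 5, 9, 17, 8, 19, 20, 14, 22, 11],
   [0, 1, 2, 6, 18, 19, 3, 17, 13, 9, 10, 22, 16, 8, 21, 15, 12, 7, 4, 5, 20, 14, 11, 23],
   [0, 1, 2, 6, 16, 19, 9, 10, 12, 3, 17, 11, 18, 4, 21, 5, 13, 7, 8, 15, 14, 20, 22, 23],
   [0, 1, 2, 8, 13, 5, 18, 7, 3, 12, 17, 11, 9, 4, 21, 19, 16, 10, 6, 15, 20, 14, 23, 22],
   [0, 1, 2, 8, 9, 5, 12, 17, 16, 18, 7, 23, 13, 6, 21, 15, 3, 10, 4, 19, 14, 20, 11, 22],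
   [0, 1, 2, 9, 13, 15, 3, 17, 18, 6, 7, 11, 8, 16, 20, 19, 4, 10, 12, 5, 21, 14, 22, 23],
   [0, 1, 2, 9, 8, 15, 6, 7, 4, 3, 17, 22, 13, 12, 20, 5, 18, 10, 16, 19, 14, 21, 11, 23],
   [0, 1, 2, 12, 4, 19, 8, 10, 6, 18, 7, 11, 3, 16, 20, 15, 13, 17, 9, 5, 14, 21, 23, 22],
   [0, 1, 2, 12, 3, 19, 18, 7, 13, 8, 10, 23, 4, 9, 20, 5, 6, 17, 16, 15, 21, 14, 11, 22],
   [0, 1, 2, 13, 9, 19, 16, 7, 12, 4, 17, 23, 8, 3, 14, 15, 6, 10, 18, 5, 21, 20, 22, 11],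
   [0, 1, 2, 13, 8, 19, 4, 17, 6, 16, 7, 22, 9, 18, 14, 5, 12, 10, 3, 15, 20, 21, 23, 11],
   [0, 1, 2, 16, 18, 5, 13, 10, 3, 4, 17, 22, 6, 12, 20, 15, 8, 7, 9, 19, 21, 14, 23, 11],
   [0, 1, 2, 16, 6, 5, 4, 17, 8, 13, 10, 23, 18, 9, 20, 19, 3, 7, 12, 15, 14, 21, 22, 11],
   [0, 1, 2, 18, 6, 15, 8, 10, 4, 12, 17, 23, 16, 3, 14, 19, 9, 7, 13, 5, 20, 21, 11, 22],
   [0, 1, 2, 18, 16, 15, 12, 17, 9, 8, 10, 11, 6, 13, 14, 5, 4, 7, 3, 19, 21, 20, 23, 22],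
   [0, 2, 1, 12, 4, 22, 6, 7, 8, 13, 10, 15, 3, 9, 20, 11, 18, 17, 16, 23, 14, 21, 5, 19],
   [0, 2, 1, 12, 3, 22, 13, 10, 18, 6, 7, 5, 4, 16, 20, 23, 8, 17, 9, 11, 21, 14, 15, 19],
   [0, 2, 1, 4, 3, 11, 18, 7, 13, 9, 10, 5, 12, 8, 21, 23, 16, 17, 6, 22, 20, 14, 19, 15],
   [0, 2, 1, 4, 12, 11, 9, 10, 16, 18, 7, 19, 3, 6, 21, 22, 13, 17, 8, 23, 14, 20, 5, 15],
   [0, 2, 1, 6, 16, 23, 12, 17, 9, 13, 10, 5, 18, 8, 21, 11, 3, 7, 4, 22, 14, 20, 15, 19],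
   [0, 2, 1, 6, 18, 23, 13, 10, 3, 12, 17, 15, 16, 4, 21, 22, 9, 7, 8, 11, 20, 14, 5, 19],
   [0, 2, 1, 8, 9, 22, 16, 7, 12, 3, 17, 15, 13, 4, 21, 23, 18, 10, 6, 11, 14, 20, 19, 5],
   [0, 2, 1, 8, 13, 22, 3, 17, 18, 16, 7, 19, 9, 6, 21, 11, 12, 10, 4, 23, 20, 14, 15, 5],
   [0, 2, 1, 13, 9, 11, 12, 17, 16, 6, 7, 15, 8, 18, 14, 23, 4, 10, 3, 22, 21, 20, 5, 19],
   [0, 2, 1, 13, 8, 11, 6, 7, 4, 12, 17, 5, 9, 3, 14, 22, 16, 10, 18, 23, 20, 21, 15, 19],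
   [0, 2, 1, 3, 4, 23, 8, 10, 6, 16, 7, 15, 12, 18, 14, 11, 9, 17, 13, 22, 20, 21, 19, 5],
   [0, 2, 1, 3, 12, 23, 16, 7, 9, 8, 10, 19, 4, 13, 14, 22, 6, 17, 18, 11, 21, 20, 15, 5],
   [0, 2, 1, 9, 13, 23, 18, 7, 3, 4, 17, 19, 8, 12, 20, 11, 6, 10, 16, 22, 21, 14, 5, 15],
   [0, 2, 1, 9, 8, 23, 4, 17, 6, 18, 7, 5, 13, 16, 20, 22, 3, 10, 12, 11, 14, 21, 19, 15],
   [0, 2, 1, 18, 16, 22, 9, 10, 12, 4, 17, 5, 6, 3, 14, 11, 8, 7, 13, 23, 21, 20, 19, 15],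
   [0, 2, 1, 18, 6, 22, 4, 17, 8, 9, 10, 19, 16, 13, 14, 23, 12, 7, 3, 11, 20, 21, 5, 15],
   [0, 2, 1, 16, 6, 11, 8, 10, 4, 3, 17, 19, 18, 12, 20, 23, 13, 7, 9, 22, 14, 21, 15, 5],
   [0, 2, 1, 16, 18, 11, 3, 17, 13, 8, 10, 15, 6, 9, 20, 22, 4, 7, 12, 23, 21, 14, 19, 5],
   [1, 0, 2, 12, 8, 19, 4, 11, 6, 3, 23, 10, 18, 9, 20, 5, 13, 22, 16, 15, 14, 21, 7, 17],
   [1, 0, 2, 12, 18, 19, 3, 23, 13, 4, 11, 7, 8, 16, 20, 15, 6, 22, 9, 5, 21, 14, 10, 17],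
   [1, 0, 2, 16, 13, 5, 18, 22, 3, 6, 23, 10, 4, 9, 20, 19, 8, 11, 12, 15, 21, 14, 17, 7],
   [1, 0, 2, 16, 4, 5, 6, 23, 8, 18, 22, 17, 13, 12, 20, 15, 3, 11, 9, 19, 14, 21, 10, 7],
   [1, 0, 2, 13, 16, 19, 9, 23, 12, 8, 22, 7, 4, 18, 14, 5, 6, 11, 3, 15, 21, 20, 17, 10],
   [1, 0, 2, 13, 4, 19, 8, 22, 6, 9, 23, 17, 16, 3, 14, 15, 12, 11, 18, 5, 20, 21, 7, 10],
   [1, 0, 2, 4, 16, 15, 12, 22, 9, 3, 23, 7, 13, 6, 21, 5, 18, 11, 8, 19, 14, 20, 10, 17],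
   [1, 0, 2, 4, 13, 15, 3, 23, 18, 12, 22, 10, 16, 8, 21, 19, 9, 11, 6, 5, 20, 14, 7, 17],
   [1, 0, 2, 6, 9, 19, 16, 11, 12, 18, 22, 10, 3, 8, 21, 15, 13, 23, 4, 5, 14, 20, 17, 7],
   [1, 0, 2, 6, 3, 19, 18, 22, 13, 16, 11, 17, 9, 4, 21, 5, 12, 23, 8, 15, 20, 14, 10, 7],
   [1, 0, 2, 9, 6, 15, 8, 22, 4, 13, 11, 7, 3, 16, 20, 19, 18, 23, 12, 5, 14, 21, 17, 10],
   [1, 0, 2, 9, 3, 15, 13, 11, 18, 8, 22, 17, 6, 12, 20, 5, 4, 23, 16, 19, 21, 14, 7, 10],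
   [1, 0, 2, 8, 18, 5, 13, 11, 3, 9, 23, 7, 12, 6, 21, 15, 16, 22, 4, 19, 20, 14, 17, 10],
   [1, 0, 2, 8, 12, 5, 9, 23, 16, 13, 11, 17, 18, 4, 21, 19, 3, 22, 6, 15, 14, 20, 7, 10],
   [1, 0, 2, 3, 9, 5, 12, 22, 16, 4, 11, 10, 6, 13, 14, 15, 8, 23, 18, 19, 21, 20, 7, 17],
   [1, 0, 2, 3, 6, 5, 4, 11, 8, 12, 22, 7, 9, 18, 14, 19, 16, 23, 13, 15, 20, 21, 10, 17],
   [1, 0, 2, 18, 12, 15, 16, 11, 9, 6, 23, 17, 8, 3, 14, 19, 4, 22, 13, 5, 21, 20, 10, 7],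
   [1, 0, 2, 18, 8, 15, 6, 23, 4, 16, 11, 10, 12, 13, 14, 5, 9, 22, 3, 19, 20, 21, 17, 7],
   [1, 2, 0, 9, 3, 10, 18, 22, 13, 4, 11, 5, 6, 16, 20, 17, 8, 23, 12, 7, 21, 14, 19, 15],
   [1, 2, 0, 9, 6, 10, 4, 11, 8, 18, 22, 19, 3, 12, 20, 7, 13, 23, 16, 17, 14, 21, 5, 15],
   [1, 2, 0, 3, 6, 17, 8, 22, 4, 16, 11, 19, 9, 13, 14, 7, 12, 23, 18, 10, 20, 21, 15, 5],
   [1, 2, 0, 3, 9, 17, 16, 11, 12, 8, 22, 15, 6, 18, 14, 10, 4, 23, 13, 7, 21, 20, 19, 5],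
   [1, 2, 0, 18, 12, 7, 9, 23, 16, 4, 11, 19, 8, 13, 14, 17, 6, 22, 3, 10, 21, 20, 5, 15],
   [1, 2, 0, 18, 8, 7, 4, 11, 6, 9, 23, 5, 12, 3, 14, 10, 16, 22, 13, 17, 20, 21, 19, 15],
   [1, 2, 0, 13, 16, 10, 12, 22, 9, 6, 23, 5, 4, 3, 14, 7, 8, 11, 18, 17, 21, 20, 15, 19],
   [1, 2, 0, 13, 4, 10, 6, 23, 8, 12, 22, 15, 16, 18, 14, 17, 9, 11, 3, 7, 20, 21, 5, 19],
   [1, 2, 0, 4, 16, 17, 9, 23, 12, 18, 22, 5, 13, 8, 21, 7, 3, 11, 6, 10, 14, 20, 19, 15],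
   [1, 2, 0, 4, 13, 17, 18, 22, 3, 9, 23, 19, 16, 6, 21, 10, 12, 11, 8, 7, 20, 14, 5, 15],
   [1, 2, 0, 6, 3, 7, 13, 11, 18, 12, 22, 5, 9, 8, 21, 17, 16, 23, 4, 10, 20, 14, 15, 19],
   [1, 2, 0, 6, 9, 7, 12, 22, 16, 13, 11, 15, 3, 4, 21, 10, 18, 23, 8, 17, 14, 20, 5, 19],
   [1, 2, 0, 16, 4, 7, 8, 22, 6, 3, 23, 15, 13, 9, 20, 17, 18, 11, 12, 10, 14, 21, 19, 5],
   [1, 2, 0, 16, 13, 7, 3, 23, 18, 8, 22, 19, 4, 12, 20, 10, 6, 11, 9, 17, 21, 14, 15, 5],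
   [1, 2, 0, 8, 12, 10, 16, 11, 9, 3, 23, 19, 18, 6, 21, 17, 13, 22, 4, 7, 14, 20, 15, 5],
   [1, 2, 0, 8, 18, 10, 3, 23, 13, 16, 11, 15, 12, 4, 21, 7, 9, 22, 6, 17, 20, 14, 19, 5],
   [1, 2, 0, 12, 18, 17, 13, 11, 3, 6, 23, 15, 8, 9, 20, 7, 4, 22, 16, 10, 21, 14, 5, 19],
   [1, 2, 0, 12, 8, 17, 6, 23, 4, 13, 11, 5, 18, 16, 20, 10, 3, 22, 9, 7, 14, 21, 15, 19],
   [2, 0, 1, 18, 4, 22, 6, 19, 8, 16, 5, 17, 9, 3, 14, 11, 12, 15, 13, 23, 20, 21, 10, 7],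
   [2, 0, 1, 18, 9, 22, 16, 5, 12, 6, 19, 10, 4, 13, 14, 23, 8, 15, 3, 11, 21, 20, 17, 7],
   [2, 0, 1, 16, 8, 11, 6, 19, 4, 18, 15, 10, 3, 9, 20, 22, 13, 5, 12, 23, 14, 21, 17, 7],
   [2, 0, 1, 16, 3, 11, 18, 15, 13, 6, 19, 17, 8, 12, 20, 23, 4, 5, 9, 22, 21, 14, 10, 7],
   [2, 0, 1, 4, 9, 11, 12, 19, 16, 3, 5, 10, 18, 8, 21, 23, 13, 15, 6, 22, 14, 20, 7, 17],
   [2, 0, 1, 4, 18, 11, 3, 5, 13, 12, 19, 7, 9, 6, 21, 22, 16, 15, 8, 23, 20, 14, 10, 17],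
   [2, 0, 1, 13, 12, 11, 9, 15, 16, 8, 5, 17, 6, 3, 14, 22, 4, 19, 18, 23, 21, 20, 7, 10],
   [2, 0, 1, 13, 6, 11, 8, 5, 4, 9, 15, 7, 12, 18, 14, 23, 16, 19, 3, 22, 20, 21, 17, 10],
   [2, 0, 1, 9, 4, 23, 8, 5, 6, 13, 19, 17, 18, 12, 20, 11, 3, 15, 16, 22, 14, 21, 7, 10],
   [2, 0, 1, 9, 18, 23, 13, 19, 3, 8, 5, 7, 4, 16, 20, 22, 6, 15, 12, 11, 21, 14, 17, 10],
   [2, 0, 1, 6, 12, 23, 16, 5, 9, 18, 15, 17, 13, 4, 21, 22, 3, 19, 8, 11, 14, 20, 10, 7],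
   [2, 0, 1, 6, 13, 23, 18, 15, 3, 16, 5, 10, 12, 8, 21, 11, 9, 19, 4, 22, 20, 14, 17, 7],
   [2, 0, 1, 8, 16, 22, 9, 15, 12, 13, 19, 7, 3, 6, 21, 11, 18, 5, 4, 23, 14, 20, 17, 10],
   [2, 0, 1, 8, 3, 22, 13, 19, 18, 9, 15, 17, 16, 4, 21, 23, 12, 5, 6, 11, 20, 14, 7, 10],
   [2, 0, 1, 3, 8, 23, 4, 15, 6, 12, 19, 10, 16, 13, 14, 22, 9, 5, 18, 11, 20, 21, 7, 17],
   [2, 0, 1, 3, 16, 23, 12, 19, 9, 4, 15, 7, 8, 18, 14, 11, 6, 5, 13, 22, 21, 20, 10, 17],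
   [2, 0, 1, 12, 13, 22, 3, 5, 18, 4, 15, 10, 6, 9, 20, 11, 8, 19, 16, 23, 21, 14, 7, 17],
   [2, 0, 1, 12, 6, 22, 4, 15, 8, 3, 5, 7, 13, 16, 20, 23, 18, 19, 9, 11, 14, 21, 10, 17],
   [2, 1, 0, 8, 16, 10, 12, 19, 9, 18, 15, 11, 3, 4, 21, 7, 13, 5, 6, 17, 14, 20, 23, 22],
   [2, 1, 0, 8, 3, 10, 18, 15, 13, 12, 19, 23, 16, 6, 21, 17, 9, 5, 4, 7, 20, 14, 11, 22],
   [2, 1, 0, 13, 6, 10, 4, 15, 8, 16, 5, 23, 12, 3, 14, 7, 9, 19, 18, 17, 20, 21, 22, 11],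
   [2, 1, 0, 13, 12, 10, 16, 5, 9, 4, 15, 22, 6, 18, 14, 17, 8, 19, 3, 7, 21, 20, 23, 11],
   [2, 1, 0, 4, 18, 17, 13, 19, 3, 16, 5, 22, 9, 8, 21, 7, 12, 15, 6, 10, 20, 14, 23, 11],
   [2, 1, 0, 4, 9, 17, 16, 5, 12, 13, 19, 23, 18, 6, 21, 10, 3, 15, 8, 7, 14, 20, 22, 11],
   [2, 1, 0, 16, 8, 7, 4, 15, 6, 13, 19, 22, 3, 12, 20, 10, 18, 5, 9, 17, 14, 21, 23, 11],
   [2, 1, 0, 16, 3, 7, 13, 19, 18, 4, 15, 23, 8, 9, 20, 17, 6, 5, 12, 10, 21, 14, 22, 11],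
   [2, 1, 0, 6, 12, 7, 9, 15, 16, 3, 5, 22, 13, 8, 21, 17, 18, 19, 4, 10, 14, 20, 11, 23],
   [2, 1, 0, 6, 13, 7, 3, 5, 18, 9, 15, 11, 12, 4, 21, 10, 16, 19, 8, 17, 20, 14, 22, 23],
   [2, 1, 0, 9, 4, 10, 6, 19, 8, 3, 5, 11, 18, 16, 20, 17, 13, 15, 12, 7, 14, 21, 22, 23],
   [2, 1, 0, 9, 18, 10, 3, 5, 13, 6, 19, 22, 4, 12, 20, 7, 8, 15, 16, 17, 21, 14, 11, 23],
   [2, 1, 0, 18, 9, 7, 12, 19, 16, 8, 5, 23, 4, 3, 14, 10, 6, 15, 13, 17, 21, 20, 11, 22],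
   [2, 1, 0, 18, 4, 7, 8, 5, 6, 12, 19, 11, 9, 13, 14, 17, 16, 15, 3, 10, 20, 21, 23, 22],
   [2, 1, 0, 3, 8, 17, 6, 19, 4, 9, 15, 22, 16, 18, 14, 10, 12, 5, 13, 7, 20, 21, 11, 23],
   [2, 1, 0, 3, 16, 17, 9, 15, 12, 6, 19, 11, 8, 13, 14, 7, 4, 5, 18, 10, 21, 20, 22, 23],
   [2, 1, 0, 12, 13, 17, 18, 15, 3, 8, 5, 11, 6, 16, 20, 10, 4, 19, 9, 7, 21, 14, 23, 22],
   [2, 1, 0, 12, 6, 17, 8, 5, 4, 18, 15, 23, 13, 9, 20, 7, 3, 19, 16, 10, 14, 21, 11, 22],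
   [3, 18, 13, 0, 12, 10, 16, 5, 9, 6, 23, 22, 4, 1, 14, 19, 8, 17, 2, 11, 20, 21, 15, 7],
   [3, 18, 13, 0, 4, 10, 6, 23, 8, 16, 5, 15, 12, 2, 14, 11, 9, 17, 1, 19, 21, 20, 22, 7],
   [3, 18, 13, 12, 4, 19, 8, 5, 6, 1, 23, 15, 0, 9, 21, 11, 2, 17, 16, 10, 14, 20, 7, 22],
   [3, 18, 13, 12, 0, 19, 1, 23, 2, 8, 5, 7, 4, 16, 21, 10, 6, 17, 9, 11, 20, 14, 15, 22],
   [3, 18, 13, 16, 2, 11, 0, 17, 1, 6, 23, 15, 8, 9, 21, 19, 4, 5, 12, 10, 20, 14, 22, 7],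
   [3, 18, 13, 16, 8, 11, 6, 23, 4, 0, 17, 22, 2, 12, 21, 10, 1, 5, 9, 19, 14, 20, 15, 7],
   [3, 18, 13, 9, 1, 10, 2, 5, 0, 4, 17, 22, 6, 12, 21, 11, 8, 23, 16, 19, 20, 14, 7, 15],
   [3, 18, 13, 9, 6, 10, 4, 17, 8, 2, 5, 7, 1, 16, 21, 19, 0, 23, 12, 11, 14, 20, 22, 15],
   [3, 18, 13, 6, 1, 19, 0, 17, 2, 16, 5, 22, 9, 8, 20, 11, 12, 23, 4, 10, 21, 14, 15, 7],
   [3, 18, 13, 6, 9, 19, 16, 5, 12, 0, 17, 15, 1, 4, 20, 10, 2, 23, 8, 11, 14, 21, 22, 7],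
   [3, 18, 13, 4, 12, 11, 9, 23, 16, 2, 5, 22, 0, 8, 20, 19, 1, 17, 6, 10, 14, 21, 7, 15],
   [3, 18, 13, 4, 0, 11, 2, 5, 1, 9, 23, 7, 12, 6, 20, 10, 16, 17, 8, 19, 21, 14, 22, 15],
   [3, 18, 13, 1, 6, 11, 8, 5, 4, 12, 17, 7, 9, 0, 14, 19, 16, 23, 2, 10, 21, 20, 15, 22],
   [3, 18, 13, 1, 9, 11, 12, 17, 16, 8, 5, 15, 6, 2, 14, 10, 4, 23, 0, 19, 20, 21, 7, 22],
   [3, 18, 13, 8, 2, 10, 1, 23, 0, 12, 17, 15, 16, 4, 20, 19, 9, 5, 6, 11, 21, 14, 7, 22],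
   [3, 18, 13, 8, 16, 10, 12, 17, 9, 1, 23, 7, 2, 6, 20, 11, 0, 5, 4, 19, 14, 21, 15, 22],
   [3, 18, 13, 2, 16, 19, 9, 23, 12, 4, 17, 7, 8, 0, 14, 11, 6, 5, 1, 10, 20, 21, 22, 15],
   [3, 18, 13, 2, 8, 19, 4, 17, 6, 9, 23, 22, 16, 1, 14, 10, 12, 5, 0, 11, 21, 20, 7, 15],
   [3, 13, 18, 4, 12, 15, 16, 5, 9, 1, 23, 19, 0, 6, 20, 22, 2, 17, 8, 7, 14, 21, 10, 11],
   [3, 13, 18, 4, 0, 15, 1, 23, 2, 16, 5, 10, 12, 8, 20, 7, 9, 17, 6, 22, 21, 14, 19, 11],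
   [3, 13, 18, 12, 0, 22, 2, 5, 1, 6, 23, 10, 4, 9, 21, 7, 8, 17, 16, 15, 20, 14, 11, 19],
   [3, 13, 18, 12, 4, 22, 6, 23, 8, 2, 5, 11, 0, 16, 21, 15, 1, 17, 9, 7, 14, 20, 10, 19],
   [3, 13, 18, 16, 8, 7, 4, 17, 6, 1, 23, 10, 2, 9, 21, 22, 0, 5, 12, 15, 14, 20, 19, 11],
   [3, 13, 18, 16, 2, 7, 1, 23, 0, 4, 17, 19, 8, 12, 21, 15, 6, 5, 9, 22, 20, 14, 10, 11],
   [3, 13, 18, 9, 6, 15, 8, 5, 4, 0, 17, 19, 1, 12, 21, 7, 2, 23, 16, 22, 14, 20, 11, 10],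
   [3, 13, 18, 9, 1, 15, 0, 17, 2, 8, 5, 11, 6, 16, 21, 22, 4, 23, 12, 7, 20, 14, 19, 10],
   [3, 13, 18, 1, 6, 22, 4, 17, 8, 16, 5, 19, 9, 2, 14, 7, 12, 23, 0, 15, 21, 20, 10, 11],
   [3, 13, 18, 1, 9, 22, 16, 5, 12, 4, 17, 10, 6, 0, 14, 15, 8, 23, 2, 7, 20, 21, 19, 11],
   [3, 13, 18, 0, 12, 7, 9, 23, 16, 8, 5, 19, 4, 2, 14, 22, 6, 17, 1, 15, 20, 21, 11, 10],
   [3, 13, 18, 0, 4, 7, 8, 5, 6, 9, 23, 11, 12, 1, 14, 15, 16, 17, 2, 22, 21, 20, 19, 10],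
   [3, 13, 18, 6, 1, 7, 2, 5, 0, 12, 17, 11, 9, 4, 20, 22, 16, 23, 8, 15, 21, 14, 10, 19],
   [3, 13, 18, 6, 9, 7, 12, 17, 16, 2, 5, 10, 1, 8, 20, 15, 0, 23, 4, 22, 14, 21, 11, 19],
   [3, 13, 18, 2, 8, 15, 6, 23, 4, 12, 17, 10, 16, 0, 14, 22, 9, 5, 1, 7, 21, 20, 11, 19],
   [3, 13, 18, 2, 16, 15, 12, 17, 9, 6, 23, 11, 8, 1, 14, 7, 4, 5, 0, 22, 20, 21, 10, 19],
   [3, 13, 18, 8, 16, 22, 9, 23, 12, 0, 17, 11, 2, 4, 20, 7, 1, 5, 6, 15, 14, 21, 19, 10],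
   [3, 13, 18, 8, 2, 22, 0, 17, 1, 9, 23, 19, 16, 6, 20, 15, 12, 5, 4, 7, 21, 14, 11, 10],
   [4, 6, 8, 12, 3, 22, 13, 11, 18, 2, 15, 23, 0, 9, 14, 5, 1, 17, 16, 10, 21, 20, 7, 19],
   [4, 6, 8, 12, 0, 22, 2, 15, 1, 13, 11, 7, 3, 16, 14, 10, 18, 17, 9, 5, 20, 21, 23, 19],
   [4, 6, 8, 16, 1, 5, 0, 17, 2, 18, 15, 23, 13, 9, 14, 22, 3, 11, 12, 10, 20, 21, 19, 7],
   [4, 6, 8, 16, 13, 5, 18, 15, 3, 0, 17, 19, 1, 12, 14, 10, 2, 11, 9, 22, 21, 20, 23, 7],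
   [4, 6, 8, 1, 16, 22, 9, 15, 12, 3, 17, 7, 13, 0, 21, 5, 18, 11, 2, 10, 20, 14, 19, 23],
   [4, 6, 8, 1, 13, 22, 3, 17, 18, 9, 15, 19, 16, 2, 21, 10, 12, 11, 0, 5, 14, 20, 7, 23],
   [4, 6, 8, 13, 16, 10, 12, 17, 9, 2, 15, 7, 1, 18, 20, 5, 0, 11, 3, 22, 21, 14, 23, 19],
   [4, 6, 8, 13, 1, 10, 2, 15, 0, 12, 17, 23, 16, 3, 20, 22, 9, 11, 18, 5, 14, 21, 7, 19],
   [4, 6, 8, 18, 9, 22, 16, 11, 12, 0, 17, 23, 2, 3, 20, 10, 1, 15, 13, 5, 21, 14, 19, 7],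
   [4, 6, 8, 18, 2, 22, 0, 17, 1, 16, 11, 19, 9, 13, 20, 5, 12, 15, 3, 10, 14, 21, 23, 7],
   [4, 6, 8, 9, 18, 10, 3, 17, 13, 1, 11, 7, 2, 16, 14, 22, 0, 15, 12, 5, 21, 20, 19, 23],
   [4, 6, 8, 9, 2, 10, 1, 11, 0, 3, 17, 19, 18, 12, 14, 5, 13, 15, 16, 22, 20, 21, 7, 23],
   [4, 6, 8, 3, 0, 5, 1, 11, 2, 9, 15, 7, 12, 18, 20, 10, 16, 17, 13, 22, 14, 21, 19, 23],
   [4, 6, 8, 3, 12, 5, 9, 15, 16, 1, 11, 19, 0, 13, 20, 22, 2, 17, 18, 10, 21, 14, 7, 23],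
   [4, 6, 8, 2, 9, 5, 12, 17, 16, 13, 11, 23, 18, 1, 21, 10, 3, 15, 0, 22, 20, 14, 7, 19],
   [4, 6, 8, 2, 18, 5, 13, 11, 3, 12, 17, 7, 9, 0, 21, 22, 16, 15, 1, 10, 14, 20, 23, 19],
   [4, 6, 8, 0, 12, 10, 16, 11, 9, 18, 15, 19, 3, 2, 21, 22, 13, 17, 1, 5, 20, 14, 23, 7],
   [4, 6, 8, 0, 3, 10, 18, 15, 13, 16, 11, 23, 12, 1, 21, 5, 9, 17, 2, 22, 14, 20, 19, 7],
   [4, 8, 6, 1, 16, 23, 12, 17, 9, 18, 15, 5, 13, 2, 21, 7, 3, 11, 0, 19, 20, 14, 10, 22],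
   [4, 8, 6, 1, 13, 23, 18, 15, 3, 12, 17, 10, 16, 0, 21, 19, 9, 11, 2, 7, 14, 20, 5, 22],
   [4, 8, 6, 16, 13, 7, 3, 17, 18, 2, 15, 10, 1, 9, 14, 19, 0, 11, 12, 23, 21, 20, 22, 5],
   [4, 8, 6, 16, 1, 7, 2, 15, 0, 3, 17, 22, 13, 12, 14, 23, 18, 11, 9, 19, 20, 21, 10, 5],
   [4, 8, 6, 12, 0, 19, 1, 11, 2, 18, 15, 10, 3, 9, 14, 7, 13, 17, 16, 23, 20, 21, 5, 22],
   [4, 8, 6, 12, 3, 19, 18, 15, 13, 1, 11, 5, 0, 16, 14, 23, 2, 17, 9, 7, 21, 20, 10, 22],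
   [4, 8, 6, 9, 2, 23, 0, 17, 1, 13, 11, 5, 18, 16, 14, 19, 3, 15, 12, 7, 20, 21, 22, 10],
   [4, 8, 6, 9, 18, 23, 13, 11, 3, 0, 17, 22, 2, 12, 14, 7, 1, 15, 16, 19, 21, 20, 5, 10],
   [4, 8, 6, 18, 2, 7, 1, 11, 0, 12, 17, 5, 9, 3, 20, 19, 16, 15, 13, 23, 14, 21, 10, 22],
   [4, 8, 6, 18, 9, 7, 12, 17, 16, 1, 11, 10, 2, 13, 20, 23, 0, 15, 3, 19, 21, 14, 5, 22],
   [4, 8, 6, 13, 16, 19, 9, 15, 12, 0, 17, 5, 1, 3, 20, 7, 2, 11, 18, 23, 21, 14, 22, 10],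
   [4, 8, 6, 13, 1, 19, 0, 17, 2, 9, 15, 22, 16, 18, 20, 23, 12, 11, 3, 7, 14, 21, 5, 10],
   [4, 8, 6, 2, 18, 19, 3, 17, 13, 16, 11, 22, 9, 1, 21, 7, 12, 15, 0, 23, 14, 20, 10, 5],
   [4, 8, 6, 2, 9, 19, 16, 11, 12, 3, 17, 10, 18, 0, 21, 23, 13, 15, 1, 7, 20, 14, 22, 5],
   [4, 8, 6, 3, 0, 23, 2, 15, 1, 16, 11, 10, 12, 13, 20, 7, 9, 17, 18, 19, 14, 21, 22, 5],
   [4, 8, 6, 3, 12, 23, 16, 11, 9, 2, 15, 22, 0, 18, 20, 19, 1, 17, 13, 7, 21, 14, 10, 5],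
   [4, 8, 6, 0, 12, 7, 9, 15, 16, 13, 11, 22, 3, 1, 21, 19, 18, 17, 2, 23, 20, 14, 5, 10],
   [4, 8, 6, 0, 3, 7, 13, 11, 18, 9, 15, 5, 12, 2, 21, 23, 16, 17, 1, 19, 14, 20, 22, 10],
   [6, 4, 8, 13, 12, 10, 16, 7, 9, 1, 23, 17, 2, 3, 20, 22, 0, 19, 18, 5, 21, 14, 15, 11],
   [6, 4, 8, 13, 2, 10, 1, 23, 0, 16, 7, 15, 12, 18, 20, 5, 9, 19, 3, 22, 14, 21, 17, 11],
   [6, 4, 8, 12, 2, 22, 0, 7, 1, 3, 23, 15, 13, 9, 14, 5, 18, 19, 16, 10, 20, 21, 11, 17],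
   [6, 4, 8, 12, 13, 22, 3, 23, 18, 0, 7, 11, 2, 16, 14, 10, 1, 19, 9, 5, 21, 20, 15, 17],
   [6, 4, 8, 16, 18, 5, 13, 19, 3, 1, 23, 15, 0, 9, 14, 22, 2, 7, 12, 10, 21, 20, 17, 11],
   [6, 4, 8, 16, 0, 5, 1, 23, 2, 13, 19, 17, 18, 12, 14, 10, 3, 7, 9, 22, 20, 21, 15, 11],
   [6, 4, 8, 9, 3, 10, 18, 7, 13, 2, 19, 17, 1, 12, 14, 5, 0, 23, 16, 22, 21, 20, 11, 15],
   [6, 4, 8, 9, 1, 10, 2, 19, 0, 18, 7, 11, 3, 16, 14, 22, 13, 23, 12, 5, 20, 21, 17, 15],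
   [6, 4, 8, 1, 3, 22, 13, 19, 18, 16, 7, 17, 9, 0, 21, 5, 12, 23, 2, 10, 14, 20, 15, 11],
   [6, 4, 8, 1, 9, 22, 16, 7, 12, 13, 19, 15, 3, 2, 21, 10, 18, 23, 0, 5, 20, 14, 17, 11],
   [6, 4, 8, 2, 12, 5, 9, 23, 16, 18, 7, 17, 13, 0, 21, 22, 3, 19, 1, 10, 20, 14, 11, 15],
   [6, 4, 8, 2, 13, 5, 18, 7, 3, 9, 23, 11, 12, 1, 21, 10, 16, 19, 0, 22, 14, 20, 17, 15],
   [6, 4, 8, 3, 1, 5, 0, 7, 2, 12, 19, 11, 9, 13, 20, 22, 16, 23, 18, 10, 14, 21, 15, 17],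
   [6, 4, 8, 3, 9, 5, 12, 19, 16, 0, 7, 15, 1, 18, 20, 10, 2, 23, 13, 22, 21, 14, 11, 17],
   [6, 4, 8, 0, 18, 10, 3, 23, 13, 12, 19, 15, 16, 2, 21, 22, 9, 7, 1, 5, 14, 20, 11, 17],
   [6, 4, 8, 0, 16, 10, 12, 19, 9, 3, 23, 11, 18, 1, 21, 5, 13, 7, 2, 22, 20, 14, 15, 17],
   [6, 4, 8, 18, 16, 22, 9, 23, 12, 2, 19, 11, 0, 13, 20, 5, 1, 7, 3, 10, 21, 14, 17, 15],
   [6, 4, 8, 18, 0, 22, 2, 19, 1, 9, 23, 17, 16, 3, 20, 10, 12, 7, 13, 5, 14, 21, 11, 15],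
   [6, 8, 4, 13, 2, 11, 0, 7, 1, 9, 23, 5, 12, 3, 20, 15, 16, 19, 18, 17, 14, 21, 22, 10],
   [6, 8, 4, 13, 12, 11, 9, 23, 16, 0, 7, 22, 2, 18, 20, 17, 1, 19, 3, 15, 21, 14, 5, 10],
   [6, 8, 4, 16, 18, 11, 3, 23, 13, 2, 19, 22, 0, 12, 14, 15, 1, 7, 9, 17, 21, 20, 10, 5],
   [6, 8, 4, 16, 0, 11, 2, 19, 1, 3, 23, 10, 18, 9, 14, 17, 13, 7, 12, 15, 20, 21, 22, 5],
   [6, 8, 4, 3, 9, 17, 16, 7, 12, 2, 19, 10, 1, 13, 20, 15, 0, 23, 18, 11, 21, 14, 22, 5],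
   [6, 8, 4, 3, 1, 17, 2, 19, 0, 16, 7, 22, 9, 18, 20, 11, 12, 23, 13, 15, 14, 21, 10, 5],
   [6, 8, 4, 2, 13, 15, 3, 23, 18, 16, 7, 10, 12, 0, 21, 11, 9, 19, 1, 17, 14, 20, 22, 5],
   [6, 8, 4, 2, 12, 15, 16, 7, 9, 3, 23, 22, 13, 1, 21, 17, 18, 19, 0, 11, 20, 14, 10, 5],
   [6, 8, 4, 18, 0, 15, 1, 23, 2, 12, 19, 10, 16, 13, 20, 17, 9, 7, 3, 11, 14, 21, 5, 22],
   [6, 8, 4, 18, 16, 15, 12, 19, 9, 1, 23, 5, 0, 3, 20, 11, 2, 7, 13, 17, 21, 14, 10, 22],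
   [6, 8, 4, 1, 3, 11, 18, 7, 13, 12, 19, 5, 9, 2, 21, 17, 16, 23, 0, 15, 14, 20, 10, 22],
   [6, 8, 4, 1, 9, 11, 12, 19, 16, 18, 7, 10, 3, 0, 21, 15, 13, 23, 2, 17, 20, 14, 5, 22],
   [6, 8, 4, 9, 1, 15, 0, 7, 2, 13, 19, 22, 3, 12, 14, 11, 18, 23, 16, 17, 20, 21, 5, 10],
   [6, 8, 4, 9, 3, 15, 13, 19, 18, 0, 7, 5, 1, 16, 14, 17, 2, 23, 12, 11, 21, 20, 22, 10],
   [6, 8, 4, 12, 13, 17, 18, 7, 3, 1, 23, 10, 2, 9, 14, 11, 0, 19, 16, 15, 21, 20, 5, 22],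
   [6, 8, 4, 12, 2, 17, 1, 23, 0, 18, 7, 5, 13, 16, 14, 15, 3, 19, 9, 11, 20, 21, 10, 22],
   [6, 8, 4, 0, 16, 17, 9, 23, 12, 13, 19, 5, 18, 2, 21, 11, 3, 7, 1, 15, 20, 14, 22, 10],
   [6, 8, 4, 0, 18, 17, 13, 19, 3, 9, 23, 22, 16, 1, 21, 15, 12, 7, 2, 11, 14, 20, 5, 10],
   [8, 6, 4, 18, 1, 15, 0, 10, 2, 16, 5, 23, 12, 3, 20, 11, 9, 22, 13, 17, 14, 21, 19, 7],
   [8, 6, 4, 18, 12, 15, 16, 5, 9, 0, 10, 19, 1, 13, 20, 17, 2, 22, 3, 11, 21, 14, 23, 7],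
   [8, 6, 4, 16, 2, 11, 0, 10, 1, 18, 22, 19, 3, 12, 14, 15, 13, 5, 9, 17, 20, 21, 23, 7],
   [8, 6, 4, 16, 3, 11, 18, 22, 13, 0, 10, 23, 2, 9, 14, 17, 1, 5, 12, 15, 21, 20, 19, 7],
   [8, 6, 4, 1, 12, 11, 9, 10, 16, 3, 5, 19, 18, 2, 21, 17, 13, 22, 0, 15, 20, 14, 7, 23],
   [8, 6, 4, 1, 18, 11, 3, 5, 13, 9, 10, 7, 12, 0, 21, 15, 16, 22, 2, 17, 14, 20, 19, 23],
   [8, 6, 4, 13, 9, 11, 12, 22, 16, 2, 5, 23, 0, 3, 20, 15, 1, 10, 18, 17, 21, 14, 7, 19],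
   [8, 6, 4, 13, 0, 11, 2, 5, 1, 12, 22, 7, 9, 18, 20, 17, 16, 10, 3, 15, 14, 21, 23, 19],
   [8, 6, 4, 12, 1, 17, 2, 5, 0, 13, 10, 23, 18, 9, 14, 11, 3, 22, 16, 15, 20, 21, 7, 19],
   [8, 6, 4, 12, 18, 17, 13, 10, 3, 2, 5, 7, 1, 16, 14, 15, 0, 22, 9, 11, 21, 20, 23, 19],
   [8, 6, 4, 0, 9, 17, 16, 5, 12, 18, 22, 23, 13, 1, 21, 15, 3, 10, 2, 11, 20, 14, 19, 7],
   [8, 6, 4, 0, 13, 17, 18, 22, 3, 16, 5, 19, 9, 2, 21, 11, 12, 10, 1, 15, 14, 20, 23, 7],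
   [8, 6, 4, 2, 16, 15, 12, 22, 9, 13, 10, 7, 3, 0, 21, 11, 18, 5, 1, 17, 20, 14, 23, 19],
   [8, 6, 4, 2, 3, 15, 13, 10, 18, 12, 22, 23, 16, 1, 21, 17, 9, 5, 0, 11, 14, 20, 7, 19],
   [8, 6, 4, 3, 2, 17, 1, 22, 0, 9, 10, 19, 16, 13, 20, 15, 12, 5, 18, 11, 14, 21, 7, 23],
   [8, 6, 4, 3, 16, 17, 9, 10, 12, 1, 22, 7, 2, 18, 20, 11, 0, 5, 13, 15, 21, 14, 19, 23],
   [8, 6, 4, 9, 13, 15, 3, 5, 18, 1, 22, 19, 0, 12, 14, 11, 2, 10, 16, 17, 21, 20, 7, 23],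
   [8, 6, 4, 9, 0, 15, 1, 22, 2, 3, 5, 7, 13, 16, 14, 17, 18, 10, 12, 11, 20, 21, 19, 23],
   [8, 4, 6, 1, 18, 23, 13, 10, 3, 16, 5, 15, 12, 2, 21, 7, 9, 22, 0, 19, 14, 20, 17, 11],
   [8, 4, 6, 1, 12, 23, 16, 5, 9, 13, 10, 17, 18, 0, 21, 19, 3, 22, 2, 7, 20, 14, 15, 11],
   [8, 4, 6, 16, 3, 7, 13, 10, 18, 1, 22, 17, 2, 12, 14, 23, 0, 5, 9, 19, 21, 20, 15, 11],
   [8, 4, 6, 16, 2, 7, 1, 22, 0, 13, 10, 15, 3, 9, 14, 19, 18, 5, 12, 23, 20, 21, 17, 11],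
   [8, 4, 6, 18, 12, 7, 9, 10, 16, 2, 5, 17, 1, 3, 20, 19, 0, 22, 13, 23, 21, 14, 11, 15],
   [8, 4, 6, 18, 1, 7, 2, 5, 0, 9, 10, 11, 12, 13, 20, 23, 16, 22, 3, 19, 14, 21, 17, 15],
   [8, 4, 6, 0, 9, 7, 12, 22, 16, 3, 5, 15, 13, 2, 21, 23, 18, 10, 1, 19, 20, 14, 11, 17],
   [8, 4, 6, 0, 13, 7, 3, 5, 18, 12, 22, 11, 9, 1, 21, 19, 16, 10, 2, 23, 14, 20, 15, 17],
   [8, 4, 6, 12, 18, 19, 3, 5, 13, 0, 10, 15, 1, 9, 14, 7, 2, 22, 16, 23, 21, 20, 11, 17],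
   [8, 4, 6, 12, 1, 19, 0, 10, 2, 3, 5, 11, 18, 16, 14, 23, 13, 22, 9, 7, 20, 21, 15, 17],
   [8, 4, 6, 13, 9, 19, 16, 5, 12, 1, 22, 15, 0, 18, 20, 23, 2, 10, 3, 7, 21, 14, 17, 11],
   [8, 4, 6, 13, 0, 19, 1, 22, 2, 16, 5, 17, 9, 3, 20, 7, 12, 10, 18, 23, 14, 21, 15, 11],
   [8, 4, 6, 3, 16, 23, 12, 22, 9, 0, 10, 11, 2, 13, 20, 7, 1, 5, 18, 19, 21, 14, 15, 17],
   [8, 4, 6, 3, 2, 23, 0, 10, 1, 12, 22, 15, 16, 18, 20, 19, 9, 5, 13, 7, 14, 21, 11, 17],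
   [8, 4, 6, 2, 3, 19, 18, 22, 13, 9, 10, 17, 16, 0, 21, 23, 12, 5, 1, 7, 14, 20, 11, 15],
   [8, 4, 6, 2, 16, 19, 9, 10, 12, 18, 22, 11, 3, 1, 21, 7, 13, 5, 0, 23, 20, 14, 17, 15],
   [8, 4, 6, 9, 0, 23, 2, 5, 1, 18, 22, 17, 13, 12, 14, 7, 3, 10, 16, 19, 20, 21, 11, 15],
   [8, 4, 6, 9, 13, 23, 18, 22, 3, 2, 5, 11, 0, 16, 14, 19, 1, 10, 12, 7, 21, 20, 17, 15],
   [9, 12, 16, 4, 18, 11, 3, 23, 13, 0, 10, 22, 2, 8, 14, 7, 1, 15, 6, 5, 20, 21, 19, 17],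
   [9, 12, 16, 4, 2, 11, 0, 10, 1, 3, 23, 19, 18, 6, 14, 5, 13, 15, 8, 7, 21, 20, 22, 17],
   [9, 12, 16, 6, 1, 7, 2, 15, 0, 13, 10, 22, 3, 8, 14, 11, 18, 23, 4, 5, 21, 20, 17, 19],
   [9, 12, 16, 6, 3, 7, 13, 10, 18, 2, 15, 17, 1, 4, 14, 5, 0, 23, 8, 11, 20, 21, 22, 19],
   [9, 12, 16, 1, 6, 11, 8, 10, 4, 18, 15, 19, 3, 2, 20, 7, 13, 23, 0, 5, 21, 14, 17, 22],
   [9, 12, 16, 1, 3, 11, 18, 15, 13, 8, 10, 17, 6, 0, 20, 5, 4, 23, 2, 7, 14, 21, 19, 22],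
   [9, 12, 16, 3, 6, 5, 4, 15, 8, 0, 10, 19, 1, 13, 21, 7, 2, 23, 18, 11, 20, 14, 22, 17],
   [9, 12, 16, 3, 1, 5, 0, 10, 2, 4, 15, 22, 6, 18, 21, 11, 8, 23, 13, 7, 14, 20, 19, 17],
   [9, 12, 16, 13, 8, 11, 6, 23, 4, 2, 15, 22, 0, 18, 21, 5, 1, 10, 3, 7, 20, 14, 17, 19],
   [9, 12, 16, 13, 0, 11, 2, 15, 1, 6, 23, 17, 8, 3, 21, 7, 4, 10, 18, 5, 14, 20, 22, 19],
   [9, 12, 16, 8, 13, 5, 18, 15, 3, 1, 23, 19, 0, 6, 14, 11, 2, 10, 4, 7, 20, 21, 17, 22],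
   [9, 12, 16, 8, 0, 5, 1, 23, 2, 18, 15, 17, 13, 4, 14, 7, 3, 10, 6, 11, 21, 20, 19, 22],
   [9, 12, 16, 18, 2, 7, 1, 23, 0, 8, 10, 19, 4, 13, 21, 5, 6, 15, 3, 11, 14, 20, 17, 22],
   [9, 12, 16, 18, 4, 7, 8, 10, 6, 1, 23, 17, 2, 3, 21, 11, 0, 15, 13, 5, 20, 14, 19, 22],
   [9, 12, 16, 0, 8, 7, 4, 15, 6, 3, 23, 22, 13, 1, 20, 5, 18, 10, 2, 11, 21, 14, 19, 17],
   [9, 12, 16, 0, 13, 7, 3, 23, 18, 4, 15, 19, 8, 2, 20, 11, 6, 10, 1, 5, 14, 21, 22, 17],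
   [9, 12, 16, 2, 4, 5, 6, 23, 8, 13, 10, 17, 18, 0, 20, 11, 3, 15, 1, 7, 21, 14, 22, 19],
   [9, 12, 16, 2, 18, 5, 13, 10, 3, 6, 23, 22, 4, 1, 20, 7, 8, 15, 0, 11, 14, 21, 17, 19],
   [9, 16, 12, 13, 8, 19, 4, 15, 6, 1, 23, 5, 0, 3, 21, 22, 2, 10, 18, 17, 20, 14, 7, 11],
   [9, 16, 12, 13, 0, 19, 1, 23, 2, 4, 15, 7, 8, 18, 21, 17, 6, 10, 3, 22, 14, 20, 5, 11],
   [9, 16, 12, 2, 18, 19, 3, 23, 13, 8, 10, 7, 4, 0, 20, 22, 6, 15, 1, 17, 14, 21, 11, 5],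
   [9, 16, 12, 2, 4, 19, 8, 10, 6, 3, 23, 11, 18, 1, 20, 17, 13, 15, 0, 22, 21, 14, 7, 5],
   [9, 16, 12, 3, 1, 17, 2, 15, 0, 8, 10, 11, 6, 13, 21, 22, 4, 23, 18, 19, 14, 20, 7, 5],
   [9, 16, 12, 3, 6, 17, 8, 10, 4, 2, 15, 7, 1, 18, 21, 19, 0, 23, 13, 22, 20, 14, 11, 5],
   [9, 16, 12, 8, 13, 22, 3, 23, 18, 2, 15, 11, 0, 4, 14, 19, 1, 10, 6, 17, 20, 21, 7, 5],
   [9, 16, 12, 8, 0, 22, 2, 15, 1, 3, 23, 7, 13, 6, 14, 17, 18, 10, 4, 19, 21, 20, 11, 5],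
   [9, 16, 12, 18, 4, 22, 6, 23, 8, 0, 10, 11, 2, 13, 21, 17, 1, 15, 3, 19, 20, 14, 5, 7],
   [9, 16, 12, 18, 2, 22, 0, 10, 1, 6, 23, 5, 4, 3, 21, 19, 8, 15, 13, 17, 14, 20, 11, 7],
   [9, 16, 12, 6, 3, 19, 18, 15, 13, 0, 10, 5, 1, 8, 14, 17, 2, 23, 4, 22, 20, 21, 11, 7],
   [9, 16, 12, 6, 1, 19, 0, 10, 2, 18, 15, 11, 3, 4, 14, 22, 13, 23, 8, 17, 21, 20, 5, 7],
   [9, 16, 12, 1, 6, 22, 4, 15, 8, 13, 10, 7, 3, 0, 20, 19, 18, 23, 2, 17, 21, 14, 5, 11],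
   [9, 16, 12, 1, 3, 22, 13, 10, 18, 4, 15, 5, 6, 2, 20, 17, 8, 23, 0, 19, 14, 21, 7, 11],
   [9, 16, 12, 0, 13, 17, 18, 15, 3, 6, 23, 11, 8, 1, 20, 19, 4, 10, 2, 22, 14, 21, 5, 7],
   [9, 16, 12, 0, 8, 17, 6, 23, 4, 18, 15, 5, 13, 2, 20, 22, 3, 10, 1, 19, 21, 14, 11, 7],
   [9, 16, 12, 4, 2, 17, 1, 23, 0, 13, 10, 5, 18, 8, 14, 19, 3, 15, 6, 22, 21, 20, 7, 11],
   [9, 16, 12, 4, 18, 17, 13, 10, 3, 1, 23, 7, 2, 6, 14, 22, 0, 15, 8, 19, 20, 21, 5, 11],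
   [12, 9, 16, 13, 6, 11, 8, 22, 4, 0, 17, 23, 2, 3, 21, 7, 1, 19, 18, 5, 20, 14, 15, 10],
   [12, 9, 16, 13, 2, 11, 0, 17, 1, 8, 22, 15, 6, 18, 21, 5, 4, 19, 3, 7, 14, 20, 23, 10],
   [12, 9, 16, 1, 18, 11, 3, 17, 13, 6, 19, 15, 8, 2, 20, 7, 4, 22, 0, 5, 14, 21, 10, 23],
   [12, 9, 16, 1, 8, 11, 6, 19, 4, 3, 17, 10, 18, 0, 20, 5, 13, 22, 2, 7, 21, 14, 15, 23],
   [12, 9, 16, 3, 0, 5, 1, 22, 2, 6, 19, 10, 4, 13, 21, 7, 8, 17, 18, 11, 14, 20, 15, 23],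
   [12, 9, 16, 3, 4, 5, 6, 19, 8, 1, 22, 15, 0, 18, 21, 11, 2, 17, 13, 7, 20, 14, 10, 23],
   [12, 9, 16, 6, 13, 7, 3, 17, 18, 1, 22, 10, 2, 8, 14, 11, 0, 19, 4, 5, 20, 21, 15, 23],
   [12, 9, 16, 6, 2, 7, 1, 22, 0, 3, 17, 15, 13, 4, 14, 5, 18, 19, 8, 11, 21, 20, 10, 23],
   [12, 9, 16, 18, 8, 7, 4, 17, 6, 2, 19, 10, 1, 13, 21, 5, 0, 22, 3, 11, 20, 14, 23, 15],
   [12, 9, 16, 18, 1, 7, 2, 19, 0, 4, 17, 23, 8, 3, 21, 11, 6, 22, 13, 5, 14, 20, 10, 15],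
   [12, 9, 16, 4, 3, 11, 18, 22, 13, 2, 19, 23, 0, 6, 14, 5, 1, 17, 8, 7, 20, 21, 10, 15],
   [12, 9, 16, 4, 0, 11, 2, 19, 1, 18, 22, 10, 3, 8, 14, 7, 13, 17, 6, 5, 21, 20, 23, 15],
   [12, 9, 16, 0, 4, 7, 8, 22, 6, 13, 19, 15, 3, 2, 20, 11, 18, 17, 1, 5, 21, 14, 23, 10],
   [12, 9, 16, 0, 3, 7, 13, 19, 18, 8, 22, 23, 4, 1, 20, 5, 6, 17, 2, 11, 14, 21, 15, 10],
   [12, 9, 16, 2, 13, 5, 18, 22, 3, 4, 17, 10, 6, 0, 20, 11, 8, 19, 1, 7, 14, 21, 23, 15],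
   [12, 9, 16, 2, 6, 5, 4, 17, 8, 18, 22, 23, 13, 1, 20, 7, 3, 19, 0, 11, 21, 14, 10, 15],
   [12, 9, 16, 8, 1, 5, 0, 17, 2, 13, 19, 23, 18, 6, 14, 11, 3, 22, 4, 7, 21, 20, 15, 10],
   [12, 9, 16, 8, 18, 5, 13, 19, 3, 0, 17, 15, 1, 4, 14, 7, 2, 22, 6, 11, 20, 21, 23, 10],
   [12, 16, 9, 4, 3, 15, 13, 19, 18, 1, 22, 5, 0, 8, 14, 23, 2, 17, 6, 10, 20, 21, 7, 11],
   [12, 16, 9, 4, 0, 15, 1, 22, 2, 13, 19, 7, 3, 6, 14, 10, 18, 17, 8, 23, 21, 20, 5, 11],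
   [12, 16, 9, 1, 18, 23, 13, 19, 3, 4, 17, 7, 8, 0, 20, 15, 6, 22, 2, 10, 14, 21, 5, 11],
   [12, 16, 9, 1, 8, 23, 4, 17, 6, 13, 19, 5, 18, 2, 20, 10, 3, 22, 0, 15, 21, 14, 7, 11],
   [12, 16, 9, 3, 0, 23, 2, 19, 1, 8, 22, 7, 4, 18, 21, 10, 6, 17, 13, 15, 14, 20, 11, 5],
   [12, 16, 9, 3, 4, 23, 8, 22, 6, 2, 19, 11, 0, 13, 21, 15, 1, 17, 18, 10, 20, 14, 7, 5],
   [12, 16, 9, 6, 2, 23, 0, 17, 1, 18, 22, 5, 13, 8, 14, 15, 3, 19, 4, 10, 21, 20, 11, 7],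
   [12, 16, 9, 6, 13, 23, 18, 22, 3, 0, 17, 11, 2, 4, 14, 10, 1, 19, 8, 15, 20, 21, 5, 7],
   [12, 16, 9, 0, 3, 10, 18, 22, 13, 6, 19, 5, 4, 2, 20, 23, 8, 17, 1, 15, 14, 21, 11, 7],
   [12, 16, 9, 0, 4, 10, 6, 19, 8, 18, 22, 11, 3, 1, 20, 15, 13, 17, 2, 23, 21, 14, 5, 7],
   [12, 16, 9, 13, 2, 10, 1, 22, 0, 4, 17, 5, 6, 3, 21, 15, 8, 19, 18, 23, 14, 20, 7, 11],
   [12, 16, 9, 13, 6, 10, 4, 17, 8, 1, 22, 7, 2, 18, 21, 23, 0, 19, 3, 15, 20, 14, 5, 11],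
   [12, 16, 9, 18, 1, 15, 0, 17, 2, 6, 19, 11, 8, 13, 21, 23, 4, 22, 3, 10, 14, 20, 5, 7],
   [12, 16, 9, 18, 8, 15, 6, 19, 4, 0, 17, 5, 1, 3, 21, 10, 2, 22, 13, 23, 20, 14, 11, 7],
   [12, 16, 9, 8, 18, 10, 3, 17, 13, 2, 19, 7, 1, 6, 14, 15, 0, 22, 4, 23, 20, 21, 11, 5],
   [12, 16, 9, 8, 1, 10, 2, 19, 0, 3, 17, 11, 18, 4, 14, 23, 13, 22, 6, 15, 21, 20, 7, 5],
   [12, 16, 9, 2, 6, 15, 8, 22, 4, 3, 17, 7, 13, 0, 20, 23, 18, 19, 1, 10, 21, 14, 11, 5],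
   [12, 16, 9, 2, 13, 15, 3, 17, 18, 8, 22, 11, 6, 1, 20, 10, 4, 19, 0, 23, 14, 21, 7, 5],
   [13, 18, 3, 16, 1, 5, 0, 10, 2, 6, 19, 22, 4, 12, 21, 23, 8, 11, 9, 17, 20, 14, 15, 7],
   [13, 18, 3, 16, 4, 5, 6, 19, 8, 0, 10, 15, 1, 9, 21, 17, 2, 11, 12, 23, 14, 20, 22, 7],
   [13, 18, 3, 9, 8, 23, 4, 11, 6, 2, 19, 22, 0, 12, 21, 5, 1, 10, 16, 17, 14, 20, 7, 15],
   [13, 18, 3, 9, 0, 23, 2, 19, 1, 4, 11, 7, 8, 16, 21, 17, 6, 10, 12, 5, 20, 14, 22, 15],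
   [13, 18, 3, 8, 9, 5, 12, 19, 16, 1, 11, 15, 0, 4, 20, 23, 2, 10, 6, 17, 14, 21, 7, 22],
   [13, 18, 3, 8, 0, 5, 1, 11, 2, 12, 19, 7, 9, 6, 20, 17, 16, 10, 4, 23, 21, 14, 15, 22],
   [13, 18, 3, 0, 9, 17, 16, 11, 12, 6, 19, 15, 8, 2, 14, 23, 4, 10, 1, 5, 20, 21, 22, 7],
   [13, 18, 3, 0, 8, 17, 6, 19, 4, 16, 11, 22, 9, 1, 14, 5, 12, 10, 2, 23, 21, 20, 15, 7],
   [13, 18, 3, 2, 12, 5, 9, 10, 16, 4, 11, 22, 6, 1, 14, 17, 8, 19, 0, 23, 20, 21, 7, 15],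
   [13, 18, 3, 2, 6, 5, 4, 11, 8, 9, 10, 7, 12, 0, 14, 23, 16, 19, 1, 17, 21, 20, 22, 15],
   [13, 18, 3, 12, 2, 17, 1, 11, 0, 8, 10, 15, 6, 9, 21, 5, 4, 19, 16, 23, 20, 14, 7, 22],
   [13, 18, 3, 12, 6, 17, 8, 10, 4, 1, 11, 7, 2, 16, 21, 23, 0, 19, 9, 5, 14, 20, 15, 22],
   [13, 18, 3, 1, 4, 23, 8, 10, 6, 12, 19, 15, 16, 2, 14, 17, 9, 11, 0, 5, 21, 20, 7, 22],
   [13, 18, 3, 1, 16, 23, 12, 19, 9, 8, 10, 7, 4, 0, 14, 5, 6, 11, 2, 17, 20, 21, 15, 22],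
   [13, 18, 3, 6, 12, 23, 16, 11, 9, 0, 10, 22, 2, 8, 20, 17, 1, 19, 4, 5, 14, 21, 15, 7],
   [13, 18, 3, 6, 2, 23, 0, 10, 1, 16, 11, 15, 12, 4, 20, 5, 9, 19, 8, 17, 21, 14, 22, 7],
   [13, 18, 3, 4, 16, 17, 9, 10, 12, 2, 19, 7, 1, 6, 20, 5, 0, 11, 8, 23, 14, 21, 22, 15],
   [13, 18, 3, 4, 1, 17, 2, 19, 0, 9, 10, 22, 16, 8, 20, 23, 12, 11, 6, 5, 21, 14, 7, 15],
   [13, 3, 18, 0, 9, 7, 12, 19, 16, 4, 11, 23, 8, 1, 14, 15, 6, 10, 2, 22, 20, 21, 5, 17],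
   [13, 3, 18, 0, 8, 7, 4, 11, 6, 12, 19, 5, 9, 2, 14, 22, 16, 10, 1, 15, 21, 20, 23, 17],
   [13, 3, 18, 4, 16, 15, 12, 19, 9, 0, 10, 5, 1, 8, 20, 7, 2, 11, 6, 22, 14, 21, 23, 17],
   [13, 3, 18, 4, 1, 15, 0, 10, 2, 12, 19, 23, 16, 6, 20, 22, 9, 11, 8, 7, 21, 14, 5, 17],
   [13, 3, 18, 9, 8, 15, 6, 19, 4, 1, 11, 5, 0, 16, 21, 22, 2, 10, 12, 7, 14, 20, 17, 23],
   [13, 3, 18, 9, 0, 15, 1, 11, 2, 6, 19, 17, 8, 12, 21, 7, 4, 10, 16, 22, 20, 14, 5, 23],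
   [13, 3, 18, 2, 6, 15, 8, 10, 4, 16, 11, 23, 12, 1, 14, 7, 9, 19, 0, 22, 21, 20, 17, 5],
   [13, 3, 18, 2, 12, 15, 16, 11, 9, 8, 10, 17, 6, 0, 14, 22, 4, 19, 1, 7, 20, 21, 23, 5],
   [13, 3, 18, 8, 9, 22, 16, 11, 12, 2, 19, 23, 0, 6, 20, 15, 1, 10, 4, 7, 14, 21, 17, 5],
   [13, 3, 18, 8, 0, 22, 2, 19, 1, 16, 11, 17, 9, 4, 20, 7, 12, 10, 6, 15, 21, 14, 23, 5],
   [13, 3, 18, 12, 6, 22, 4, 11, 8, 0, 10, 23, 2, 9, 21, 7, 1, 19, 16, 15, 14, 20, 5, 17],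
   [13, 3, 18, 12, 2, 22, 0, 10, 1, 4, 11, 5, 6, 16, 21, 15, 8, 19, 9, 7, 20, 14, 23, 17],
   [13, 3, 18, 16, 4, 7, 8, 10, 6, 2, 19, 17, 1, 12, 21, 15, 0, 11, 9, 22, 14, 20, 23, 5],
   [13, 3, 18, 16, 1, 7, 2, 19, 0, 8, 10, 23, 4, 9, 21, 22, 6, 11, 12, 15, 20, 14, 17, 5],
   [13, 3, 18, 1, 16, 22, 9, 10, 12, 6, 19, 5, 4, 2, 14, 7, 8, 11, 0, 15, 20, 21, 17, 23],
   [13, 3, 18, 1, 4, 22, 6, 19, 8, 9, 10, 17, 16, 0, 14, 15, 12, 11, 2, 7, 21, 20, 5, 23],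
   [13, 3, 18, 6, 2, 7, 1, 11, 0, 9, 10, 5, 12, 8, 20, 15, 16, 19, 4, 22, 21, 14, 17, 23],
   [13, 3, 18, 6, 12, 7, 9, 10, 16, 1, 11, 17, 2, 4, 20, 22, 0, 19, 8, 15, 14, 21, 5, 23],
   [16, 12, 9, 13, 1, 10, 2, 5, 0, 6, 7, 22, 4, 18, 21, 23, 8, 11, 3, 15, 14, 20, 17, 19],
   [16, 12, 9, 13, 4, 10, 6, 7, 8, 2, 5, 17, 1, 3, 21, 15, 0, 11, 18, 23, 20, 14, 22, 19],
   [16, 12, 9, 8, 3, 10, 18, 7, 13, 1, 11, 17, 2, 4, 14, 23, 0, 5, 6, 15, 20, 21, 19, 22],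
   [16, 12, 9, 8, 2, 10, 1, 11, 0, 18, 7, 19, 3, 6, 14, 15, 13, 5, 4, 23, 21, 20, 17, 22],
   [16, 12, 9, 18, 6, 15, 8, 5, 4, 1, 11, 19, 0, 13, 21, 23, 2, 7, 3, 10, 20, 14, 17, 22],
   [16, 12, 9, 18, 0, 15, 1, 11, 2, 8, 5, 17, 6, 3, 21, 10, 4, 7, 13, 23, 14, 20, 19, 22],
   [16, 12, 9, 1, 13, 23, 18, 7, 3, 8, 5, 19, 4, 2, 20, 10, 6, 11, 0, 15, 14, 21, 17, 22],
   [16, 12, 9, 1, 4, 23, 8, 5, 6, 18, 7, 17, 13, 0, 20, 15, 3, 11, 2, 10, 21, 14, 19, 22],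
   [16, 12, 9, 3, 2, 23, 0, 7, 1, 4, 11, 19, 8, 13, 21, 15, 6, 5, 18, 10, 14, 20, 22, 17],
   [16, 12, 9, 3, 8, 23, 4, 11, 6, 0, 7, 22, 2, 18, 21, 10, 1, 5, 13, 15, 20, 14, 19, 17],
   [16, 12, 9, 0, 18, 10, 3, 5, 13, 4, 11, 22, 6, 1, 20, 15, 8, 7, 2, 23, 14, 21, 19, 17],
   [16, 12, 9, 0, 6, 10, 4, 11, 8, 3, 5, 19, 18, 2, 20, 23, 13, 7, 1, 15, 21, 14, 22, 17],
   [16, 12, 9, 6, 0, 23, 2, 5, 1, 13, 11, 17, 18, 4, 14, 10, 3, 7, 8, 15, 21, 20, 22, 19],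
   [16, 12, 9, 6, 18, 23, 13, 11, 3, 2, 5, 22, 0, 8, 14, 15, 1, 7, 4, 10, 20, 21, 17, 19],
   [16, 12, 9, 4, 13, 15, 3, 5, 18, 0, 7, 19, 1, 6, 14, 10, 2, 11, 8, 23, 20, 21, 22, 17],
   [16, 12, 9, 4, 1, 15, 0, 7, 2, 3, 5, 22, 13, 8, 14, 23, 18, 11, 6, 10, 21, 20, 19, 17],
   [16, 12, 9, 2, 8, 15, 6, 7, 4, 13, 11, 22, 3, 1, 20, 10, 18, 5, 0, 23, 21, 14, 17, 19],
   [16, 12, 9, 2, 3, 15, 13, 11, 18, 6, 7, 17, 8, 0, 20, 23, 4, 5, 1, 10, 14, 21, 22, 19],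
   [16, 9, 12, 0, 18, 17, 13, 11, 3, 8, 5, 15, 6, 2, 20, 22, 4, 7, 1, 19, 14, 21, 23, 10],
   [16, 9, 12, 0, 6, 17, 8, 5, 4, 13, 11, 23, 18, 1, 20, 19, 3, 7, 2, 22, 21, 14, 15, 10],
   [16, 9, 12, 4, 1, 17, 2, 5, 0, 18, 7, 23, 13, 6, 14, 22, 3, 11, 8, 19, 21, 20, 10, 15],
   [16, 9, 12, 4, 13, 17, 18, 7, 3, 2, 5, 10, 1, 8, 14, 19, 0, 11, 6, 22, 20, 21, 23, 15],
   [16, 9, 12, 2, 8, 19, 4, 11, 6, 18, 7, 10, 3, 0, 20, 22, 13, 5, 1, 17, 21, 14, 23, 15],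
   [16, 9, 12, 2, 3, 19, 18, 7, 13, 4, 11, 23, 8, 1, 20, 17, 6, 5, 0, 22, 14, 21, 10, 15],
   [16, 9, 12, 18, 0, 22, 2, 5, 1, 4, 11, 10, 6, 13, 21, 17, 8, 7, 3, 19, 14, 20, 23, 15],
   [16, 9, 12, 18, 6, 22, 4, 11, 8, 2, 5, 23, 0, 3, 21, 19, 1, 7, 13, 17, 20, 14, 10, 15],
   [16, 9, 12, 1, 13, 22, 3, 5, 18, 6, 7, 10, 4, 0, 20, 19, 8, 11, 2, 17, 14, 21, 15, 23],
   [16, 9, 12, 1, 4, 22, 6, 7, 8, 3, 5, 15, 13, 2, 20, 17, 18, 11, 0, 19, 21, 14, 10, 23],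
   [16, 9, 12, 3, 2, 17, 1, 11, 0, 6, 7, 15, 8, 18, 21, 19, 4, 5, 13, 22, 14, 20, 10, 23],
   [16, 9, 12, 3, 8, 17, 6, 7, 4, 1, 11, 10, 2, 13, 21, 22, 0, 5, 18, 19, 20, 14, 15, 23],
   [16, 9, 12, 8, 3, 22, 13, 11, 18, 0, 7, 23, 2, 6, 14, 17, 1, 5, 4, 19, 20, 21, 15, 10],
   [16, 9, 12, 8, 2, 22, 0, 7, 1, 13, 11, 15, 3, 4, 14, 19, 18, 5, 6, 17, 21, 20, 23, 10],
   [16, 9, 12, 6, 0, 19, 1, 11, 2, 3, 5, 10, 18, 8, 14, 17, 13, 7, 4, 22, 21, 20, 15, 23],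
   [16, 9, 12, 6, 18, 19, 3, 5, 13, 1, 11, 15, 0, 4, 14, 22, 2, 7, 8, 17, 20, 21, 10, 23],
   [16, 9, 12, 13, 4, 19, 8, 5, 6, 0, 7, 15, 1, 18, 21, 17, 2, 11, 3, 22, 20, 14, 23, 10],
   [16, 9, 12, 13, 1, 19, 0, 7, 2, 8, 5, 23, 4, 3, 21, 22, 6, 11, 18, 17, 14, 20, 15, 10],
   [18, 3, 13, 2, 9, 19, 16, 7, 12, 8, 22, 23, 4, 1, 14, 10, 6, 15, 0, 11, 20, 21, 17, 5],
   [18, 3, 13, 2, 4, 19, 8, 22, 6, 16, 7, 17, 9, 0, 14, 11, 12, 15, 1, 10, 21, 20, 23, 5],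
   [18, 3, 13, 0, 6, 10, 4, 15, 8, 12, 22, 23, 16, 1, 14, 19, 9, 7, 2, 11, 21, 20, 5, 17],
   [18, 3, 13, 0, 16, 10, 12, 22, 9, 4, 15, 5, 6, 2, 14, 11, 8, 7, 1, 19, 20, 21, 23, 17],
   [18, 3, 13, 6, 0, 19, 1, 22, 2, 9, 15, 17, 16, 4, 20, 10, 12, 7, 8, 11, 21, 14, 5, 23],
   [18, 3, 13, 6, 16, 19, 9, 15, 12, 1, 22, 5, 0, 8, 20, 11, 2, 7, 4, 10, 14, 21, 17, 23],
   [18, 3, 13, 16, 0, 11, 2, 15, 1, 8, 22, 17, 6, 12, 21, 10, 4, 7, 9, 19, 20, 14, 23, 5],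
   [18, 3, 13, 16, 6, 11, 8, 22, 4, 2, 15, 23, 0, 9, 21, 19, 1, 7, 12, 10, 14, 20, 17, 5],
   [18, 3, 13, 12, 1, 19, 0, 7, 2, 4, 15, 23, 8, 9, 21, 11, 6, 22, 16, 10, 20, 14, 5, 17],
   [18, 3, 13, 12, 8, 19, 4, 15, 6, 0, 7, 5, 1, 16, 21, 10, 2, 22, 9, 11, 14, 20, 23, 17],
   [18, 3, 13, 1, 12, 11, 9, 15, 16, 6, 7, 17, 8, 0, 14, 19, 4, 22, 2, 10, 20, 21, 5, 23],
   [18, 3, 13, 1, 8, 11, 6, 7, 4, 9, 15, 5, 12, 2, 14, 10, 16, 22, 0, 19, 21, 20, 17, 23],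
   [18, 3, 13, 9, 4, 10, 6, 7, 8, 1, 22, 17, 2, 12, 21, 11, 0, 15, 16, 19, 14, 20, 5, 23],
   [18, 3, 13, 9, 2, 10, 1, 22, 0, 6, 7, 5, 4, 16, 21, 19, 8, 15, 12, 11, 20, 14, 17, 23],
   [18, 3, 13, 8, 1, 10, 2, 15, 0, 16, 7, 23, 12, 6, 20, 11, 9, 22, 4, 19, 21, 14, 17, 5],
   [18, 3, 13, 8, 12, 10, 16, 7, 9, 2, 15, 17, 1, 4, 20, 19, 0, 22, 6, 11, 14, 21, 23, 5],
   [18, 3, 13, 4, 2, 11, 0, 7, 1, 12, 22, 5, 9, 8, 20, 19, 16, 15, 6, 10, 21, 14, 23, 17],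
   [18, 3, 13, 4, 9, 11, 12, 22, 16, 0, 7, 23, 2, 6, 20, 10, 1, 15, 8, 19, 14, 21, 5, 17],
   [18, 13, 3, 1, 12, 23, 16, 7, 9, 4, 15, 19, 8, 2, 14, 17, 6, 22, 0, 5, 20, 21, 10, 11],
   [18, 13, 3, 1, 8, 23, 4, 15, 6, 16, 7, 10, 12, 0, 14, 5, 9, 22, 2, 17, 21, 20, 19, 11],
   [18, 13, 3, 0, 6, 17, 8, 22, 4, 9, 15, 19, 16, 2, 14, 23, 12, 7, 1, 5, 21, 20, 11, 10],
   [18, 13, 3, 0, 16, 17, 9, 15, 12, 8, 22, 11, 6, 1, 14, 5, 4, 7, 2, 23, 20, 21, 19, 10],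
   [18, 13, 3, 6, 0, 23, 2, 15, 1, 12, 22, 10, 16, 8, 20, 17, 9, 7, 4, 5, 21, 14, 11, 19],
   [18, 13, 3, 6, 16, 23, 12, 22, 9, 2, 15, 11, 0, 4, 20, 5, 1, 7, 8, 17, 14, 21, 10, 19],
   [18, 13, 3, 16, 0, 5, 1, 22, 2, 4, 15, 10, 6, 9, 21, 17, 8, 7, 12, 23, 20, 14, 19, 11],
   [18, 13, 3, 16, 6, 5, 4, 15, 8, 1, 22, 19, 0, 12, 21, 23, 2, 7, 9, 17, 14, 20, 10, 11],
   [18, 13, 3, 9, 2, 23, 0, 7, 1, 8, 22, 19, 4, 12, 21, 5, 6, 15, 16, 17, 20, 14, 11, 10],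
   [18, 13, 3, 9, 4, 23, 8, 22, 6, 0, 7, 11, 2, 16, 21, 17, 1, 15, 12, 5, 14, 20, 19, 10],
   [18, 13, 3, 2, 9, 5, 12, 22, 16, 6, 7, 10, 4, 0, 14, 23, 8, 15, 1, 17, 20, 21, 11, 19],
   [18, 13, 3, 2, 4, 5, 6, 7, 8, 12, 22, 11, 9, 1, 14, 17, 16, 15, 0, 23, 21, 20, 10, 19],
   [18, 13, 3, 12, 8, 17, 6, 7, 4, 2, 15, 10, 1, 9, 21, 5, 0, 22, 16, 23, 14, 20, 11, 19],
   [18, 13, 3, 12, 1, 17, 2, 15, 0, 6, 7, 11, 8, 16, 21, 23, 4, 22, 9, 5, 20, 14, 10, 19],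
   [18, 13, 3, 4, 2, 17, 1, 22, 0, 16, 7, 19, 9, 6, 20, 5, 12, 15, 8, 23, 21, 14, 10, 11],
   [18, 13, 3, 4, 9, 17, 16, 7, 12, 1, 22, 10, 2, 8, 20, 23, 0, 15, 6, 5, 14, 21, 19, 11],
   [18, 13, 3, 8, 1, 5, 0, 7, 2, 9, 15, 11, 12, 4, 20, 23, 16, 22, 6, 17, 21, 14, 19, 10],
   [18, 13, 3, 8, 12, 5, 9, 15, 16, 0, 7, 19, 1, 6, 20, 17, 2, 22, 4, 23, 14, 21, 11, 10]]

set_option maxRecDepth 100000 in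
theorem L432_ok : (L432.all fun T => inGS [d0] [] T && normT T && imgFam T L0 L0) = true := by
  decide +kernel

set_option maxRecDepth 100000 in
theorem L432_nodup : L432.Nodup := by decide +kernel

set_option maxRecDepth 100000 in
theorem L432_length : L432.length = 432 := by decide +kernel

theorem L432_mem {T : List Nat} (hT : T ∈ L432) :
    inM24 T = true ∧ permOf T ∈ HQ ∧ normT T = true := by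
  have h := List.all_eq_true.1 L432_ok T hT
  rw [Bool.and_eq_true, Bool.and_eq_true] at h
  obtain ⟨h1, h2⟩ := permOf_mem_GS (Ms := [d0]) (l := [])
    (fun i hi => absurd hi List.not_mem_nil) h.1.1
  exact ⟨h1, ⟨h2, MulAction.mem_stabilizer_iff.2
    (imgFam_sound (isPerm_of_inM24 h1) le_rfl h.2)⟩, h.1.2⟩

theorem L432_inj : ∀ T ∈ L432, ∀ T' ∈ L432, permOf T = permOf T' → T = T' :=
  fun _ hT _ hT' e => permOf_inj_norm (isPerm_of_inM24 (L432_mem hT).1)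
    (isPerm_of_inM24 (L432_mem hT').1) (L432_mem hT).2.2 (L432_mem hT').2.2 e

theorem HQ_enum (g : Equiv.Perm GolayPt) (hg : g ∈ HQ) : ∃ T ∈ L432, g = permOf T := by
  have hsub : permOf '' {T | T ∈ L432 ∧ (fun _ => true) T = true} ⊆
      (HQ : Set (Equiv.Perm GolayPt)) := by
    rintro _ ⟨T, ⟨hT, -⟩, rfl⟩
    exact (L432_mem hT).2.1
  have hc : (permOf '' {T | T ∈ L432 ∧ (fun _ => true) T = true}).ncard = 432 := by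
    rw [ncard_image_list L432 L432_nodup permOf L432_inj, List.filter_true, L432_length]
  have hH : (HQ : Set (Equiv.Perm GolayPt)).ncard = 432 := by
    rw [← Nat.card_coe_set_eq]
    exact card_HQ
  have heq := Set.eq_of_subset_of_ncard_le hsub (by rw [hc, hH]) (Set.toFinite _)
  have hmem : g ∈ permOf '' {T | T ∈ L432 ∧ (fun _ => true) T = true} := by
    rw [heq]
    exact hg
  obtain ⟨T, ⟨hT, -⟩, rfl⟩ := hmem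
  exact ⟨T, hT, rfl⟩

set_option maxRecDepth 100000 in
theorem L432_trans : ((List.range 24).all fun j =>
    !(d0.testBit j) || L432.any fun T => Nat.beq (tf T 0) j) = true := by decide +kernel

theorem HQ_trans (p q : GolayPt) (hp : p ∈ toSet d0) (hq : q ∈ toSet d0) :
    ∃ g ∈ HQ, g p = q := by
  have key : ∀ p ∈ toSet d0, ∃ g ∈ HQ, g (pt 0) = p := by
    intro p hp
    rw [mem_toSet] at hp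
    have h := List.all_eq_true.1 L432_trans (idx p) (List.mem_range.2 (idx_lt p))
    rw [hp] at h
    simp only [Bool.not_true, Bool.false_or, List.any_eq_true] at h
    obtain ⟨T, hT, e⟩ := h
    rw [nbeq_iff] at e
    refine ⟨permOf T, (L432_mem hT).2.1, ?_⟩
    rw [permOf_pt (isPerm_of_inM24 (L432_mem hT).1) (by norm_num), e, pt_idx]
  obtain ⟨g1, hg1, e1⟩ := key p hp
  obtain ⟨g2, hg2, e2⟩ := key q hq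
  refine ⟨g2 * g1⁻¹, HQ.mul_mem hg2 (HQ.inv_mem hg1), ?_⟩
  rw [Equiv.Perm.mul_apply, ← e1, perm_inv_apply, e2]

/-- the normal subgroup of order nine -/
def L9q : List (List Nat) :=
  [[0, 1, 2, 3, 4, 5, 6, 7, 8, 9, 10, 11, 12, 13, 14, 15, 16, 17, 18, 19, 20, 21, 22, 23],
   [0, 1, 2, 13, 8, 19, 4, 17, 6, 16, 7, 22, 9, 18, 14, 5, 12, 10, 3, 15, 20, 21, 23, 11],
   [0, 1, 2, 18, 6, 15, 8, 10, 4, 12, 17, 23, 16, 3, 14, 19, 9, 7, 13, 5, 20, 21, 11, 22],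
   [1, 2, 0, 3, 6, 17, 8, 22, 4, 16, 11, 19, 9, 13, 14, 7, 12, 23, 18, 10, 20, 21, 15, 5],
   [1, 2, 0, 13, 4, 10, 6, 23, 8, 12, 22, 15, 16, 18, 14, 17, 9, 11, 3, 7, 20, 21, 5, 19],
   [1, 2, 0, 18, 8, 7, 4, 11, 6, 9, 23, 5, 12, 3, 14, 10, 16, 22, 13, 17, 20, 21, 19, 15],
   [2, 0, 1, 3, 8, 23, 4, 15, 6, 12, 19, 10, 16, 13, 14, 22, 9, 5, 18, 11, 20, 21, 7, 17],
   [2, 0, 1, 13, 6, 11, 8, 5, 4, 9, 15, 7, 12, 18, 14, 23, 16, 19, 3, 22, 20, 21, 17, 10],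
   [2, 0, 1, 18, 4, 22, 6, 19, 8, 16, 5, 17, 9, 3, 14, 11, 12, 15, 13, 23, 20, 21, 10, 7]]

set_option maxRecDepth 100000 in
theorem L9q_sub : (L9q.all fun A => L432.contains A) = true := by decide +kernel

theorem L9q_mul : (L9q.all fun A => L9q.all fun B => L9q.contains (comp A B)) = true := by
  decide +kernel

theorem L9q_inv : (L9q.all fun A => L9q.any fun B => comp A B == idT) = true := by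
  decide +kernel

theorem L9q_one : idT ∈ L9q := by decide +kernel

set_option maxRecDepth 100000 in
theorem L9q_norm : (L432.all fun T => L9q.all fun A => L9q.any fun B =>
    comp T A == comp B T) = true := by decide +kernel

theorem L9q_nodup : L9q.Nodup := by decide +kernel

theorem L9q_length : L9q.length = 9 := by decide +kernel

theorem L9q_in {A : List Nat} (hA : A ∈ L9q) : A ∈ L432 := by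
  have h := List.all_eq_true.1 L9q_sub A hA
  simpa using h

theorem L9q_perm {A : List Nat} (hA : A ∈ L9q) : isPerm A = true :=
  isPerm_of_inM24 (L432_mem (L9q_in hA)).1

/-- the normal subgroup of order nine of the standard quartet stabiliser -/
def NQ : Subgroup ↥HQ where
  carrier := {g | ∃ A ∈ L9q, (g : Equiv.Perm GolayPt) = permOf A}
  mul_mem' := by
    rintro a b ⟨A, hA, eA⟩ ⟨B, hB, eB⟩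
    have h := List.all_eq_true.1 (List.all_eq_true.1 L9q_mul A hA) B hB
    refine ⟨comp A B, by simpa using h, ?_⟩
    show (a : Equiv.Perm GolayPt) * (b : Equiv.Perm GolayPt) = permOf (comp A B)
    rw [eA, eB, permOf_mul (L9q_perm hA) (L9q_perm hB)]
  one_mem' := ⟨idT, L9q_one, permOf_idT.symm⟩
  inv_mem' := by
    rintro a ⟨A, hA, eA⟩
    have h := List.all_eq_true.1 L9q_inv A hA
    rw [List.any_eq_true] at h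
    obtain ⟨B, hB, e⟩ := h
    rw [beq_iff_eq] at e
    refine ⟨B, hB, ?_⟩
    show (a : Equiv.Perm GolayPt)⁻¹ = permOf B
    rw [eA, inv_eq_iff_mul_eq_one, permOf_mul (L9q_perm hA) (L9q_perm hB), e, permOf_idT]

instance NQ_normal : NQ.Normal := ⟨fun n hn g => by
  obtain ⟨A, hA, eA⟩ := hn
  obtain ⟨T, hT, eT⟩ := HQ_enum g.1 g.2
  have h := List.all_eq_true.1 (List.all_eq_true.1 L9q_norm T hT) A hA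
  rw [List.any_eq_true] at h
  obtain ⟨B, hB, e⟩ := h
  rw [beq_iff_eq] at e
  have hT1 := isPerm_of_inM24 (L432_mem hT).1
  refine ⟨B, hB, ?_⟩
  show (g : Equiv.Perm GolayPt) * (n : Equiv.Perm GolayPt) * (g : Equiv.Perm GolayPt)⁻¹ = permOf B
  rw [eA, eT, mul_inv_eq_iff_eq_mul]
  exact mul_of_comp_eq hT1 (L9q_perm hA) (L9q_perm hB) hT1 e⟩

theorem NQ_card : Nat.card NQ = 9 := by
  rw [card_sub_list2 HQ NQ L9q (fun _ => true) L9q_nodup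
    (fun T hT T' hT' e => L432_inj T (L9q_in hT) T' (L9q_in hT') e), List.filter_true,
    L9q_length]
  · rintro x ⟨A, hA, e⟩
    exact ⟨A, hA, rfl, e⟩
  · intro T hT _
    exact ⟨(L432_mem (L9q_in hT)).2.1, T, hT, rfl⟩

/-- the tables of the invertible matrices -/
def gl432 : List (List Nat) :=
  [[],
   [],
   [],
   [],
   [],
   [],
   [],
   [],
   [],
   [],
   [],
   [],
   [0, 1, 2, 3, 12, 5, 9, 10, 16, 6, 7, 22, 4, 18, 14, 19, 8, 17, 13, 15, 21, 20, 11, 23],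
   [6, 4, 8, 2, 12, 5, 9, 23, 16, 18, 7, 17, 13, 0, 21, 22, 3, 19, 1, 10, 20, 14, 11, 15],
   [18, 13, 3, 8, 12, 5, 9, 15, 16, 0, 7, 19, 1, 6, 20, 17, 2, 22, 4, 23, 14, 21, 11, 10],
   [13, 18, 3, 2, 12, 5, 9, 10, 16, 4, 11, 22, 6, 1, 14, 17, 8, 19, 0, 23, 20, 21, 7, 15],
   [1, 0, 2, 8, 12, 5, 9, 23, 16, 13, 11, 17, 18, 4, 21, 19, 3, 22, 6, 15, 14, 20, 7, 10],
   [4, 6, 8, 3, 12, 5, 9, 15, 16, 1, 11, 19, 0, 13, 20, 22, 2, 17, 18, 10, 21, 14, 7, 23],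
   [],
   [],
   [],
   [18, 13, 3, 2, 9, 5, 12, 22, 16, 6, 7, 10, 4, 0, 14, 23, 8, 15, 1, 17, 20, 21, 11, 19],
   [6, 4, 8, 3, 9, 5, 12, 19, 16, 0, 7, 15, 1, 18, 20, 10, 2, 23, 13, 22, 21, 14, 11, 17],
   [0, 1, 2, 8, 9, 5, 12, 17, 16, 18, 7, 23, 13, 6, 21, 15, 3, 10, 4, 19, 14, 20, 11, 22],
   [1, 0, 2, 3, 9, 5, 12, 22, 16, 4, 11, 10, 6, 13, 14, 15, 8, 23, 18, 19, 21, 20, 7, 17],
   [13, 18, 3, 8, 9, 5, 12, 19, 16, 1, 11, 15, 0, 4, 20, 23, 2, 10, 6, 17, 14, 21, 7, 22],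
   [4, 6, 8, 2, 9, 5, 12, 17, 16, 13, 11, 23, 18, 1, 21, 10, 3, 15, 0, 22, 20, 14, 7, 19],
   [],
   [0, 1, 2, 3, 4, 5, 6, 7, 8, 9, 10, 11, 12, 13, 14, 15, 16, 17, 18, 19, 20, 21, 22, 23],
   [13, 18, 3, 2, 6, 5, 4, 11, 8, 9, 10, 7, 12, 0, 14, 23, 16, 19, 1, 17, 21, 20, 22, 15],
   [],
   [6, 4, 8, 2, 13, 5, 18, 7, 3, 9, 23, 11, 12, 1, 21, 10, 16, 19, 0, 22, 14, 20, 17, 15],
   [1, 0, 2, 8, 18, 5, 13, 11, 3, 9, 23, 7, 12, 6, 21, 15, 16, 22, 4, 19, 20, 14, 17, 10],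
   [],
   [18, 13, 3, 8, 1, 5, 0, 7, 2, 9, 15, 11, 12, 4, 20, 23, 16, 22, 6, 17, 21, 14, 19, 10],
   [4, 6, 8, 3, 0, 5, 1, 11, 2, 9, 15, 7, 12, 18, 20, 10, 16, 17, 13, 22, 14, 21, 19, 23],
   [],
   [9, 12, 16, 2, 4, 5, 6, 23, 8, 13, 10, 17, 18, 0, 20, 11, 3, 15, 1, 7, 21, 14, 22, 19],
   [9, 12, 16, 3, 6, 5, 4, 15, 8, 0, 10, 19, 1, 13, 21, 7, 2, 23, 18, 11, 20, 14, 22, 17],
   [9, 12, 16, 2, 18, 5, 13, 10, 3, 6, 23, 22, 4, 1, 20, 7, 8, 15, 0, 11, 14, 21, 17, 19],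
   [],
   [9, 12, 16, 8, 13, 5, 18, 15, 3, 1, 23, 19, 0, 6, 14, 11, 2, 10, 4, 7, 20, 21, 17, 22],
   [9, 12, 16, 3, 1, 5, 0, 10, 2, 4, 15, 22, 6, 18, 21, 11, 8, 23, 13, 7, 14, 20, 19, 17],
   [9, 12, 16, 8, 0, 5, 1, 23, 2, 18, 15, 17, 13, 4, 14, 7, 3, 10, 6, 11, 21, 20, 19, 22],
   [],
   [],
   [13, 18, 3, 16, 4, 5, 6, 19, 8, 0, 10, 15, 1, 9, 21, 17, 2, 11, 12, 23, 14, 20, 22, 7],
   [0, 1, 2, 16, 6, 5, 4, 17, 8, 13, 10, 23, 18, 9, 20, 19, 3, 7, 12, 15, 14, 21, 22, 11],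
   [1, 0, 2, 16, 13, 5, 18, 22, 3, 6, 23, 10, 4, 9, 20, 19, 8, 11, 12, 15, 21, 14, 17, 7],
   [6, 4, 8, 16, 18, 5, 13, 19, 3, 1, 23, 15, 0, 9, 14, 22, 2, 7, 12, 10, 21, 20, 17, 11],
   [],
   [18, 13, 3, 16, 0, 5, 1, 22, 2, 4, 15, 10, 6, 9, 21, 17, 8, 7, 12, 23, 20, 14, 19, 11],
   [],
   [4, 6, 8, 16, 1, 5, 0, 17, 2, 18, 15, 23, 13, 9, 14, 22, 3, 11, 12, 10, 20, 21, 19, 7],
   [],
   [18, 13, 3, 2, 4, 5, 6, 7, 8, 12, 22, 11, 9, 1, 14, 17, 16, 15, 0, 23, 21, 20, 10, 19],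
   [1, 0, 2, 3, 6, 5, 4, 11, 8, 12, 22, 7, 9, 18, 14, 19, 16, 23, 13, 15, 20, 21, 10, 17],
   [],
   [6, 4, 8, 3, 1, 5, 0, 7, 2, 12, 19, 11, 9, 13, 20, 22, 16, 23, 18, 10, 14, 21, 15, 17],
   [13, 18, 3, 8, 0, 5, 1, 11, 2, 12, 19, 7, 9, 6, 20, 17, 16, 10, 4, 23, 21, 14, 15, 22],
   [],
   [0, 1, 2, 8, 13, 5, 18, 7, 3, 12, 17, 11, 9, 4, 21, 19, 16, 10, 6, 15, 20, 14, 23, 22],
   [4, 6, 8, 2, 18, 5, 13, 11, 3, 12, 17, 7, 9, 0, 21, 22, 16, 15, 1, 10, 14, 20, 23, 19],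
   [],
   [1, 0, 2, 16, 4, 5, 6, 23, 8, 18, 22, 17, 13, 12, 20, 15, 3, 11, 9, 19, 14, 21, 10, 7],
   [18, 13, 3, 16, 6, 5, 4, 15, 8, 1, 22, 19, 0, 12, 21, 23, 2, 7, 9, 17, 14, 20, 10, 11],
   [13, 18, 3, 16, 1, 5, 0, 10, 2, 6, 19, 22, 4, 12, 21, 23, 8, 11, 9, 17, 20, 14, 15, 7],
   [6, 4, 8, 16, 0, 5, 1, 23, 2, 13, 19, 17, 18, 12, 14, 10, 3, 7, 9, 22, 20, 21, 15, 11],
   [],
   [0, 1, 2, 16, 18, 5, 13, 10, 3, 4, 17, 22, 6, 12, 20, 15, 8, 7, 9, 19, 21, 14, 23, 11],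
   [],
   [4, 6, 8, 16, 13, 5, 18, 15, 3, 0, 17, 19, 1, 12, 14, 10, 2, 11, 9, 22, 21, 20, 23, 7],
   [],
   [12, 9, 16, 3, 4, 5, 6, 19, 8, 1, 22, 15, 0, 18, 21, 11, 2, 17, 13, 7, 20, 14, 10, 23],
   [12, 9, 16, 2, 6, 5, 4, 17, 8, 18, 22, 23, 13, 1, 20, 7, 3, 19, 0, 11, 21, 14, 10, 15],
   [12, 9, 16, 3, 0, 5, 1, 22, 2, 6, 19, 10, 4, 13, 21, 7, 8, 17, 18, 11, 14, 20, 15, 23],
   [],
   [12, 9, 16, 8, 1, 5, 0, 17, 2, 13, 19, 23, 18, 6, 14, 11, 3, 22, 4, 7, 21, 20, 15, 10],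
   [12, 9, 16, 2, 13, 5, 18, 22, 3, 4, 17, 10, 6, 0, 20, 11, 8, 19, 1, 7, 14, 21, 23, 15],
   [12, 9, 16, 8, 18, 5, 13, 19, 3, 0, 17, 15, 1, 4, 14, 7, 2, 22, 6, 11, 20, 21, 23, 10],
   []]

theorem gl432_mul : glMulOK gl432 = true := by decide +kernel

theorem gl432_inj : glInjOK gl432 = true := by decide +kernel

set_option maxRecDepth 100000 in
theorem gl432_mem : glAllOK gl432 (fun T => L432.contains T) = true := by decide +kernel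

theorem gl432_triv : glAllOK gl432 (fun T => !(L9q.contains T) || T == idT) = true := by
  decide +kernel

theorem gl432_in (M : GL (Fin 2) (ZMod 3)) : glTab gl432 M ∈ L432 := by
  have h := glTab_all gl432 _ gl432_mem M
  simpa using h

/-- the complement of the normal subgroup -/
noncomputable def glQ : GL (Fin 2) (ZMod 3) →* ↥HQ :=
  MonoidHom.mk' (fun M => ⟨permOf (glTab gl432 M), (L432_mem (gl432_in M)).2.1⟩) fun M M' => by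
    apply Subtype.ext
    show permOf (glTab gl432 (M * M')) = permOf (glTab gl432 M) * permOf (glTab gl432 M')
    rw [(glTab_mul gl432 gl432_mul M M').1,
      permOf_mul (glTab_mul gl432 gl432_mul M M').2 (glTab_mul gl432 gl432_mul M' M).2]

theorem glQ_inj : Function.Injective glQ := by
  intro M M' h
  have h1 : permOf (glTab gl432 M) = permOf (glTab gl432 M') := congrArg Subtype.val h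
  exact glTab_inj gl432 gl432_inj M M' (L432_inj _ (gl432_in M) _ (gl432_in M') h1)

theorem glQ_N (M : GL (Fin 2) (ZMod 3)) (h : glQ M ∈ NQ) : M = 1 := by
  obtain ⟨A, hA, e⟩ := h
  have e1 : permOf (glTab gl432 M) = permOf A := e
  have e' : glTab gl432 M = A := L432_inj _ (gl432_in M) _ (L9q_in hA) e1
  have ht := glTab_all gl432 _ gl432_triv M
  rw [e'] at ht
  have hc : L9q.contains A = true := by simpa using hA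
  rw [hc] at ht
  simp only [Bool.not_true, Bool.false_or, beq_iff_eq] at ht
  apply glQ_inj
  rw [map_one]
  apply Subtype.ext
  show permOf (glTab gl432 M) = 1
  rw [e', ht, permOf_idT]

theorem quotQ_iso : Nonempty (↥HQ ⧸ NQ ≃* GL (Fin 2) (ZMod 3)) := by
  have hinj : Function.Injective ((QuotientGroup.mk' NQ).comp glQ) := by
    rw [injective_iff_map_eq_one]
    intro M hM
    have h1 : ((glQ M : ↥HQ) : ↥HQ ⧸ NQ) = 1 := hM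
    rw [QuotientGroup.eq_one_iff] at h1
    exact glQ_N M h1
  have hcard : Nat.card (↥HQ ⧸ NQ) = 48 := by
    have h1 := Subgroup.card_eq_card_quotient_mul_card_subgroup NQ
    rw [card_HQ, NQ_card] at h1
    omega
  have hb : Function.Bijective ((QuotientGroup.mk' NQ).comp glQ) := by
    rw [Nat.bijective_iff_injective_and_card]
    exact ⟨hinj, by rw [card_gl23, hcard]⟩
  exact ⟨(MulEquiv.ofBijective _ hb).symm⟩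

theorem mem_HQ' (d : Finset GolayPt) (Q : Finset (Finset GolayPt)) (h : ↥M24) :
    h ∈ (MulAction.stabilizer M24 d ⊓ MulAction.stabilizer M24 Q) ↔
      (h : Equiv.Perm GolayPt) • d = d ∧ (h : Equiv.Perm GolayPt) • Q = Q := by
  rw [Subgroup.mem_inf, MulAction.mem_stabilizer_iff, MulAction.mem_stabilizer_iff]
  rfl

theorem conjQ (d : Finset GolayPt) (Q : Finset (Finset GolayPt)) (κ : Equiv.Perm GolayPt)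
    (k0 : κ • d = toSet d0) (k1 : κ • Q = famM L0) (g : Equiv.Perm GolayPt)
    (hg : κ * g * κ⁻¹ ∈ M24) :
    (g • d = d ∧ g • Q = Q) ↔ κ * g * κ⁻¹ ∈ HQ := by
  rw [HQ, Subgroup.mem_inf, mem_GS, MulAction.mem_stabilizer_iff, ← conj_smul_iff2 κ g d,
    ← conj_smul_iff2 κ g Q, k0, k1]
  constructor
  · rintro ⟨h1, h2⟩
    refine ⟨⟨hg, fun m hm => ?_, fun i hi => absurd hi List.not_mem_nil⟩, h2⟩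
    rw [List.mem_singleton] at hm
    subst hm
    exact h1
  · rintro ⟨⟨-, h1, -⟩, h2⟩
    exact ⟨h1 d0 (by simp), h2⟩

/-- conjugation to the standard position -/
def conjEquivQ (d : Finset GolayPt) (Q : Finset (Finset GolayPt)) (κ : Equiv.Perm GolayPt)
    (hκ : κ ∈ M24) (k0 : κ • d = toSet d0) (k1 : κ • Q = famM L0) :
    ↥(MulAction.stabilizer M24 d ⊓ MulAction.stabilizer M24 Q) ≃* ↥HQ where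
  toFun h := ⟨κ * h.1.1 * κ⁻¹, (conjQ d Q κ k0 k1 h.1.1
    (M24.mul_mem (M24.mul_mem hκ h.1.2) (M24.inv_mem hκ))).1 ((mem_HQ' d Q h.1).1 h.2)⟩
  invFun g := ⟨⟨κ⁻¹ * g.1 * κ, M24.mul_mem (M24.mul_mem (M24.inv_mem hκ) g.2.1.1) hκ⟩,
    (mem_HQ' d Q _).2 ((conjQ d Q κ k0 k1 (κ⁻¹ * g.1 * κ) (by
      have e : κ * (κ⁻¹ * g.1 * κ) * κ⁻¹ = g.1 := by group
      rw [e]
      exact g.2.1.1)).2 (by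
      have e : κ * (κ⁻¹ * g.1 * κ) * κ⁻¹ = g.1 := by group
      rw [e]
      exact g.2))⟩
  left_inv h := by
    apply Subtype.ext
    apply Subtype.ext
    show κ⁻¹ * (κ * h.1.1 * κ⁻¹) * κ = h.1.1
    group
  right_inv g := by
    apply Subtype.ext
    show κ * (κ⁻¹ * g.1 * κ) * κ⁻¹ = g.1
    group
  map_mul' h h' := by
    apply Subtype.ext
    show κ * (h.1.1 * h'.1.1) * κ⁻¹ = (κ * h.1.1 * κ⁻¹) * (κ * h'.1.1 * κ⁻¹)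
    group

theorem quart_struct (d : Finset GolayPt) (hd : d ∈ dodecads) (Q : Finset (Finset GolayPt))
    (hQ : Q ∈ quartets d) :
    Nat.card ↥(MulAction.stabilizer M24 d ⊓ MulAction.stabilizer M24 Q) = 432 ∧
    (∃ (N : Subgroup ↥(MulAction.stabilizer M24 d ⊓ MulAction.stabilizer M24 Q))
      (_ : N.Normal), Nat.card N = 9 ∧
      Nonempty (↥(MulAction.stabilizer M24 d ⊓ MulAction.stabilizer M24 Q) ⧸ N ≃*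
        GL (Fin 2) (ZMod 3))) ∧
    ∀ p ∈ d, ∀ q ∈ d, ∃ g ∈ (MulAction.stabilizer M24 d ⊓ MulAction.stabilizer M24 Q),
      ((g : ↥M24) : Equiv.Perm GolayPt) p = q := by
  obtain ⟨κ, hκ, k0, k1⟩ := quart_trans d hd Q hQ
  refine ⟨by rw [Nat.card_congr (conjEquivQ d Q κ hκ k0 k1).toEquiv, card_HQ], ?_, ?_⟩
  · have hsurj : Function.Surjective (conjEquivQ d Q κ hκ k0 k1).symm.toMonoidHom :=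
      (conjEquivQ d Q κ hκ k0 k1).symm.surjective
    have hinj : Function.Injective (conjEquivQ d Q κ hκ k0 k1).symm.toMonoidHom :=
      (conjEquivQ d Q κ hκ k0 k1).symm.injective
    have hN1 : (NQ.map (conjEquivQ d Q κ hκ k0 k1).symm.toMonoidHom).Normal :=
      NQ_normal.map _ hsurj
    refine ⟨NQ.map (conjEquivQ d Q κ hκ k0 k1).symm.toMonoidHom, hN1,
      by rw [Subgroup.card_map_of_injective hinj, NQ_card], ?_⟩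
    obtain ⟨F⟩ := quotQ_iso
    have he : (NQ.map (conjEquivQ d Q κ hκ k0 k1).symm.toMonoidHom).map
        (conjEquivQ d Q κ hκ k0 k1).toMonoidHom = NQ := by
      rw [Subgroup.map_map]
      ext x
      simp
    exact ⟨(QuotientGroup.congr _ _ (conjEquivQ d Q κ hκ k0 k1) he).trans F⟩
  · intro p hp q hq
    have hp' : κ p ∈ toSet d0 := by
      rw [← k0]
      exact Finset.smul_mem_smul_finset hp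
    have hq' : κ q ∈ toSet d0 := by
      rw [← k0]
      exact Finset.smul_mem_smul_finset hq
    obtain ⟨g0, hg0, e⟩ := HQ_trans (κ p) (κ q) hp' hq'
    refine ⟨((conjEquivQ d Q κ hκ k0 k1).symm ⟨g0, hg0⟩).1,
      ((conjEquivQ d Q κ hκ k0 k1).symm ⟨g0, hg0⟩).2, ?_⟩
    show (κ⁻¹ * g0 * κ) p = q
    rw [Equiv.Perm.mul_apply, Equiv.Perm.mul_apply, e, perm_inv_apply]

end Golay
end Cfsg.Agent.Helper28
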