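import Mathlib
import Cfsg.Agent.Helper28.M12More
import Cfsg.Agent.Helper28.Prune
import Cfsg.Agent.Helper28.Sext
import Cfsg.Agent.Helper28.Restrict

set_option autoImplicit false

namespace Cfsg.Agent.Helper28
namespace Golay

open Cfsg
open scoped Pointwise

/-! ### The stabiliser of a dodecad, one of its points and a pair of points outside -/

/-- the elements of the standard group of order 120 -/
def L120 : List (List Nat) :=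
  [[0, 1, 2, 3, 4, 5, 6, 7, 8, 9, 10, 11, 12, 13, 14, 15, 16, 17, 18, 19, 20, 21, 22, 23],
   [0, 1, 2, 6, 12, 7, 8, 5, 18, 4, 15, 20, 13, 9, 23, 17, 16, 19, 3, 10, 11, 22, 14, 21],
   [0, 1, 2, 8, 13, 5, 18, 7, 3, 12, 17, 11, 9, 4, 21, 19, 16, 10, 6, 15, 20, 14, 23, 22],
   [0, 1, 2, 18, 9, 7, 3, 5, 6, 13, 19, 20, 4, 12, 22, 10, 16, 15, 8, 17, 11, 23, 21, 14],
   [0, 1, 3, 8, 9, 7, 2, 5, 6, 16, 20, 19, 12, 4, 11, 10, 13, 21, 18, 23, 22, 17, 15, 14],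
   [0, 1, 3, 6, 4, 7, 18, 5, 8, 12, 21, 19, 16, 9, 17, 23, 13, 20, 2, 10, 22, 11, 14, 15],
   [0, 1, 3, 2, 12, 5, 6, 7, 18, 9, 10, 22, 4, 16, 14, 21, 13, 23, 8, 20, 19, 15, 11, 17],
   [0, 1, 3, 18, 16, 5, 8, 7, 2, 4, 23, 22, 9, 12, 15, 20, 13, 10, 6, 21, 19, 14, 17, 11],
   [0, 1, 6, 8, 12, 5, 3, 7, 18, 13, 22, 10, 16, 4, 19, 21, 9, 11, 2, 15, 14, 20, 23, 17],
   [0, 1, 6, 18, 4, 5, 2, 7, 8, 16, 11, 10, 13, 12, 20, 15, 9, 22, 3, 21, 14, 19, 17, 23],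
   [0, 1, 6, 3, 16, 7, 18, 5, 2, 12, 21, 14, 4, 13, 17, 11, 9, 15, 8, 22, 10, 23, 19, 20],
   [0, 1, 6, 2, 13, 7, 8, 5, 3, 4, 15, 14, 12, 16, 23, 22, 9, 21, 18, 11, 10, 17, 20, 19],
   [0, 1, 8, 6, 16, 5, 3, 7, 2, 13, 22, 23, 12, 9, 19, 20, 4, 17, 18, 14, 15, 21, 10, 11],
   [0, 1, 8, 18, 13, 7, 6, 5, 3, 9, 14, 15, 16, 12, 10, 22, 4, 20, 2, 17, 23, 11, 21, 19],
   [0, 1, 8, 2, 9, 5, 18, 7, 6, 12, 17, 23, 13, 16, 21, 14, 4, 22, 3, 20, 15, 19, 11, 10],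
   [0, 1, 8, 3, 12, 7, 2, 5, 18, 16, 20, 15, 9, 13, 11, 17, 4, 14, 6, 22, 23, 10, 19, 21],
   [0, 1, 18, 8, 16, 7, 6, 5, 2, 9, 14, 21, 13, 4, 10, 11, 12, 19, 3, 23, 17, 22, 15, 20],
   [0, 1, 18, 2, 4, 7, 3, 5, 8, 13, 19, 21, 9, 16, 22, 23, 12, 14, 6, 11, 17, 10, 20, 15],
   [0, 1, 18, 6, 13, 5, 2, 7, 3, 16, 11, 17, 4, 9, 20, 19, 12, 23, 8, 14, 21, 15, 10, 22],
   [0, 1, 18, 3, 9, 5, 8, 7, 6, 4, 23, 17, 16, 13, 15, 14, 12, 11, 2, 19, 21, 20, 22, 10],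
   [0, 4, 2, 8, 16, 7, 3, 5, 18, 9, 17, 21, 12, 1, 11, 10, 13, 19, 6, 15, 14, 20, 23, 22],
   [0, 4, 2, 18, 1, 7, 6, 5, 8, 12, 19, 21, 9, 16, 20, 15, 13, 17, 3, 10, 14, 11, 22, 23],
   [0, 4, 2, 3, 12, 5, 18, 7, 6, 16, 10, 14, 1, 9, 22, 19, 13, 15, 8, 17, 21, 23, 11, 20],
   [0, 4, 2, 6, 9, 5, 8, 7, 3, 1, 15, 14, 16, 12, 23, 17, 13, 10, 18, 19, 21, 22, 20, 11],
   [0, 4, 8, 18, 9, 5, 2, 7, 3, 13, 14, 15, 12, 16, 21, 17, 1, 20, 6, 22, 23, 19, 10, 11],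
   [0, 4, 8, 6, 13, 7, 18, 5, 2, 16, 22, 23, 9, 12, 10, 14, 1, 17, 3, 20, 15, 11, 19, 21],
   [0, 4, 8, 3, 16, 5, 6, 7, 18, 12, 20, 15, 13, 9, 19, 22, 1, 14, 2, 17, 23, 21, 11, 10],
   [0, 4, 8, 2, 12, 7, 3, 5, 6, 9, 17, 23, 16, 13, 11, 20, 1, 22, 18, 14, 15, 10, 21, 19],
   [0, 4, 18, 8, 12, 5, 2, 7, 6, 13, 14, 10, 9, 1, 21, 19, 16, 11, 3, 23, 22, 17, 15, 20],
   [0, 4, 18, 6, 1, 5, 3, 7, 8, 9, 11, 10, 13, 12, 17, 23, 16, 14, 2, 19, 22, 21, 20, 15],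
   [0, 4, 18, 3, 13, 7, 8, 5, 2, 1, 23, 22, 12, 9, 15, 14, 16, 19, 6, 11, 10, 20, 17, 21],
   [0, 4, 18, 2, 9, 7, 6, 5, 3, 12, 19, 22, 1, 13, 20, 11, 16, 23, 8, 14, 10, 15, 21, 17],
   [0, 4, 3, 8, 13, 5, 6, 7, 2, 12, 20, 11, 16, 1, 19, 21, 9, 10, 18, 23, 17, 22, 15, 14],
   [0, 4, 3, 6, 16, 7, 2, 5, 18, 13, 21, 17, 1, 12, 14, 10, 9, 23, 8, 20, 11, 15, 19, 22],
   [0, 4, 3, 18, 12, 7, 8, 5, 6, 1, 23, 17, 13, 16, 15, 20, 9, 21, 2, 10, 11, 14, 22, 19],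
   [0, 4, 3, 2, 1, 5, 18, 7, 8, 16, 10, 11, 12, 13, 22, 23, 9, 20, 6, 21, 17, 19, 14, 15],
   [0, 4, 6, 18, 13, 5, 3, 7, 2, 9, 11, 20, 1, 16, 17, 21, 12, 15, 8, 22, 19, 23, 10, 14],
   [0, 4, 6, 2, 16, 5, 8, 7, 18, 1, 15, 20, 9, 13, 23, 22, 12, 11, 3, 21, 19, 17, 14, 10],
   [0, 4, 6, 8, 9, 7, 18, 5, 3, 16, 22, 19, 13, 1, 10, 11, 12, 21, 2, 15, 20, 14, 23, 17],
   [0, 4, 6, 3, 1, 7, 2, 5, 8, 13, 21, 19, 16, 9, 14, 15, 12, 22, 18, 11, 20, 10, 17, 23],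
   [0, 9, 2, 18, 4, 7, 8, 5, 3, 16, 19, 22, 1, 13, 21, 17, 12, 10, 6, 15, 23, 14, 20, 11],
   [0, 9, 2, 8, 1, 5, 3, 7, 6, 4, 17, 23, 13, 16, 11, 10, 12, 15, 18, 19, 22, 20, 21, 14],
   [0, 9, 2, 6, 16, 5, 18, 7, 8, 13, 15, 23, 4, 1, 20, 19, 12, 17, 3, 10, 22, 11, 14, 21],
   [0, 9, 2, 3, 13, 7, 6, 5, 18, 1, 10, 22, 16, 4, 14, 15, 12, 19, 8, 17, 23, 21, 11, 20],
   [0, 9, 18, 3, 16, 5, 2, 7, 8, 12, 23, 15, 1, 4, 22, 19, 13, 14, 6, 11, 20, 10, 17, 21],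
   [0, 9, 18, 6, 12, 7, 3, 5, 2, 4, 11, 20, 16, 1, 17, 23, 13, 19, 8, 14, 15, 21, 10, 22],
   [0, 9, 18, 8, 4, 5, 6, 7, 3, 1, 14, 15, 12, 16, 10, 11, 13, 23, 2, 19, 20, 22, 21, 17],
   [0, 9, 18, 2, 1, 7, 8, 5, 6, 16, 19, 20, 4, 12, 21, 14, 13, 11, 3, 23, 15, 17, 22, 10],
   [0, 9, 8, 18, 12, 5, 6, 7, 2, 1, 14, 21, 4, 13, 10, 22, 16, 17, 3, 20, 19, 11, 15, 23],
   [0, 9, 8, 6, 4, 7, 2, 5, 3, 12, 22, 19, 13, 1, 23, 17, 16, 20, 18, 14, 21, 15, 10, 11],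
   [0, 9, 8, 3, 1, 7, 18, 5, 6, 13, 20, 19, 12, 4, 15, 14, 16, 22, 2, 17, 21, 23, 11, 10],
   [0, 9, 8, 2, 13, 5, 3, 7, 18, 4, 17, 21, 1, 12, 11, 20, 16, 14, 6, 22, 19, 10, 23, 15],
   [0, 9, 6, 2, 4, 5, 18, 7, 3, 13, 15, 14, 16, 12, 20, 11, 1, 21, 8, 22, 10, 19, 23, 17],
   [0, 9, 6, 8, 13, 7, 2, 5, 18, 12, 22, 10, 4, 16, 23, 15, 1, 11, 3, 21, 14, 17, 19, 20],
   [0, 9, 6, 18, 16, 7, 3, 5, 8, 4, 11, 10, 12, 13, 17, 21, 1, 22, 2, 15, 14, 23, 20, 19],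
   [0, 9, 6, 3, 12, 5, 8, 7, 2, 16, 21, 14, 13, 4, 19, 22, 1, 15, 18, 11, 10, 20, 17, 23],
   [0, 9, 3, 18, 1, 5, 2, 7, 6, 12, 23, 17, 16, 13, 22, 10, 4, 21, 8, 20, 11, 19, 15, 14],
   [0, 9, 3, 6, 13, 5, 8, 7, 18, 16, 21, 17, 12, 1, 19, 20, 4, 23, 2, 10, 11, 22, 14, 15],
   [0, 9, 3, 8, 12, 7, 18, 5, 2, 13, 20, 11, 1, 16, 15, 23, 4, 10, 6, 21, 17, 14, 19, 22],
   [0, 9, 3, 2, 16, 7, 6, 5, 8, 1, 10, 11, 13, 12, 14, 21, 4, 20, 18, 23, 17, 15, 22, 19],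
   [0, 12, 2, 3, 1, 5, 8, 7, 18, 13, 10, 22, 4, 16, 11, 17, 9, 19, 6, 15, 23, 20, 14, 21],
   [0, 12, 2, 6, 13, 7, 3, 5, 8, 16, 15, 23, 1, 4, 14, 10, 9, 17, 18, 19, 22, 21, 20, 11],
   [0, 12, 2, 18, 16, 5, 6, 7, 3, 4, 19, 22, 13, 1, 20, 15, 9, 10, 8, 17, 23, 11, 21, 14],
   [0, 12, 2, 8, 4, 7, 18, 5, 6, 1, 17, 23, 16, 13, 21, 19, 9, 15, 3, 10, 22, 14, 11, 20],
   [0, 12, 3, 2, 4, 5, 8, 7, 6, 13, 10, 14, 1, 9, 11, 20, 16, 21, 18, 23, 15, 17, 22, 19],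
   [0, 12, 3, 6, 9, 5, 18, 7, 2, 1, 21, 14, 13, 4, 17, 23, 16, 10, 8, 20, 15, 11, 19, 22],
   [0, 12, 3, 18, 13, 7, 2, 5, 8, 9, 23, 15, 4, 1, 22, 10, 16, 20, 6, 21, 14, 19, 17, 11],
   [0, 12, 3, 8, 1, 7, 6, 5, 18, 4, 20, 15, 9, 13, 19, 21, 16, 23, 2, 10, 14, 22, 11, 17],
   [0, 12, 6, 18, 9, 7, 8, 5, 2, 13, 11, 20, 16, 1, 10, 22, 4, 15, 3, 21, 19, 14, 17, 23],
   [0, 12, 6, 3, 13, 5, 18, 7, 8, 1, 21, 19, 9, 16, 17, 11, 4, 22, 2, 15, 20, 23, 14, 10],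
   [0, 12, 6, 8, 16, 5, 2, 7, 3, 9, 22, 19, 1, 13, 23, 15, 4, 21, 18, 11, 20, 17, 10, 14],
   [0, 12, 6, 2, 1, 7, 3, 5, 18, 16, 15, 20, 13, 9, 14, 21, 4, 11, 8, 22, 19, 10, 23, 17],
   [0, 12, 18, 2, 13, 5, 6, 7, 8, 4, 19, 21, 16, 9, 20, 11, 1, 14, 3, 23, 17, 15, 22, 10],
   [0, 12, 18, 6, 16, 7, 8, 5, 3, 13, 11, 17, 9, 4, 10, 14, 1, 23, 2, 19, 21, 22, 20, 15],
   [0, 12, 18, 3, 4, 7, 2, 5, 6, 9, 23, 17, 13, 16, 22, 19, 1, 11, 8, 14, 21, 10, 15, 20],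
   [0, 12, 18, 8, 9, 5, 3, 7, 2, 16, 14, 21, 4, 13, 15, 23, 1, 19, 6, 11, 17, 20, 10, 22],
   [0, 12, 8, 6, 1, 5, 2, 7, 18, 9, 22, 10, 16, 4, 23, 17, 13, 14, 3, 20, 11, 15, 19, 21],
   [0, 12, 8, 2, 16, 7, 18, 5, 3, 1, 17, 11, 4, 9, 21, 14, 13, 20, 6, 22, 10, 19, 23, 15],
   [0, 12, 8, 18, 4, 5, 3, 7, 6, 16, 14, 10, 9, 1, 15, 20, 13, 22, 2, 17, 11, 23, 21, 19],
   [0, 12, 8, 3, 9, 7, 6, 5, 2, 4, 20, 11, 1, 16, 19, 22, 13, 17, 18, 14, 10, 21, 15, 23],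
   [0, 13, 8, 2, 1, 5, 6, 7, 3, 16, 17, 11, 9, 4, 23, 22, 12, 20, 18, 14, 10, 15, 21, 19],
   [0, 13, 8, 18, 16, 7, 2, 5, 6, 4, 14, 10, 1, 9, 21, 17, 12, 22, 3, 20, 11, 19, 15, 23],
   [0, 13, 8, 6, 9, 7, 3, 5, 18, 1, 22, 10, 4, 16, 19, 20, 12, 14, 2, 17, 11, 21, 23, 15],
   [0, 13, 8, 3, 4, 5, 18, 7, 2, 9, 20, 11, 16, 1, 15, 14, 12, 17, 6, 22, 10, 23, 19, 21],
   [0, 13, 18, 2, 16, 5, 3, 7, 6, 1, 19, 20, 12, 4, 22, 23, 9, 11, 8, 14, 15, 10, 21, 17],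
   [0, 13, 18, 8, 1, 7, 2, 5, 3, 4, 14, 15, 16, 12, 21, 19, 9, 23, 6, 11, 20, 17, 10, 22],
   [0, 13, 18, 3, 12, 7, 6, 5, 8, 16, 23, 15, 4, 1, 17, 11, 9, 14, 2, 19, 20, 21, 22, 10],
   [0, 13, 18, 6, 4, 5, 8, 7, 2, 12, 11, 20, 1, 16, 10, 14, 9, 19, 3, 23, 15, 22, 17, 21],
   [0, 13, 6, 18, 1, 5, 8, 7, 3, 12, 11, 17, 4, 9, 10, 22, 16, 21, 2, 15, 23, 14, 20, 19],
   [0, 13, 6, 2, 12, 7, 18, 5, 8, 9, 15, 23, 1, 4, 20, 11, 16, 22, 3, 21, 17, 19, 14, 10],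
   [0, 13, 6, 8, 4, 7, 3, 5, 2, 1, 22, 23, 9, 12, 19, 21, 16, 15, 18, 11, 17, 20, 10, 14],
   [0, 13, 6, 3, 9, 5, 2, 7, 18, 4, 21, 17, 12, 1, 14, 15, 16, 11, 8, 22, 23, 10, 19, 20],
   [0, 13, 2, 3, 16, 7, 8, 5, 6, 12, 10, 14, 9, 1, 11, 17, 4, 15, 18, 19, 21, 20, 22, 23],
   [0, 13, 2, 8, 9, 5, 6, 7, 18, 16, 17, 21, 1, 12, 23, 15, 4, 19, 3, 10, 14, 22, 11, 20],
   [0, 13, 2, 18, 12, 5, 3, 7, 8, 1, 19, 21, 16, 9, 22, 10, 4, 17, 6, 15, 14, 23, 20, 11],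
   [0, 13, 2, 6, 1, 7, 18, 5, 3, 9, 15, 14, 12, 16, 20, 19, 4, 10, 8, 17, 21, 11, 23, 22],
   [0, 13, 3, 6, 12, 5, 2, 7, 8, 4, 21, 19, 9, 16, 14, 10, 1, 20, 18, 23, 22, 15, 17, 11],
   [0, 13, 3, 18, 4, 7, 6, 5, 2, 16, 23, 22, 12, 9, 17, 21, 1, 10, 8, 20, 19, 11, 15, 14],
   [0, 13, 3, 2, 9, 7, 8, 5, 18, 12, 10, 22, 16, 4, 11, 20, 1, 23, 6, 21, 19, 17, 14, 15],
   [0, 13, 3, 8, 16, 5, 18, 7, 6, 9, 20, 19, 4, 12, 15, 23, 1, 21, 2, 10, 22, 14, 11, 17],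
   [0, 16, 2, 18, 13, 5, 8, 7, 6, 9, 19, 20, 12, 4, 21, 17, 1, 15, 3, 10, 11, 14, 22, 23],
   [0, 16, 2, 6, 4, 5, 3, 7, 18, 12, 15, 20, 9, 13, 14, 10, 1, 19, 8, 17, 11, 21, 23, 22],
   [0, 16, 2, 3, 9, 7, 18, 5, 8, 4, 10, 11, 13, 12, 22, 19, 1, 17, 6, 15, 20, 23, 14, 21],
   [0, 16, 2, 8, 12, 7, 6, 5, 3, 13, 17, 11, 4, 9, 23, 15, 1, 10, 18, 19, 20, 22, 21, 14],
   [0, 16, 18, 8, 13, 7, 3, 5, 6, 12, 14, 10, 1, 9, 15, 23, 4, 11, 2, 19, 22, 20, 21, 17],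
   [0, 16, 18, 6, 9, 7, 2, 5, 8, 1, 11, 10, 12, 13, 20, 19, 4, 14, 3, 23, 22, 15, 17, 21],
   [0, 16, 18, 3, 1, 5, 6, 7, 2, 13, 23, 22, 9, 12, 17, 11, 4, 19, 8, 14, 10, 21, 15, 20],
   [0, 16, 18, 2, 12, 5, 8, 7, 3, 9, 19, 22, 13, 1, 21, 14, 4, 23, 6, 11, 10, 17, 20, 15],
   [0, 16, 6, 18, 12, 7, 2, 5, 3, 1, 11, 17, 9, 4, 20, 15, 13, 21, 8, 22, 23, 19, 10, 14],
   [0, 16, 6, 2, 9, 5, 3, 7, 8, 12, 15, 23, 4, 1, 14, 21, 13, 22, 18, 11, 17, 10, 20, 19],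
   [0, 16, 6, 8, 1, 5, 18, 7, 2, 4, 22, 23, 12, 9, 10, 11, 13, 15, 3, 21, 17, 14, 19, 20],
   [0, 16, 6, 3, 4, 7, 8, 5, 18, 9, 21, 17, 1, 12, 19, 22, 13, 11, 2, 15, 23, 20, 14, 10],
   [0, 16, 3, 18, 9, 5, 6, 7, 8, 13, 23, 15, 1, 4, 17, 21, 12, 20, 2, 10, 14, 11, 22, 19],
   [0, 16, 3, 6, 1, 7, 8, 5, 2, 9, 21, 14, 4, 13, 19, 20, 12, 10, 18, 23, 15, 22, 17, 11],
   [0, 16, 3, 8, 4, 5, 2, 7, 18, 1, 20, 15, 13, 9, 11, 10, 12, 23, 6, 21, 14, 17, 19, 22],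
   [0, 16, 3, 2, 13, 7, 18, 5, 6, 4, 10, 14, 9, 1, 22, 23, 12, 21, 8, 20, 15, 19, 11, 17],
   [0, 16, 8, 3, 13, 5, 2, 7, 6, 1, 20, 19, 4, 12, 11, 17, 9, 22, 18, 14, 21, 10, 15, 23],
   [0, 16, 8, 18, 1, 7, 3, 5, 2, 12, 14, 21, 13, 4, 15, 20, 9, 17, 6, 22, 19, 23, 10, 11],
   [0, 16, 8, 6, 12, 5, 18, 7, 3, 4, 22, 19, 1, 13, 10, 14, 9, 20, 2, 17, 21, 11, 23, 15],
   [0, 16, 8, 2, 4, 7, 6, 5, 18, 13, 17, 21, 12, 1, 23, 22, 9, 14, 3, 20, 19, 15, 11, 10]]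

theorem lv7920 : levelsOK [d0] [0] (ch12.drop 1) = true := by decide +kernel

theorem fin7920 : GS [d0] (finalL [0] (ch12.drop 1)) = ⊥ := triv12

theorem L120_eq : ((chainElems (ch12.drop 1)).filter fun T =>
    Nat.beq (permMask (tf T) 160) 160) = L120 := by decide +kernel

theorem L120_ok : (L120.all fun T => inGS [d0, 160] [0] T && normT T &&
    Nat.beq (permMask (tf T) 262476) 262476) = true := by decide +kernel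

theorem L120_nodup : L120.Nodup := by decide +kernel

theorem L120_length : L120.length = 120 := by decide +kernel

theorem L120_faith : (L120.all fun T =>
    !([2, 3, 6, 8, 18].all fun i => Nat.beq (tf T i) i) || (T == idT)) = true := by
  decide +kernel

theorem K120_enum (σ : Equiv.Perm GolayPt) (hσ : σ ∈ GS [d0, 160] [0]) :
    ∃ T ∈ L120, isPerm T = true ∧ σ = permOf T := by
  have h1 : σ ∈ GS [d0] [0] :=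
    ⟨hσ.1, fun m hm => hσ.2.1 m (by
      rw [List.mem_singleton] at hm
      subst hm
      exact List.mem_cons_self), hσ.2.2⟩
  obtain ⟨T, hT, hT1, rfl⟩ := chain_enum [d0] (ch12.drop 1) [0] lv7920 fin7920 σ h1
  refine ⟨T, ?_, hT1, rfl⟩
  have h2 := hσ.2.1 160 (by simp)
  rw [smul_toSet_permOf hT1] at h2
  have h3 : permMask (tf T) 160 = 160 :=
    toSet_inj (permMask_lt (permOf T) (tf T) (idx_permOf hT1) 160) (by norm_num) h2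
  have h4 : T ∈ (chainElems (ch12.drop 1)).filter fun T =>
      Nat.beq (permMask (tf T) 160) 160 := List.mem_filter.2 ⟨hT, (nbeq_iff _ _).2 h3⟩
  rwa [L120_eq] at h4

theorem K120_mem {T : List Nat} (hT : T ∈ L120) :
    inM24 T = true ∧ permOf T ∈ GS [d0, 160] [0] ∧ normT T = true ∧
      permMask (tf T) 262476 = 262476 := by
  have h := List.all_eq_true.1 L120_ok T hT
  rw [Bool.and_eq_true, Bool.and_eq_true, nbeq_iff] at h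
  obtain ⟨h1, h2⟩ := permOf_mem_GS (Ms := [d0, 160]) (l := [0]) (by simp) h.1.1
  exact ⟨h1, h2, h.1.2, h.2⟩

theorem K120_inj : ∀ T ∈ L120, ∀ T' ∈ L120, permOf T = permOf T' → T = T' :=
  fun _ hT _ hT' e => permOf_inj_norm (isPerm_of_inM24 (K120_mem hT).1)
    (isPerm_of_inM24 (K120_mem hT').1) (K120_mem hT).2.2.1 (K120_mem hT').2.2.1 e

theorem card_K120 : Nat.card (GS [d0, 160] [0]) = 120 := by
  have e : ((GS [d0, 160] [0] : Subgroup (Equiv.Perm GolayPt)) : Set (Equiv.Perm GolayPt)) =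
      permOf '' {T | T ∈ L120 ∧ (fun _ => true) T = true} := by
    ext σ
    constructor
    · intro hσ
      obtain ⟨T, hT, -, rfl⟩ := K120_enum σ hσ
      exact ⟨T, ⟨hT, rfl⟩, rfl⟩
    · rintro ⟨T, ⟨hT, -⟩, rfl⟩
      exact (K120_mem hT).2.1
  show Nat.card ((GS [d0, 160] [0] : Subgroup (Equiv.Perm GolayPt)) :
    Set (Equiv.Perm GolayPt)) = 120
  rw [Nat.card_coe_set_eq, e, ncard_image_list L120 L120_nodup permOf K120_inj (fun _ => true),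
    List.filter_true, L120_length]

theorem K120_le :
    GS [d0, 160] [0] ≤ MulAction.stabilizer (Equiv.Perm GolayPt) (toSet 262476) := by
  intro σ hσ
  obtain ⟨T, hT, hT1, rfl⟩ := K120_enum σ hσ
  rw [MulAction.mem_stabilizer_iff, smul_toSet_permOf hT1, (K120_mem hT).2.2.2]

/-- the action on the orbit of length five -/
noncomputable def rho120 : ↥(GS [d0, 160] [0]) →* Equiv.Perm ↥(toSet 262476) :=
  (restr (GS [d0, 160] [0]) (toSet 262476)).comp (Subgroup.inclusion (le_inf le_rfl K120_le))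

theorem F5_mem : ∀ i ∈ [2, 3, 6, 8, 18], i < 24 ∧ pt i ∈ toSet 262476 := by decide +kernel

theorem rho120_inj : Function.Injective rho120 := by
  rw [injective_iff_map_eq_one]
  intro g hg
  have h1 : ∀ x ∈ toSet 262476, g.1 x = x := by
    intro x hx
    have := congrArg
      (fun e : Equiv.Perm ↥(toSet 262476) => ((e ⟨x, hx⟩ : ↥(toSet 262476)) : GolayPt)) hg
    exact this
  obtain ⟨T, hT, hT1, e⟩ := K120_enum g.1 g.2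
  have h2 : ([2, 3, 6, 8, 18].all fun i => Nat.beq (tf T i) i) = true := by
    rw [List.all_eq_true]
    intro i hi
    rw [nbeq_iff]
    obtain ⟨hi24, hmem⟩ := F5_mem i hi
    have h3 := h1 (pt i) hmem
    rw [e, permOf_pt hT1 hi24] at h3
    have h4 := congrArg idx h3
    rwa [idx_pt _ (tf_lt hT1 hi24), idx_pt _ hi24] at h4
  have h4 := List.all_eq_true.1 L120_faith T hT
  rw [h2, Bool.not_true, Bool.false_or, beq_iff_eq] at h4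
  apply Subtype.ext
  rw [e, h4, permOf_idT]
  rfl

theorem K120_iso : Nonempty (↥(GS [d0, 160] [0]) ≃* Equiv.Perm (Fin 5)) := by
  have hc : Fintype.card ↥(toSet 262476) = 5 := by
    rw [Fintype.card_coe, card_toSet]
    decide +kernel
  have hb : Function.Bijective rho120 := by
    rw [Nat.bijective_iff_injective_and_card]
    refine ⟨rho120_inj, ?_⟩
    rw [card_K120, Nat.card_perm, Nat.card_eq_fintype_card, hc]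
    rfl
  exact ⟨(MulEquiv.ofBijective rho120 hb).trans
    (Equiv.permCongrHom (Fintype.equivFinOfCardEq hc))⟩

theorem base2 (x x' : GolayPt) (hx : x ∉ toSet d0) (hx' : x' ∉ toSet d0) (hne : x ≠ x') :
    ∃ σ ∈ GS [d0] [0], σ (pt 5) = x ∧ σ (pt 7) = x' := by
  have hinv : ∀ σ ∈ GS [d0] [0], ∀ q, q ∉ toSet d0 → σ.symm q ∉ toSet d0 := by
    intro σ hσ q hq hcon
    apply hq
    have h1 := hσ.2.1 d0 List.mem_cons_self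
    rw [← h1]
    have h2 := Finset.smul_mem_smul_finset (a := σ) hcon
    rwa [Equiv.Perm.smul_def, Equiv.apply_symm_apply] at h2
  obtain ⟨σ1, hσ1, -, e1⟩ := extend2 lvC1 (l0 := [0]) (by simp) 1 (GS _ _).one_mem x
    (by rw [maskC1]; exact memC1 _ hx)
  obtain ⟨σ2, hσ2, f2, e2⟩ := extend2 lvC2 (l0 := [0]) (by simp) σ1 hσ1 x' (by
    rw [maskC2]
    refine memC2 _ (hinv σ1 hσ1 _ hx') ?_
    intro hcon
    have h3 : x' = x := by rw [← e1, ← hcon, Equiv.apply_symm_apply]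
    exact hne h3.symm)
  exact ⟨σ2, hσ2, by rw [f2 5 (by simp), e1], e2⟩

/-- a dodecad with one of its points and two points outside can be moved to the standard
position -/
theorem normalize_pair (d : Finset GolayPt) (hd : d ∈ dodecads) (p q q' : GolayPt) (hp : p ∈ d)
    (hq : q ∉ d) (hq' : q' ∉ d) (hqq' : q ≠ q') :
    ∃ κ ∈ M24, κ • d = toSet d0 ∧ κ p = pt 0 ∧ κ q = pt 5 ∧ κ q' = pt 7 := by
  obtain ⟨κ1, hκ1, a1, a2⟩ := flag_normal d hd p hp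
  have hx : κ1 q ∉ toSet d0 := by
    rw [← a1]
    exact fun hc => hq ((Finset.smul_mem_smul_finset_iff κ1).1 hc)
  have hx' : κ1 q' ∉ toSet d0 := by
    rw [← a1]
    exact fun hc => hq' ((Finset.smul_mem_smul_finset_iff κ1).1 hc)
  obtain ⟨σ, hσ, b1, b2⟩ := base2 (κ1 q) (κ1 q') hx hx' (fun h => hqq' (κ1.injective h))
  refine ⟨σ⁻¹ * κ1, M24.mul_mem (M24.inv_mem hσ.1) hκ1, ?_, ?_, ?_, ?_⟩
  · rw [mul_smul, a1, inv_smul_eq_iff, hσ.2.1 d0 List.mem_cons_self]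
  · rw [Equiv.Perm.mul_apply, a2, Equiv.Perm.inv_eq_iff_eq, hσ.2.2 0 List.mem_cons_self]
  · rw [Equiv.Perm.mul_apply, Equiv.Perm.inv_eq_iff_eq, b1]
  · rw [Equiv.Perm.mul_apply, Equiv.Perm.inv_eq_iff_eq, b2]

theorem conj_smul_iff {α β : Type*} [Group α] [MulAction α β] (κ g : α) (s : β) :
    (κ * g * κ⁻¹) • (κ • s) = κ • s ↔ g • s = s := by
  rw [mul_smul, mul_smul, inv_smul_smul]
  exact smul_left_cancel_iff κ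

theorem pair160 : ({pt 5, pt 7} : Finset GolayPt) = toSet 160 := by decide +kernel

theorem mem_HS5 (d : Finset GolayPt) (p q q' : GolayPt) (h : ↥M24) :
    h ∈ (MulAction.stabilizer M24 d ⊓ MulAction.stabilizer M24 p ⊓
      MulAction.stabilizer M24 ({q, q'} : Finset GolayPt)) ↔
      (h : Equiv.Perm GolayPt) • d = d ∧ (h : Equiv.Perm GolayPt) • p = p ∧
      (h : Equiv.Perm GolayPt) • ({q, q'} : Finset GolayPt) = {q, q'} := by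
  rw [Subgroup.mem_inf, Subgroup.mem_inf, MulAction.mem_stabilizer_iff,
    MulAction.mem_stabilizer_iff, MulAction.mem_stabilizer_iff]
  constructor
  · rintro ⟨⟨h1, h2⟩, h3⟩
    exact ⟨h1, h2, h3⟩
  · rintro ⟨h1, h2, h3⟩
    exact ⟨⟨h1, h2⟩, h3⟩

theorem conj120 (d : Finset GolayPt) (p q q' : GolayPt) (κ : Equiv.Perm GolayPt)
    (k0 : κ • d = toSet d0) (k1 : κ p = pt 0) (k2 : κ q = pt 5) (k3 : κ q' = pt 7)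
    (g : Equiv.Perm GolayPt) (hg : κ * g * κ⁻¹ ∈ M24) :
    (g • d = d ∧ g • p = p ∧ g • ({q, q'} : Finset GolayPt) = {q, q'}) ↔
      κ * g * κ⁻¹ ∈ GS [d0, 160] [0] := by
  have hpair : κ • ({q, q'} : Finset GolayPt) = toSet 160 := by
    rw [Finset.smul_finset_insert, Finset.smul_finset_singleton, ← pair160,
      Equiv.Perm.smul_def, Equiv.Perm.smul_def, k2, k3]
  have k1' : κ • p = pt 0 := k1
  rw [mem_GS, ← conj_smul_iff κ g d, ← conj_smul_iff κ g p,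
    ← conj_smul_iff κ g ({q, q'} : Finset GolayPt), k0, k1', hpair]
  constructor
  · rintro ⟨h1, h2, h3⟩
    refine ⟨hg, fun m hm => ?_, fun i hi => ?_⟩
    · simp only [List.mem_cons, List.not_mem_nil, or_false] at hm
      rcases hm with rfl | rfl
      · exact h1
      · exact h3
    · rw [List.mem_singleton] at hi
      subst hi
      exact h2
  · rintro ⟨-, h1, h2⟩
    exact ⟨h1 d0 (by simp), h2 0 (by simp), h1 160 (by simp)⟩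

/-- conjugation to the standard position -/
def conjEquiv120 (d : Finset GolayPt) (p q q' : GolayPt) (κ : Equiv.Perm GolayPt)
    (hκ : κ ∈ M24) (k0 : κ • d = toSet d0) (k1 : κ p = pt 0) (k2 : κ q = pt 5)
    (k3 : κ q' = pt 7) :
    ↥(MulAction.stabilizer M24 d ⊓ MulAction.stabilizer M24 p ⊓
      MulAction.stabilizer M24 ({q, q'} : Finset GolayPt)) ≃* ↥(GS [d0, 160] [0]) where
  toFun h := ⟨κ * h.1.1 * κ⁻¹, (conj120 d p q q' κ k0 k1 k2 k3 h.1.1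
    (M24.mul_mem (M24.mul_mem hκ h.1.2) (M24.inv_mem hκ))).1 ((mem_HS5 d p q q' h.1).1 h.2)⟩
  invFun g := ⟨⟨κ⁻¹ * g.1 * κ, M24.mul_mem (M24.mul_mem (M24.inv_mem hκ) g.2.1) hκ⟩,
    (mem_HS5 d p q q' _).2 ((conj120 d p q q' κ k0 k1 k2 k3 (κ⁻¹ * g.1 * κ) (by
      have e : κ * (κ⁻¹ * g.1 * κ) * κ⁻¹ = g.1 := by group
      rw [e]
      exact g.2.1)).2 (by
      have e : κ * (κ⁻¹ * g.1 * κ) * κ⁻¹ = g.1 := by group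
      rw [e]
      exact g.2))⟩
  left_inv h := by
    apply Subtype.ext
    apply Subtype.ext
    show κ⁻¹ * (κ * h.1.1 * κ⁻¹) * κ = h.1.1
    group
  right_inv g := by
    apply Subtype.ext
    show κ * (κ⁻¹ * g.1 * κ) * κ⁻¹ = g.1
    group
  map_mul' h h' := by
    apply Subtype.ext
    show κ * (h.1.1 * h'.1.1) * κ⁻¹ = (κ * h.1.1 * κ⁻¹) * (κ * h'.1.1 * κ⁻¹)
    group

theorem s5_struct (d : Finset GolayPt) (hd : d ∈ dodecads) (p q q' : GolayPt) (hp : p ∈ d)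
    (hq : q ∉ d) (hq' : q' ∉ d) (hqq' : q ≠ q') :
    Nonempty (↥(MulAction.stabilizer M24 d ⊓ MulAction.stabilizer M24 p ⊓
      MulAction.stabilizer M24 ({q, q'} : Finset GolayPt)) ≃* Equiv.Perm (Fin 5)) := by
  obtain ⟨κ, hκ, k0, k1, k2, k3⟩ := normalize_pair d hd p q q' hp hq hq' hqq'
  obtain ⟨E⟩ := K120_iso
  exact ⟨(conjEquiv120 d p q q' κ hκ k0 k1 k2 k3).trans E⟩

end Golay
end Cfsg.Agent.Helper28
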