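import Mathlib

set_option autoImplicit false

namespace Cfsg.Agent.Helper28
namespace SO33

/-! ### The 24 determinant-one isometries of the form `x₀² + x₁x₂` over the field of order 3 -/

/-- the quadratic form on coordinates -/
def Q3 (x y z : ZMod 3) : ZMod 3 := x ^ 2 + y * z

/-- the 24 matrices -/
def L24 : List (Matrix (Fin 3) (Fin 3) (ZMod 3)) := [
  !![0, 1, 1; 1, 2, 1; 1, 1, 2],
  !![0, 1, 1; 2, 1, 2; 2, 2, 1],
  !![0, 2, 2; 1, 1, 2; 1, 2, 1],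
  !![0, 2, 2; 2, 2, 1; 2, 1, 2],
  !![1, 0, 0; 0, 1, 0; 0, 0, 1],
  !![1, 0, 0; 0, 2, 0; 0, 0, 2],
  !![1, 0, 1; 1, 1, 2; 0, 0, 1],
  !![1, 0, 1; 2, 2, 1; 0, 0, 2],
  !![1, 0, 2; 1, 2, 1; 0, 0, 2],
  !![1, 0, 2; 2, 1, 2; 0, 0, 1],
  !![1, 1, 0; 0, 1, 0; 1, 2, 1],
  !![1, 1, 0; 0, 2, 0; 2, 1, 2],
  !![1, 2, 0; 0, 1, 0; 2, 2, 1],
  !![1, 2, 0; 0, 2, 0; 1, 1, 2],
  !![2, 0, 0; 0, 0, 1; 0, 1, 0],
  !![2, 0, 0; 0, 0, 2; 0, 2, 0],
  !![2, 0, 1; 0, 0, 1; 2, 1, 2],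
  !![2, 0, 1; 0, 0, 2; 1, 2, 1],
  !![2, 0, 2; 0, 0, 1; 1, 1, 2],
  !![2, 0, 2; 0, 0, 2; 2, 2, 1],
  !![2, 1, 0; 1, 1, 2; 0, 2, 0],
  !![2, 1, 0; 2, 2, 1; 0, 1, 0],
  !![2, 2, 0; 1, 2, 1; 0, 1, 0],
  !![2, 2, 0; 2, 1, 2; 0, 2, 0]]

theorem all_of_list {α : Type*} (l : List α) (p : α → Prop) [DecidablePred p]
    (h : l.all (fun x => decide (p x)) = true) : ∀ x ∈ l, p x := by
  intro x hx
  have h1 := List.all_eq_true.1 h x hx
  exact of_decide_eq_true h1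

theorem any_of_list {α : Type*} (l : List α) (p : α → Prop) [DecidablePred p]
    (h : l.any (fun x => decide (p x)) = true) : ∃ x ∈ l, p x := by
  obtain ⟨x, hx, h1⟩ := List.any_eq_true.1 h
  exact ⟨x, hx, of_decide_eq_true h1⟩

set_option maxRecDepth 100000 in
theorem enum3 : ∀ a d g : ZMod 3, Q3 a d g = 1 → ∀ b e h : ZMod 3, Q3 b e h = 0 →
    Q3 (a + b) (d + e) (g + h) = 1 → ∀ c f i : ZMod 3, Q3 c f i = 0 →
    Q3 (a + c) (d + f) (g + i) = 1 → Q3 (b + c) (e + f) (h + i) = 1 →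
    a * e * i - a * f * h - b * d * i + b * f * g + c * d * h - c * e * g = 1 →
    (!![a, b, c; d, e, f; g, h, i] : Matrix (Fin 3) (Fin 3) (ZMod 3)) ∈ L24 := by
  decide +kernel

/-- the action on coordinate triples -/
def mv (m : Matrix (Fin 3) (Fin 3) (ZMod 3)) (v : ZMod 3 × ZMod 3 × ZMod 3) :
    ZMod 3 × ZMod 3 × ZMod 3 :=
  (m 0 0 * v.1 + m 0 1 * v.2.1 + m 0 2 * v.2.2, m 1 0 * v.1 + m 1 1 * v.2.1 + m 1 2 * v.2.2,
    m 2 0 * v.1 + m 2 1 * v.2.1 + m 2 2 * v.2.2)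

/-- the four isotropic points -/
def pt (k : Fin 4) : ZMod 3 × ZMod 3 × ZMod 3 := ![(0, 1, 0), (0, 0, 1), (1, 1, 2), (1, 2, 1)] k

/-- the index of an isotropic point -/
def ptIdx (v : ZMod 3 × ZMod 3 × ZMod 3) : Fin 4 :=
  if v = (0, 1, 0) ∨ v = (0, 2, 0) then 0 else if v = (0, 0, 1) ∨ v = (0, 0, 2) then 1
  else if v = (1, 1, 2) ∨ v = (2, 2, 1) then 2 else 3

/-- the action on the four isotropic points -/
def actF (m : Matrix (Fin 3) (Fin 3) (ZMod 3)) (k : Fin 4) : Fin 4 := ptIdx (mv m (pt k))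

set_option maxRecDepth 100000 in
theorem actF_mul_aux : L24.all (fun s => L24.all (fun t => decide (∀ k : Fin 4,
    actF (s * t) k = actF s (actF t k)))) = true := by
  decide +kernel

theorem actF_mul : ∀ s ∈ L24, ∀ t ∈ L24, ∀ k : Fin 4, actF (s * t) k = actF s (actF t k) := by
  intro s hs t ht
  have h1 := List.all_eq_true.1 actF_mul_aux s hs
  have h2 := List.all_eq_true.1 h1 t ht
  exact of_decide_eq_true h2

theorem actF_one : ∀ k : Fin 4, actF 1 k = k := by decide +kernel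

set_option maxRecDepth 100000 in
theorem actF_inj : ∀ s ∈ L24, (∀ k : Fin 4, actF s k = k) → s = 1 :=
  all_of_list L24 _ (by decide +kernel)

set_option maxRecDepth 100000 in
theorem actF_surj : ∀ a b c d : Fin 4, a ≠ b → a ≠ c → a ≠ d → b ≠ c → b ≠ d → c ≠ d →
    ∃ s ∈ L24, actF s 0 = a ∧ actF s 1 = b ∧ actF s 2 = c ∧ actF s 3 = d := by decide +kernel

set_option maxRecDepth 100000 in
theorem L24_det : ∀ s ∈ L24, s 0 0 * s 1 1 * s 2 2 - s 0 0 * s 1 2 * s 2 1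
      - s 0 1 * s 1 0 * s 2 2 + s 0 1 * s 1 2 * s 2 0
      + s 0 2 * s 1 0 * s 2 1 - s 0 2 * s 1 1 * s 2 0 = 1 :=
  all_of_list L24 _ (by decide +kernel)

set_option maxRecDepth 100000 in
theorem L24_form : ∀ s ∈ L24, ∀ x y z : ZMod 3,
    Q3 (s 0 0 * x + s 0 1 * y + s 0 2 * z) (s 1 0 * x + s 1 1 * y + s 1 2 * z)
      (s 2 0 * x + s 2 1 * y + s 2 2 * z) = Q3 x y z :=
  all_of_list L24 _ (by decide +kernel)

end SO33
end Cfsg.Agent.Helper28
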