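import Mathlib
import Cfsg.Prelude.Def_ClassicalGeometry
import Cfsg.Agent.Helper28.SO33a

set_option autoImplicit false

namespace Cfsg.Agent.Helper28
namespace SO33

open Matrix

/-! ### The special isometry group of `x₀² + x₁x₂` over a field of order 3 -/

/-- the index equivalence -/
def eps : (Unit ⊕ (Fin 1 ⊕ Fin 1)) ≃ Fin 3 where
  toFun x := match x with
    | .inl _ => 0
    | .inr (.inl _) => 1
    | .inr (.inr _) => 2
  invFun k := ![.inl (), .inr (.inl 0), .inr (.inr 0)] k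
  left_inv := by
    rintro (x | x | x)
    · rfl
    · have h : x = 0 := Subsingleton.elim _ _
      subst h
      rfl
    · have h : x = 0 := Subsingleton.elim _ _
      subst h
      rfl
  right_inv := by
    intro k
    fin_cases k <;> rfl

theorem eps_symm_zero : eps.symm 0 = .inl () := rfl
theorem eps_symm_one : eps.symm 1 = .inr (.inl 0) := rfl
theorem eps_symm_two : eps.symm 2 = .inr (.inr 0) := rfl
theorem eps_inl : eps (.inl ()) = 0 := rfl
theorem eps_inr_inl : eps (.inr (.inl 0)) = 1 := rfl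
theorem eps_inr_inr : eps (.inr (.inr 0)) = 2 := rfl

section

variable {F : Type*} [Field F] [Fintype F] (hF : Fintype.card F = 3)

/-- the ring isomorphism with the integers modulo 3 -/
noncomputable def psi : ZMod 3 ≃+* F := ZMod.ringEquivOfPrime F (by norm_num) hF

/-- the ring homomorphism to the integers modulo 3 -/
noncomputable def phi : F →+* ZMod 3 := (psi hF).symm.toRingHom

theorem phi_psi (x : ZMod 3) : phi hF (psi hF x) = x := (psi hF).symm_apply_apply x

theorem phi_inj : Function.Injective (phi hF) := (psi hF).symm.injective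

/-- the matrix over the integers modulo 3 of a matrix over `F` -/
noncomputable def codeM (B : Matrix (Unit ⊕ (Fin 1 ⊕ Fin 1)) (Unit ⊕ (Fin 1 ⊕ Fin 1)) F) :
    Matrix (Fin 3) (Fin 3) (ZMod 3) :=
  (B.submatrix eps.symm eps.symm).map (phi hF)

theorem codeM_mul (A B : Matrix (Unit ⊕ (Fin 1 ⊕ Fin 1)) (Unit ⊕ (Fin 1 ⊕ Fin 1)) F) :
    codeM hF (A * B) = codeM hF A * codeM hF B := by
  unfold codeM
  rw [← Matrix.submatrix_mul_equiv A B eps.symm eps.symm eps.symm, Matrix.map_mul]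

theorem codeM_one : codeM hF (1 : Matrix (Unit ⊕ (Fin 1 ⊕ Fin 1)) (Unit ⊕ (Fin 1 ⊕ Fin 1)) F) =
    1 := by
  unfold codeM
  rw [Matrix.submatrix_one_equiv, Matrix.map_one _ (map_zero _) (map_one _)]

theorem codeM_inj : Function.Injective (codeM (F := F) hF) := by
  intro A B h
  ext i j
  have h1 := congrFun (congrFun h (eps i)) (eps j)
  simp only [codeM, Matrix.map_apply, Matrix.submatrix_apply, Equiv.symm_apply_apply] at h1
  exact phi_inj hF h1

theorem transfer0 (u : Unit ⊕ (Fin 1 ⊕ Fin 1) → F) :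
    phi hF (Cfsg.quadFormOdd 1 F u) =
      Q3 (phi hF (u (.inl ()))) (phi hF (u (.inr (.inl 0)))) (phi hF (u (.inr (.inr 0)))) := by
  simp only [Cfsg.quadFormOdd, Q3, Fin.sum_univ_one, map_add, map_mul, map_pow]

theorem transfer (B : Matrix (Unit ⊕ (Fin 1 ⊕ Fin 1)) (Unit ⊕ (Fin 1 ⊕ Fin 1)) F)
    (u : Unit ⊕ (Fin 1 ⊕ Fin 1) → F) :
    phi hF (Cfsg.quadFormOdd 1 F (B *ᵥ u)) =
      Q3 (codeM hF B 0 0 * phi hF (u (.inl ())) + codeM hF B 0 1 * phi hF (u (.inr (.inl 0))) +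
          codeM hF B 0 2 * phi hF (u (.inr (.inr 0))))
        (codeM hF B 1 0 * phi hF (u (.inl ())) + codeM hF B 1 1 * phi hF (u (.inr (.inl 0))) +
          codeM hF B 1 2 * phi hF (u (.inr (.inr 0))))
        (codeM hF B 2 0 * phi hF (u (.inl ())) + codeM hF B 2 1 * phi hF (u (.inr (.inl 0))) +
          codeM hF B 2 2 * phi hF (u (.inr (.inr 0)))) := by
  rw [transfer0]
  simp only [codeM, Matrix.mulVec, dotProduct, Fintype.sum_sum_type,
    Fintype.sum_unique, map_add, map_mul, Matrix.map_apply, Matrix.submatrix_apply,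
    eps_symm_zero, eps_symm_one, eps_symm_two, add_assoc]
  rfl

/-- the matrix of an element of the group lies in the list -/
theorem code_mem (g : ↥(Cfsg.specialIsometryGroup F (Cfsg.quadFormOdd 1 F))) :
    codeM hF (g.1.1 : Matrix (Unit ⊕ (Fin 1 ⊕ Fin 1)) (Unit ⊕ (Fin 1 ⊕ Fin 1)) F) ∈ L24 := by
  have hiso : ∀ u v : Unit ⊕ (Fin 1 ⊕ Fin 1) → F,
      Cfsg.quadFormOdd 1 F ((g.1.1 : Matrix (Unit ⊕ (Fin 1 ⊕ Fin 1)) (Unit ⊕ (Fin 1 ⊕ Fin 1)) F) *ᵥ u)
        = Cfsg.quadFormOdd 1 F u := g.1.2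
  have key : ∀ x y z : ZMod 3,
      Q3 (codeM hF (g.1.1 : Matrix (Unit ⊕ (Fin 1 ⊕ Fin 1)) (Unit ⊕ (Fin 1 ⊕ Fin 1)) F) 0 0 * x +
            codeM hF (g.1.1 : Matrix (Unit ⊕ (Fin 1 ⊕ Fin 1)) (Unit ⊕ (Fin 1 ⊕ Fin 1)) F) 0 1 * y +
            codeM hF (g.1.1 : Matrix (Unit ⊕ (Fin 1 ⊕ Fin 1)) (Unit ⊕ (Fin 1 ⊕ Fin 1)) F) 0 2 * z)
          (codeM hF (g.1.1 : Matrix (Unit ⊕ (Fin 1 ⊕ Fin 1)) (Unit ⊕ (Fin 1 ⊕ Fin 1)) F) 1 0 * x +
            codeM hF (g.1.1 : Matrix (Unit ⊕ (Fin 1 ⊕ Fin 1)) (Unit ⊕ (Fin 1 ⊕ Fin 1)) F) 1 1 * y +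
            codeM hF (g.1.1 : Matrix (Unit ⊕ (Fin 1 ⊕ Fin 1)) (Unit ⊕ (Fin 1 ⊕ Fin 1)) F) 1 2 * z)
          (codeM hF (g.1.1 : Matrix (Unit ⊕ (Fin 1 ⊕ Fin 1)) (Unit ⊕ (Fin 1 ⊕ Fin 1)) F) 2 0 * x +
            codeM hF (g.1.1 : Matrix (Unit ⊕ (Fin 1 ⊕ Fin 1)) (Unit ⊕ (Fin 1 ⊕ Fin 1)) F) 2 1 * y +
            codeM hF (g.1.1 : Matrix (Unit ⊕ (Fin 1 ⊕ Fin 1)) (Unit ⊕ (Fin 1 ⊕ Fin 1)) F) 2 2 * z) =
        Q3 x y z := by
    intro x y z
    have h := transfer hF (g.1.1 : Matrix (Unit ⊕ (Fin 1 ⊕ Fin 1)) (Unit ⊕ (Fin 1 ⊕ Fin 1)) F)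
      (fun i => psi hF (![x, y, z] (eps i)))
    rw [hiso _ (fun i => psi hF (![x, y, z] (eps i))), transfer0] at h
    simp only [phi_psi, eps_inl, eps_inr_inl, eps_inr_inr] at h
    exact h.symm
  have hdet : (codeM hF (g.1.1 : Matrix (Unit ⊕ (Fin 1 ⊕ Fin 1)) (Unit ⊕ (Fin 1 ⊕ Fin 1)) F)).det
      = 1 := by
    have h1 : (Matrix.GeneralLinearGroup.det.comp
        (Cfsg.isometryGroup F (Cfsg.quadFormOdd 1 F)).subtype) g.1 = 1 := MonoidHom.mem_ker.1 g.2
    have h2 : (g.1.1 : Matrix (Unit ⊕ (Fin 1 ⊕ Fin 1)) (Unit ⊕ (Fin 1 ⊕ Fin 1)) F).det = 1 := by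
      have h3 := congrArg Units.val h1
      rw [MonoidHom.comp_apply, Matrix.GeneralLinearGroup.val_det_apply] at h3
      exact h3
    unfold codeM
    have h4 := RingHom.map_det (phi hF)
      ((g.1.1 : Matrix (Unit ⊕ (Fin 1 ⊕ Fin 1)) (Unit ⊕ (Fin 1 ⊕ Fin 1)) F).submatrix eps.symm
        eps.symm)
    rw [Matrix.det_submatrix_equiv_self, h2, map_one] at h4
    exact h4.symm
  rw [Matrix.det_fin_three] at hdet
  have e1 := key 1 0 0
  have e2 := key 0 1 0
  have e3 := key 0 0 1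
  have e4 := key 1 1 0
  have e5 := key 1 0 1
  have e6 := key 0 1 1
  simp only [mul_one, mul_zero, add_zero, zero_add] at e1 e2 e3 e4 e5 e6
  rw [Matrix.eta_fin_three (codeM hF
    (g.1.1 : Matrix (Unit ⊕ (Fin 1 ⊕ Fin 1)) (Unit ⊕ (Fin 1 ⊕ Fin 1)) F))]
  exact enum3 _ _ _ (e1.trans (by decide)) _ _ _ (e2.trans (by decide)) (e4.trans (by decide))
    _ _ _ (e3.trans (by decide)) (e5.trans (by decide)) (e6.trans (by decide)) hdet

/-- the matrix over `F` of a matrix over the integers modulo 3 -/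
noncomputable def liftM (s : Matrix (Fin 3) (Fin 3) (ZMod 3)) :
    Matrix (Unit ⊕ (Fin 1 ⊕ Fin 1)) (Unit ⊕ (Fin 1 ⊕ Fin 1)) F :=
  (s.map (psi hF)).submatrix eps eps

theorem codeM_liftM (s : Matrix (Fin 3) (Fin 3) (ZMod 3)) : codeM hF (liftM hF s) = s := by
  ext i j
  simp only [codeM, liftM, Matrix.map_apply, Matrix.submatrix_apply, Equiv.apply_symm_apply,
    phi_psi]

theorem liftM_det (s : Matrix (Fin 3) (Fin 3) (ZMod 3)) (hs : s ∈ L24) :
    (liftM hF s).det = 1 := by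
  have h1 : (liftM hF s).det = (s.map (psi hF)).det := Matrix.det_submatrix_equiv_self eps _
  have h2 := RingEquiv.map_det (psi hF) s
  have h3 : s.det = 1 := by
    rw [Matrix.det_fin_three]
    exact L24_det s hs
  rw [h3, map_one] at h2
  rw [h1]
  exact h2.symm

theorem liftM_form (s : Matrix (Fin 3) (Fin 3) (ZMod 3)) (hs : s ∈ L24)
    (u : Unit ⊕ (Fin 1 ⊕ Fin 1) → F) :
    Cfsg.quadFormOdd 1 F (liftM hF s *ᵥ u) = Cfsg.quadFormOdd 1 F u := by
  apply phi_inj hF
  rw [transfer, transfer0, codeM_liftM]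
  exact L24_form s hs _ _ _

/-- the element of the group with a given matrix -/
noncomputable def liftG (s : Matrix (Fin 3) (Fin 3) (ZMod 3)) (hs : s ∈ L24) :
    ↥(Cfsg.specialIsometryGroup F (Cfsg.quadFormOdd 1 F)) :=
  ⟨⟨Matrix.GeneralLinearGroup.mkOfDetNeZero (liftM hF s) (by
      rw [liftM_det hF s hs]
      exact one_ne_zero), fun u _ => liftM_form hF s hs u⟩, by
    apply MonoidHom.mem_ker.2
    apply Units.ext
    rw [MonoidHom.comp_apply, Matrix.GeneralLinearGroup.val_det_apply]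
    exact liftM_det hF s hs⟩

/-- the matrix of an element of the group -/
noncomputable def code (g : ↥(Cfsg.specialIsometryGroup F (Cfsg.quadFormOdd 1 F))) :
    Matrix (Fin 3) (Fin 3) (ZMod 3) :=
  codeM hF (g.1.1 : Matrix (Unit ⊕ (Fin 1 ⊕ Fin 1)) (Unit ⊕ (Fin 1 ⊕ Fin 1)) F)

theorem code_liftG (s : Matrix (Fin 3) (Fin 3) (ZMod 3)) (hs : s ∈ L24) :
    code hF (liftG hF s hs) = s := codeM_liftM hF s

theorem code_mul (g h : ↥(Cfsg.specialIsometryGroup F (Cfsg.quadFormOdd 1 F))) :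
    code hF (g * h) = code hF g * code hF h := by
  unfold code
  rw [← codeM_mul]
  rfl

theorem code_one : code hF (1 : ↥(Cfsg.specialIsometryGroup F (Cfsg.quadFormOdd 1 F))) = 1 :=
  codeM_one hF

theorem code_inj : Function.Injective (code (F := F) hF) := fun _ _ e =>
  Subtype.ext (Subtype.ext (Units.ext (codeM_inj hF e)))

theorem actF_code_mul (g h : ↥(Cfsg.specialIsometryGroup F (Cfsg.quadFormOdd 1 F))) (k : Fin 4) :
    actF (code hF (g * h)) k = actF (code hF g) (actF (code hF h) k) := by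
  rw [code_mul]
  exact actF_mul _ (code_mem hF g) _ (code_mem hF h) k

theorem act_left (g : ↥(Cfsg.specialIsometryGroup F (Cfsg.quadFormOdd 1 F))) (k : Fin 4) :
    actF (code hF g⁻¹) (actF (code hF g) k) = k := by
  rw [← actF_code_mul, inv_mul_cancel, code_one]
  exact actF_one k

theorem act_right (g : ↥(Cfsg.specialIsometryGroup F (Cfsg.quadFormOdd 1 F))) (k : Fin 4) :
    actF (code hF g) (actF (code hF g⁻¹) k) = k := by
  rw [← actF_code_mul, mul_inv_cancel, code_one]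
  exact actF_one k

/-- the permutation of the four isotropic points given by an element -/
noncomputable def permOf (g : ↥(Cfsg.specialIsometryGroup F (Cfsg.quadFormOdd 1 F))) :
    Equiv.Perm (Fin 4) :=
  ⟨actF (code hF g), actF (code hF g⁻¹), act_left hF g, act_right hF g⟩

theorem permOf_apply (g : ↥(Cfsg.specialIsometryGroup F (Cfsg.quadFormOdd 1 F))) (k : Fin 4) :
    permOf hF g k = actF (code hF g) k := rfl

theorem permOf_one : permOf hF (1 : ↥(Cfsg.specialIsometryGroup F (Cfsg.quadFormOdd 1 F))) = 1 := by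
  apply Equiv.ext
  intro k
  rw [permOf_apply, code_one, Equiv.Perm.coe_one, id]
  exact actF_one k

theorem permOf_mul (g h : ↥(Cfsg.specialIsometryGroup F (Cfsg.quadFormOdd 1 F))) :
    permOf hF (g * h) = permOf hF g * permOf hF h := by
  apply Equiv.ext
  intro k
  rw [Equiv.Perm.coe_mul, Function.comp_apply, permOf_apply, permOf_apply, permOf_apply]
  exact actF_code_mul hF g h k

/-- the permutation representation on the four isotropic points -/
noncomputable def permHom :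
    ↥(Cfsg.specialIsometryGroup F (Cfsg.quadFormOdd 1 F)) →* Equiv.Perm (Fin 4) where
  toFun g := permOf hF g
  map_one' := permOf_one hF
  map_mul' g h := permOf_mul hF g h

theorem permHom_apply (g : ↥(Cfsg.specialIsometryGroup F (Cfsg.quadFormOdd 1 F))) (k : Fin 4) :
    permHom hF g k = actF (code hF g) k := permOf_apply hF g k

theorem permHom_inj : Function.Injective (permHom (F := F) hF) := by
  rw [injective_iff_map_eq_one]
  intro g hg
  apply code_inj hF
  rw [code_one]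
  apply actF_inj _ (code_mem hF g)
  intro k
  show actF (code hF g) k = k
  rw [← permHom_apply, hg, Equiv.Perm.coe_one, id]

theorem permHom_surj : Function.Surjective (permHom (F := F) hF) := by
  intro π
  obtain ⟨s, hs, h0, h1, h2, h3⟩ := actF_surj (π 0) (π 1) (π 2) (π 3)
    (fun h => absurd (π.injective h) (by decide)) (fun h => absurd (π.injective h) (by decide))
    (fun h => absurd (π.injective h) (by decide)) (fun h => absurd (π.injective h) (by decide))
    (fun h => absurd (π.injective h) (by decide)) (fun h => absurd (π.injective h) (by decide))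
  refine ⟨liftG hF s hs, ?_⟩
  apply Equiv.ext
  intro k
  rw [permHom_apply, code_liftG]
  fin_cases k
  · exact h0
  · exact h1
  · exact h2
  · exact h3

end

theorem main {F : Type*} [Field F] [Fintype F] (hF : Fintype.card F = 3) :
    Nonempty (↥(Cfsg.specialIsometryGroup F (Cfsg.quadFormOdd 1 F)) ≃* Equiv.Perm (Fin 4)) :=
  ⟨MulEquiv.ofBijective (permHom hF) ⟨permHom_inj hF, permHom_surj hF⟩⟩

end SO33
end Cfsg.Agent.Helper28
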