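import Mathlib
import Cfsg.Agent.Helper28.Cent

set_option autoImplicit false

namespace Cfsg.Agent.Helper28
namespace Golay

open Cfsg
open scoped Pointwise

/-! ### The structure of the stabiliser of a sextet -/

/-- the elements of the group of the code fixing every member of a family of sets -/
def Kfix (S : Finset (Finset GolayPt)) : Subgroup (Equiv.Perm GolayPt) where
  carrier := {g | g ∈ M24 ∧ ∀ t ∈ S, g • t = t}
  mul_mem' := by
    rintro a b ⟨ha, ha'⟩ ⟨hb, hb'⟩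
    exact ⟨M24.mul_mem ha hb, fun t ht => by rw [mul_smul, hb' t ht, ha' t ht]⟩
  one_mem' := ⟨M24.one_mem, fun _ _ => one_smul _ _⟩
  inv_mem' := by
    rintro a ⟨ha, ha'⟩
    exact ⟨M24.inv_mem ha, fun t ht => by rw [inv_smul_eq_iff, ha' t ht]⟩

theorem Kfix_S0 : Kfix (sextOf (toSet 8396803)) = GS MsK [] := by
  ext g
  constructor
  · rintro ⟨h1, h2⟩
    exact (fix_S0_iff g h1).1 h2
  · intro h
    exact ⟨h.1, (fix_S0_iff g h.1).2 h⟩

theorem Kfix_conj {σ : Equiv.Perm GolayPt} (hσ : σ ∈ M24) (S : Finset (Finset GolayPt))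
    {g : Equiv.Perm GolayPt} (hg : g ∈ Kfix S) : σ * g * σ⁻¹ ∈ Kfix (σ • S) := by
  refine ⟨M24.mul_mem (M24.mul_mem hσ hg.1) (M24.inv_mem hσ), fun t ht => ?_⟩
  obtain ⟨u, hu, rfl⟩ := Finset.mem_smul_finset.1 ht
  rw [mul_smul, mul_smul, inv_smul_smul, hg.2 u hu]

/-- conjugation as an isomorphism of the fixing subgroups -/
def KfixEquiv {σ : Equiv.Perm GolayPt} (hσ : σ ∈ M24) (S : Finset (Finset GolayPt)) :
    ↥(Kfix S) ≃* ↥(Kfix (σ • S)) where
  toFun g := ⟨σ * g.1 * σ⁻¹, Kfix_conj hσ S g.2⟩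
  invFun g := ⟨σ⁻¹ * g.1 * σ, by
    have h := Kfix_conj (M24.inv_mem hσ) (σ • S) g.2
    rwa [inv_inv, inv_smul_smul] at h⟩
  left_inv g := Subtype.ext (by simp [mul_assoc])
  right_inv g := Subtype.ext (by simp [mul_assoc])
  map_mul' g h := Subtype.ext (by simp [mul_assoc])

theorem sq_of_powId {T : List Nat} (hT : isPerm T = true) (h : powId 2 T = true) :
    permOf T * permOf T = 1 := by
  rw [permOf_mul hT hT, ← permOf_idT]
  refine permOf_eq_of_tf (isPerm_comp hT hT) isPerm_idT fun i hi => ?_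
  rw [tf_comp T T hi, tf_idT hi]
  rw [powId, List.all_eq_true] at h
  exact (nbeq_iff _ _).1 (h i (List.mem_range.2 hi))

/-- the involutions (and the identity) of the standard fixing subgroup -/
def I64 : List (List Nat) := KLit.filter (powId 2)

theorem I64_length : I64.length = 64 := by decide +kernel

theorem I64_comm : (I64.all fun A => I64.all fun B => (List.range 24).all fun i =>
    Nat.beq (tf A (tf B i)) (tf B (tf A i))) = true := by decide +kernel

theorem K0_comm (x y : Equiv.Perm GolayPt) (hx : x ∈ GS MsK []) (hy : y ∈ GS MsK [])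
    (hx2 : x * x = 1) (hy2 : y * y = 1) : x * y = y * x := by
  obtain ⟨A, hA, hA1, rfl⟩ := K_enum x hx
  obtain ⟨B, hB, hB1, rfl⟩ := K_enum y hy
  have hA2 : A ∈ I64 := List.mem_filter.2 ⟨hA, powId_of_pow hA1 (by rw [pow_two, hx2])⟩
  have hB2 : B ∈ I64 := List.mem_filter.2 ⟨hB, powId_of_pow hB1 (by rw [pow_two, hy2])⟩
  exact mul_tables hA1 hB1 hB1 hA1 fun i hi =>
    (nbeq_iff _ _).1 (List.all_eq_true.1 (List.all_eq_true.1
      (List.all_eq_true.1 I64_comm A hA2) B hB2) i (List.mem_range.2 hi))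

theorem K0_card_inv : Nat.card {x : ↥(GS MsK []) // x * x = 1} = 64 := by
  have e : {σ : Equiv.Perm GolayPt | σ ∈ GS MsK [] ∧ σ * σ = 1} =
      permOf '' {T | T ∈ KLit ∧ powId 2 T = true} := by
    ext σ
    constructor
    · rintro ⟨hσ, h2⟩
      obtain ⟨T, hT, hT1, rfl⟩ := K_enum σ hσ
      exact ⟨T, ⟨hT, powId_of_pow hT1 (by rw [pow_two, h2])⟩, rfl⟩
    · rintro ⟨T, ⟨hT, hp⟩, rfl⟩
      exact ⟨(K_mem hT).2.1, sq_of_powId (isPerm_of_inM24 (K_mem hT).1) hp⟩
  have h1 : Nat.card {x : ↥(GS MsK []) // x * x = 1} =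
      Nat.card ↥{σ : Equiv.Perm GolayPt | σ ∈ GS MsK [] ∧ σ * σ = 1} := by
    refine Nat.card_congr ⟨fun x => ⟨x.1.1, x.1.2, congrArg Subtype.val x.2⟩,
      fun y => ⟨⟨y.1, y.2.1⟩, Subtype.ext y.2.2⟩, fun x => rfl, fun y => rfl⟩
  rw [h1, Nat.card_coe_set_eq, e, ncard_image_list KLit KLit_nodup permOf K_inj (powId 2)]
  exact I64_length

theorem Kfix_iso (S : Finset (Finset GolayPt)) (hS : S ∈ sextets) :
    Nonempty (↥(Kfix S) ≃* ↥(GS MsK [])) := by
  obtain ⟨σ, hσ, e⟩ := sext_trans S _ hS S0_mem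
  have E := KfixEquiv hσ S
  rw [e, Kfix_S0] at E
  exact ⟨E⟩

theorem Kfix_card (S : Finset (Finset GolayPt)) (hS : S ∈ sextets) :
    Nat.card (Kfix S) = 192 := by
  obtain ⟨E⟩ := Kfix_iso S hS
  rw [Nat.card_congr E.toEquiv, card_K]

theorem Kfix_comm (S : Finset (Finset GolayPt)) (hS : S ∈ sextets) (x y : Equiv.Perm GolayPt)
    (hx : x ∈ Kfix S) (hy : y ∈ Kfix S) (hx2 : x * x = 1) (hy2 : y * y = 1) :
    x * y = y * x := by
  obtain ⟨E⟩ := Kfix_iso S hS
  have h1 : E ⟨x, hx⟩ * E ⟨x, hx⟩ = 1 := by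
    rw [← map_mul, ← map_one E]
    exact congrArg E (Subtype.ext hx2)
  have h2 : E ⟨y, hy⟩ * E ⟨y, hy⟩ = 1 := by
    rw [← map_mul, ← map_one E]
    exact congrArg E (Subtype.ext hy2)
  have h3 := K0_comm (E ⟨x, hx⟩).1 (E ⟨y, hy⟩).1 (E ⟨x, hx⟩).2 (E ⟨y, hy⟩).2
    (congrArg Subtype.val h1) (congrArg Subtype.val h2)
  have h4 : E (⟨x, hx⟩ * ⟨y, hy⟩) = E (⟨y, hy⟩ * ⟨x, hx⟩) := by
    rw [map_mul, map_mul]
    exact Subtype.ext h3
  exact congrArg Subtype.val (E.injective h4)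

theorem Kfix_card_inv (S : Finset (Finset GolayPt)) (hS : S ∈ sextets) :
    Nat.card {x : ↥(Kfix S) // x * x = 1} = 64 := by
  obtain ⟨E⟩ := Kfix_iso S hS
  rw [← K0_card_inv]
  refine Nat.card_congr (Equiv.subtypeEquiv E.toEquiv fun x => ?_)
  show x * x = 1 ↔ E x * E x = 1
  rw [← map_mul, MulEquiv.map_eq_one_iff]

theorem fix_stab {S : Finset (Finset GolayPt)} {x : Equiv.Perm GolayPt} (hx : x ∈ M24)
    (h : ∀ t ∈ S, x • t = t) : (⟨x, hx⟩ : ↥M24) ∈ MulAction.stabilizer M24 S := by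
  rw [MulAction.mem_stabilizer_iff]
  show x • S = S
  ext t
  constructor
  · intro ht
    obtain ⟨u, hu, rfl⟩ := Finset.mem_smul_finset.1 ht
    rw [h u hu]
    exact hu
  · intro ht
    exact Finset.mem_smul_finset.2 ⟨t, ht, h t ht⟩

theorem stab_smul_mem {S : Finset (Finset GolayPt)} (g : ↥(MulAction.stabilizer M24 S))
    {t : Finset GolayPt} (ht : t ∈ S) : ((g : M24) : Equiv.Perm GolayPt) • t ∈ S := by
  have h : ((g : M24) : Equiv.Perm GolayPt) • S = S := g.2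
  have h2 := Finset.smul_mem_smul_finset (a := ((g : M24) : Equiv.Perm GolayPt)) ht
  rwa [h] at h2

/-- the action of the stabiliser of a family on the family -/
def sextHom (S : Finset (Finset GolayPt)) :
    ↥(MulAction.stabilizer M24 S) →* Equiv.Perm ↥S where
  toFun g := ⟨fun t => ⟨((g : M24) : Equiv.Perm GolayPt) • t.1, stab_smul_mem g t.2⟩,
    fun t => ⟨((g⁻¹ : ↥(MulAction.stabilizer M24 S)) : M24).1 • t.1, stab_smul_mem g⁻¹ t.2⟩,
    fun t => Subtype.ext (by simp), fun t => Subtype.ext (by simp)⟩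
  map_one' := by
    ext t
    simp
  map_mul' g h := by
    ext t
    simp [mul_smul]

theorem sextHom_apply (S : Finset (Finset GolayPt)) (g : ↥(MulAction.stabilizer M24 S))
    (t : ↥S) : ((sextHom S g t : ↥S) : Finset GolayPt) =
      ((g : M24) : Equiv.Perm GolayPt) • (t : Finset GolayPt) := rfl

theorem mem_ker_sextHom (S : Finset (Finset GolayPt)) (g : ↥(MulAction.stabilizer M24 S)) :
    g ∈ (sextHom S).ker ↔ ∀ t ∈ S, ((g : M24) : Equiv.Perm GolayPt) • t = t := by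
  rw [MonoidHom.mem_ker]
  constructor
  · intro h t ht
    have := congrArg (fun e : Equiv.Perm ↥S => ((e ⟨t, ht⟩ : ↥S) : Finset GolayPt)) h
    exact this
  · intro h
    refine Equiv.ext fun t => Subtype.ext ?_
    exact h t.1 t.2

/-- the elements fixing every member, inside the stabiliser -/
def fixEquiv (S : Finset (Finset GolayPt)) :
    {g : ↥(MulAction.stabilizer M24 S) //
      ∀ t ∈ S, ((g : M24) : Equiv.Perm GolayPt) • t = t} ≃ ↥(Kfix S) where
  toFun g := ⟨g.1.1.1, g.1.1.2, g.2⟩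
  invFun x := ⟨⟨⟨x.1, x.2.1⟩, fix_stab x.2.1 x.2.2⟩, x.2.2⟩
  left_inv _ := rfl
  right_inv _ := rfl

theorem card_fix_sext (S : Finset (Finset GolayPt)) (hS : S ∈ sextets) :
    Nat.card {g : ↥(MulAction.stabilizer M24 S) //
      ∀ t ∈ S, ((g : M24) : Equiv.Perm GolayPt) • t = t} = 192 := by
  rw [Nat.card_congr (fixEquiv S), Kfix_card S hS]

theorem sextHom_surj (S : Finset (Finset GolayPt)) (hS : S ∈ sextets) :
    Function.Surjective (sextHom S) := by
  have h1 : Nat.card ↥(MulAction.stabilizer M24 S) = 138240 :=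
    (card_stab_sub M24 S).trans (card_stab_sext S hS)
  have h2 : Nat.card (sextHom S).ker = 192 := by
    rw [← card_fix_sext S hS]
    exact Nat.card_congr (Equiv.subtypeEquivRight fun g => mem_ker_sextHom S g)
  have h3 := Subgroup.card_mul_index (sextHom S).ker
  rw [Subgroup.index_ker, h1, h2] at h3
  have h4 : Nat.card (Equiv.Perm ↥S) = 720 := by
    rw [Nat.card_perm, Nat.card_eq_fintype_card, Fintype.card_coe, hS.1]
    rfl
  have h5 : (sextHom S).range = ⊤ := Subgroup.eq_top_of_card_eq _ (by omega)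
  exact MonoidHom.range_eq_top.1 h5

/-- the normal subgroup of order 64 -/
def N64 (S : Finset (Finset GolayPt)) (hS : S ∈ sextets) :
    Subgroup ↥(MulAction.stabilizer M24 S) where
  carrier := {x | (∀ t ∈ S, ((x : M24) : Equiv.Perm GolayPt) • t = t) ∧ x * x = 1}
  mul_mem' := by
    rintro a b ⟨ha, ha'⟩ ⟨hb, hb'⟩
    refine ⟨fun t ht => ?_, ?_⟩
    · show (a.1.1 * b.1.1) • t = t
      rw [mul_smul, hb t ht, ha t ht]
    · have hc : a.1.1 * b.1.1 = b.1.1 * a.1.1 :=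
        Kfix_comm S hS a.1.1 b.1.1 ⟨a.1.2, ha⟩ ⟨b.1.2, hb⟩
          (congrArg (fun z : ↥(MulAction.stabilizer M24 S) => z.1.1) ha')
          (congrArg (fun z : ↥(MulAction.stabilizer M24 S) => z.1.1) hb')
      have hc' : a * b = b * a := Subtype.ext (Subtype.ext hc)
      calc a * b * (a * b) = a * (b * a) * b := by group
        _ = a * a * (b * b) := by rw [← hc']; group
        _ = 1 := by rw [ha', hb', one_mul]
  one_mem' := ⟨fun _ _ => one_smul _ _, one_mul 1⟩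
  inv_mem' := by
    rintro a ⟨ha, ha'⟩
    refine ⟨fun t ht => ?_, ?_⟩
    · show (a.1.1)⁻¹ • t = t
      rw [inv_smul_eq_iff, ha t ht]
    · rw [← mul_inv_rev, ha', inv_one]

theorem N64_normal (S : Finset (Finset GolayPt)) (hS : S ∈ sextets) : (N64 S hS).Normal := by
  constructor
  rintro n ⟨hn, hn'⟩ g
  refine ⟨fun t ht => ?_, ?_⟩
  · show (g.1.1 * n.1.1 * (g.1.1)⁻¹) • t = t
    have h1 : (g.1.1)⁻¹ • t ∈ S := stab_smul_mem g⁻¹ ht
    rw [mul_smul, mul_smul, hn _ h1, smul_inv_smul]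
  · calc g * n * g⁻¹ * (g * n * g⁻¹) = g * (n * n) * g⁻¹ := by group
      _ = 1 := by rw [hn', mul_one, mul_inv_cancel]

theorem N64_card (S : Finset (Finset GolayPt)) (hS : S ∈ sextets) :
    Nat.card (N64 S hS) = 64 := by
  rw [← Kfix_card_inv S hS]
  refine Nat.card_congr ⟨fun n => ⟨⟨n.1.1.1, n.1.1.2, n.2.1⟩,
      Subtype.ext (congrArg (fun z : ↥(MulAction.stabilizer M24 S) => z.1.1) n.2.2)⟩,
    fun x => ⟨⟨⟨x.1.1, x.1.2.1⟩, fix_stab x.1.2.1 x.1.2.2⟩, x.1.2.2,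
      Subtype.ext (Subtype.ext (congrArg Subtype.val x.2 : x.1.1 * x.1.1 = 1))⟩,
    fun _ => rfl, fun _ => rfl⟩

theorem sext_struct (S : Finset (Finset GolayPt)) (hS : S ∈ sextets) :
    (∀ e : Equiv.Perm ↥S, ∃ g ∈ MulAction.stabilizer M24 S, ∀ t : ↥S,
      (g : Equiv.Perm GolayPt) • (t : Finset GolayPt) = ((e t : ↥S) : Finset GolayPt)) ∧
    Nat.card {g : ↥(MulAction.stabilizer M24 S) //
      ∀ t ∈ S, ((g : M24) : Equiv.Perm GolayPt) • t = t} = 192 ∧
    ∃ N : Subgroup ↥(MulAction.stabilizer M24 S), N.Normal ∧ Nat.card N = 64 ∧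
      ∀ x ∈ N, x * x = 1 := by
  refine ⟨fun e => ?_, card_fix_sext S hS, N64 S hS, N64_normal S hS, N64_card S hS,
    fun x hx => hx.2⟩
  obtain ⟨g, rfl⟩ := sextHom_surj S hS e
  exact ⟨g.1, g.2, fun t => rfl⟩

end Golay
end Cfsg.Agent.Helper28
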