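import Mathlib
import Cfsg.Prelude.Def_Local

set_option autoImplicit false

namespace Cfsg.Agent.Helper28
namespace StdSub

open scoped commutatorElement

/-! ### Quasisimple normal subgroups with abelian quotient, and a criterion for standard subgroups -/

theorem comm_central_left {S : Type*} [Group S] (a b z : S) (hz : ∀ x : S, x * z = z * x) :
    ⁅a * z, b⁆ = ⁅a, b⁆ := by
  rw [commutatorElement_def, commutatorElement_def]
  have h1 : a * z * b * (a * z)⁻¹ * b⁻¹ = a * (b * z) * z⁻¹ * a⁻¹ * b⁻¹ := by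
    rw [hz b]
    group
  rw [h1]
  group

theorem comm_central_right {S : Type*} [Group S] (a b z : S) (hz : ∀ x : S, x * z = z * x) :
    ⁅a, b * z⁆ = ⁅a, b⁆ := by
  rw [commutatorElement_def, commutatorElement_def]
  have h1 : a * (b * z) * a⁻¹ * (b * z)⁻¹ = a * b * (a⁻¹ * z) * z⁻¹ * b⁻¹ := by
    rw [hz a⁻¹]
    group
  rw [h1]
  group

theorem subnormal_quasisimple {S : Type*} [Group S] (hp : Group.IsPerfect S)
    (hs : IsSimpleGroup (S ⧸ Subgroup.center S)) (N : Subgroup S) (hN : N.IsSubnormal) :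
    N ≤ Subgroup.center S ∨ N = ⊤ := by
  have h1 := (hN.map (QuotientGroup.mk'_surjective (Subgroup.center S))).eq_bot_or_top_of_isSimpleGroup hs
  rcases h1 with h | h
  · left
    intro x hx
    have h2 : (QuotientGroup.mk' (Subgroup.center S)) x ∈
        N.map (QuotientGroup.mk' (Subgroup.center S)) := Subgroup.mem_map_of_mem _ hx
    rw [h, Subgroup.mem_bot, QuotientGroup.mk'_apply, QuotientGroup.eq_one_iff] at h2
    exact h2
  · right
    rw [eq_top_iff, ← hp.commutator_eq_top, commutator_def, Subgroup.commutator_le]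
    intro g1 _ g2 _
    have key : ∀ g : S, ∃ n ∈ N, ∃ z ∈ Subgroup.center S, g = n * z := by
      intro g
      have hg : (QuotientGroup.mk' (Subgroup.center S)) g ∈
          N.map (QuotientGroup.mk' (Subgroup.center S)) := by
        rw [h]
        exact Subgroup.mem_top _
      obtain ⟨n, hn, hng⟩ := Subgroup.mem_map.1 hg
      refine ⟨n, hn, n⁻¹ * g, ?_, by group⟩
      rw [QuotientGroup.mk'_apply, QuotientGroup.mk'_apply, QuotientGroup.eq] at hng
      exact hng
    obtain ⟨n1, hn1, z1, hz1, rfl⟩ := key g1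
    obtain ⟨n2, hn2, z2, hz2, rfl⟩ := key g2
    rw [comm_central_left _ _ _ (Subgroup.mem_center_iff.1 hz1),
      comm_central_right _ _ _ (Subgroup.mem_center_iff.1 hz2), commutatorElement_def]
    exact N.mul_mem (N.mul_mem (N.mul_mem hn1 hn2) (N.inv_mem hn1)) (N.inv_mem hn2)

theorem layer_eq {X : Type*} [Group X] (S : Subgroup X) (hn : S.Normal)
    (hq : Cfsg.IsQuasisimple ↥S) (hc : commutator X ≤ S) : Cfsg.layer X = S := by
  apply le_antisymm
  · apply sSup_le
    intro K hK
    obtain ⟨hsub, hperfK, hsimpK⟩ := hK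
    have hKS : K ≤ S := by
      have h1 : ⁅K, K⁆ = K := Subgroup.isPerfect_iff.1 hperfK
      rw [← h1]
      exact (Subgroup.commutator_mono le_top le_top).trans hc
    have h2 := subnormal_quasisimple hq.1 hq.2 (K.subgroupOf S) hsub.subgroupOf
    rcases h2 with h | h
    · exfalso
      have hcomm : ∀ a b : ↥K, a * b = b * a := by
        intro a b
        have ha : (⟨a.1, hKS a.2⟩ : ↥S) ∈ K.subgroupOf S := Subgroup.mem_subgroupOf.2 a.2
        have h3 := Subgroup.mem_center_iff.1 (h ha) ⟨b.1, hKS b.2⟩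
        exact Subtype.ext (congrArg (fun x : ↥S => x.1) h3).symm
      have i1 : IsMulCommutative ↥K := ⟨⟨hcomm⟩⟩
      have i2 : Group.IsPerfect ↥K := hperfK
      have i3 : Subsingleton ↥K := Group.IsPerfect.subsingleton_of_isMulCommutative
      have i4 : Nontrivial (↥K ⧸ Subgroup.center ↥K) := hsimpK.toNontrivial
      exact not_subsingleton (↥K ⧸ Subgroup.center ↥K) inferInstance
    · exact le_of_eq (le_antisymm hKS (Subgroup.subgroupOf_eq_top.1 h))
  · exact le_sSup ⟨hn.isSubnormal, hq⟩

theorem quasi_range {K H : Type*} [Group K] [Group H] (f : K →* H)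
    (hf : Function.Injective f) (hp : Group.IsPerfect K)
    (hs : IsSimpleGroup (K ⧸ Subgroup.center K)) : Cfsg.IsQuasisimple ↥f.range := by
  have hperf' : Group.IsPerfect ↥f.range := Group.IsPerfect.range f
  refine ⟨hperf', ?_⟩
  have hg' : Function.Surjective f.rangeRestrict := f.rangeRestrict_surjective
  have hcen : Subgroup.center K ≤ (Subgroup.center ↥f.range).comap f.rangeRestrict := by
    intro z hz
    rw [Subgroup.mem_comap, Subgroup.mem_center_iff]
    intro y
    obtain ⟨k, rfl⟩ := hg' y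
    rw [← map_mul, ← map_mul, Subgroup.mem_center_iff.1 hz k]
  have hφ : Function.Surjective (QuotientGroup.map (Subgroup.center K)
      (Subgroup.center ↥f.range) f.rangeRestrict hcen) := by
    intro y
    obtain ⟨y', rfl⟩ := QuotientGroup.mk_surjective y
    obtain ⟨k, rfl⟩ := hg' y'
    exact ⟨QuotientGroup.mk k, rfl⟩
  have : Nontrivial (↥f.range ⧸ Subgroup.center ↥f.range) := by
    by_contra hnt
    rw [not_nontrivial_iff_subsingleton] at hnt
    have htop : Subgroup.center ↥f.range = ⊤ :=
      QuotientGroup.subgroup_eq_top_of_subsingleton _ hnt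
    have i1 : IsMulCommutative K := ⟨⟨fun a b => by
      apply hf
      rw [map_mul, map_mul]
      have h3 := Subgroup.mem_center_iff.1 (show f.rangeRestrict b ∈ Subgroup.center ↥f.range by
        rw [htop]; exact Subgroup.mem_top _) (f.rangeRestrict a)
      exact congrArg Subtype.val h3⟩⟩
    have i3 : Subsingleton K := Group.IsPerfect.subsingleton_of_isMulCommutative
    have i4 : Nontrivial (K ⧸ Subgroup.center K) := hs.toNontrivial
    exact not_subsingleton (K ⧸ Subgroup.center K) inferInstance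
  exact IsSimpleGroup.isSimpleGroup_of_surjective _ hφ

theorem conj_centralizer {G : Type*} [Group G] (L : Subgroup G) (g : G)
    (hg : g ∈ Subgroup.normalizer (L : Set G)) :
    g ∈ Subgroup.normalizer (Subgroup.centralizer (L : Set G) : Set G) := by
  have key : ∀ g : G, g ∈ Subgroup.normalizer (L : Set G) →
      ∀ h ∈ Subgroup.centralizer (L : Set G), g * h * g⁻¹ ∈ Subgroup.centralizer (L : Set G) := by
    intro g hg h hh
    rw [Subgroup.mem_centralizer_iff]
    intro x hx
    have hx' : g⁻¹ * x * g ∈ L := by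
      have := (Subgroup.mem_normalizer_iff''.1 hg x).1 hx
      exact this
    have h1 := Subgroup.mem_centralizer_iff.1 hh _ hx'
    have e1 : x * (g * h * g⁻¹) = g * ((g⁻¹ * x * g) * h) * g⁻¹ := by group
    have e2 : g * h * g⁻¹ * x = g * (h * (g⁻¹ * x * g)) * g⁻¹ := by group
    rw [e1, e2, h1]
  rw [Subgroup.mem_normalizer_iff]
  intro h
  constructor
  · exact key g hg h
  · intro hh
    have h1 := key g⁻¹ (Subgroup.inv_mem _ hg) _ hh
    have e : g⁻¹ * (g * h * g⁻¹) * g⁻¹⁻¹ = h := by group
    rw [e] at h1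
    exact h1

theorem standard_of {G : Type*} [Group G] [Finite G] (L : Subgroup G) (t : G)
    (hq : Cfsg.IsQuasisimple ↥L)
    (hnorm : ∀ g : G, g * t = t * g → ∀ x ∈ L, g * x * g⁻¹ ∈ L)
    (ht1 : t ≠ 1) (ht2 : t * t = 1) (htL : t ∈ Subgroup.centralizer (L : Set G))
    (huniq : ∀ u ∈ Subgroup.centralizer (L : Set G), u * u = 1 → u ≠ 1 → u = t)
    (hab : ∀ u ∈ Subgroup.centralizer (L : Set G), ∀ v ∈ Subgroup.centralizer (L : Set G),
      u * v = v * u) :
    Cfsg.IsStandardSubgroup L := by
  have hN1 : ∀ g : G, g * t = t * g → g ∈ Subgroup.normalizer (L : Set G) := by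
    intro g hg
    rw [Subgroup.mem_normalizer_iff]
    intro h
    constructor
    · exact hnorm g hg h
    · intro hh
      have hg' : g⁻¹ * t = t * g⁻¹ := by
        have e1 : g⁻¹ * t = g⁻¹ * (t * g) * g⁻¹ := by group
        rw [e1, ← hg]
        group
      have h1 := hnorm g⁻¹ hg' _ hh
      have e : g⁻¹ * (g * h * g⁻¹) * g⁻¹⁻¹ = h := by group
      rw [e] at h1
      exact h1
  have hNK : ∀ g : G, g ∈ Subgroup.normalizer (Subgroup.centralizer (L : Set G) : Set G) →
      g * t = t * g := by
    intro g hg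
    have h1 : g * t * g⁻¹ ∈ Subgroup.centralizer (L : Set G) :=
      (Subgroup.mem_normalizer_iff.1 hg t).1 htL
    have h2 : g * t * g⁻¹ * (g * t * g⁻¹) = 1 := by
      have e : g * t * g⁻¹ * (g * t * g⁻¹) = g * (t * t) * g⁻¹ := by group
      rw [e, ht2]
      group
    have h3 : g * t * g⁻¹ ≠ 1 := by
      intro h
      apply ht1
      have e : t = g⁻¹ * (g * t * g⁻¹) * g := by group
      rw [e, h]
      group
    have h4 := huniq _ h1 h2 h3
    have e : g * t = g * t * g⁻¹ * g := by group
    rw [e, h4]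
  have ht_ord : orderOf t = 2 := orderOf_eq_prime (by rw [pow_two]; exact ht2) ht1
  refine ⟨hq, ⟨?_, ?_⟩, ?_, ?_⟩
  · have h1 : orderOf (⟨t, htL⟩ : ↥(Subgroup.centralizer (L : Set G))) = 2 := by
      rw [← ht_ord]
      exact Subgroup.orderOf_mk t htL
    rw [even_iff_two_dvd, ← h1]
    exact orderOf_dvd_natCard _
  · intro g hg
    by_contra hodd
    rw [Nat.not_odd_iff_even, even_iff_two_dvd] at hodd
    obtain ⟨u, hu⟩ := exists_prime_orderOf_dvd_card' (G := ↥(Subgroup.centralizer (L : Set G) ⊓
      (Subgroup.centralizer (L : Set G)).map (MulAut.conj g).toMonoidHom)) 2 hodd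
    have hu1 : u.1 ≠ 1 := by
      intro h
      have h5 : u = 1 := Subtype.ext h
      rw [h5, orderOf_one] at hu
      exact absurd hu (by norm_num)
    have hu2 : u.1 * u.1 = 1 := by
      have h5 : u ^ 2 = 1 := by rw [← hu]; exact pow_orderOf_eq_one u
      rw [pow_two] at h5
      exact congrArg Subtype.val h5
    have hut : u.1 = t := huniq u.1 u.2.1 hu2 hu1
    obtain ⟨k, hk, hku⟩ := Subgroup.mem_map.1 u.2.2
    have hku' : g * k * g⁻¹ = t := by
      rw [← hut, ← hku]
      rfl
    have hk1 : k ≠ 1 := by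
      intro h
      rw [h] at hku'
      apply ht1
      rw [← hku']
      group
    have hk2 : k * k = 1 := by
      have e : k * k = g⁻¹ * ((g * k * g⁻¹) * (g * k * g⁻¹)) * g := by group
      rw [e, hku', ht2]
      group
    have hkt : k = t := huniq k hk hk2 hk1
    rw [hkt] at hku'
    apply hg
    apply conj_centralizer L g
    apply hN1
    have e : g * t = g * t * g⁻¹ * g := by group
    rw [e, hku']
  · intro g _ hbot
    have h1 : L.map (MulAut.conj g).toMonoidHom ≤ Subgroup.centralizer (L : Set G) :=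
      Subgroup.le_centralizer_iff.1 (Subgroup.commutator_eq_bot_iff_le_centralizer.1 hbot)
    have hcomm : ∀ a b : ↥L, a * b = b * a := by
      intro a b
      have ha : g * a.1 * g⁻¹ ∈ Subgroup.centralizer (L : Set G) :=
        h1 (Subgroup.mem_map.2 ⟨a.1, a.2, rfl⟩)
      have hb : g * b.1 * g⁻¹ ∈ Subgroup.centralizer (L : Set G) :=
        h1 (Subgroup.mem_map.2 ⟨b.1, b.2, rfl⟩)
      have h2 := hab _ ha _ hb
      apply Subtype.ext
      have e1 : a.1 * b.1 = g⁻¹ * ((g * a.1 * g⁻¹) * (g * b.1 * g⁻¹)) * g := by group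
      have e2 : b.1 * a.1 = g⁻¹ * ((g * b.1 * g⁻¹) * (g * a.1 * g⁻¹)) * g := by group
      show a.1 * b.1 = b.1 * a.1
      rw [e1, e2, h2]
    have i1 : IsMulCommutative ↥L := ⟨⟨hcomm⟩⟩
    have i2 : Group.IsPerfect ↥L := hq.1
    have i3 : Subsingleton ↥L := Group.IsPerfect.subsingleton_of_isMulCommutative
    have i4 : Nontrivial (↥L ⧸ Subgroup.center ↥L) := hq.2.toNontrivial
    exact not_subsingleton (↥L ⧸ Subgroup.center ↥L) inferInstance
  · apply le_antisymm
    · intro g hg
      exact conj_centralizer L g hg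
    · intro g hg
      exact hN1 g (hNK g hg)

end StdSub
end Cfsg.Agent.Helper28
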