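import Mathlib
import Cfsg.Agent.Helper28.StdA
import Cfsg.Agent.S0248
import Cfsg.Agent.S0249

set_option autoImplicit false
set_option linter.unusedSimpArgs false

namespace Cfsg.Agent.Helper28
namespace StdSub

open Matrix

/-! ### The block special linear subgroup of the centralizer of an involution of the special linear group -/

section blocks

variable {F : Type*} [Field F]

/-- the block diagonal matrix with a square block and a scalar in the last place -/
def blkL {m : ℕ} (A : Matrix (Fin m) (Fin m) F) (a : F) :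
    Matrix (Fin (m + 1)) (Fin (m + 1)) F :=
  Matrix.of (fun i j => (Fin.lastCases (Fin.lastCases a (fun _ => 0) j : F)
    (fun i' => (Fin.lastCases 0 (fun j' => A i' j') j : F)) i : F))

theorem blkL_ll {m : ℕ} (A : Matrix (Fin m) (Fin m) F) (a : F) :
    blkL A a (Fin.last m) (Fin.last m) = a := by
  simp [blkL]

theorem blkL_lc {m : ℕ} (A : Matrix (Fin m) (Fin m) F) (a : F) (j : Fin m) :
    blkL A a (Fin.last m) j.castSucc = 0 := by
  simp [blkL]

theorem blkL_cl {m : ℕ} (A : Matrix (Fin m) (Fin m) F) (a : F) (i : Fin m) :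
    blkL A a i.castSucc (Fin.last m) = 0 := by
  simp [blkL]

theorem blkL_cc {m : ℕ} (A : Matrix (Fin m) (Fin m) F) (a : F) (i j : Fin m) :
    blkL A a i.castSucc j.castSucc = A i j := by
  simp [blkL]

theorem blkL_mul {m : ℕ} (A B : Matrix (Fin m) (Fin m) F) (a b : F) :
    blkL A a * blkL B b = blkL (A * B) (a * b) := by
  ext i j
  refine Fin.lastCases ?_ (fun i' => ?_) i <;> refine Fin.lastCases ?_ (fun j' => ?_) j <;>
    simp [Matrix.mul_apply, Fin.sum_univ_castSucc, blkL_ll, blkL_lc, blkL_cl, blkL_cc]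

theorem blkL_one {m : ℕ} : blkL (1 : Matrix (Fin m) (Fin m) F) (1 : F) = 1 := by
  ext i j
  refine Fin.lastCases ?_ (fun i' => ?_) i <;> refine Fin.lastCases ?_ (fun j' => ?_) j <;>
    simp [blkL_ll, blkL_lc, blkL_cl, blkL_cc, Matrix.one_apply, Fin.castSucc_ne_last,
      (Fin.castSucc_ne_last _).symm]

theorem blkL_inj {m : ℕ} {a b : F} {A B : Matrix (Fin m) (Fin m) F}
    (h : blkL A a = blkL B b) : A = B ∧ a = b := by
  refine ⟨?_, ?_⟩
  · ext i j
    have h1 := congrFun (congrFun h i.castSucc) j.castSucc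
    rwa [blkL_cc, blkL_cc] at h1
  · have h1 := congrFun (congrFun h (Fin.last m)) (Fin.last m)
    rwa [blkL_ll, blkL_ll] at h1

theorem eq_blkL {m : ℕ} (M : Matrix (Fin (m + 1)) (Fin (m + 1)) F)
    (h0 : ∀ j : Fin m, M (Fin.last m) j.castSucc = 0)
    (h1 : ∀ i : Fin m, M i.castSucc (Fin.last m) = 0) :
    M = blkL (M.submatrix Fin.castSucc Fin.castSucc) (M (Fin.last m) (Fin.last m)) := by
  ext i j
  refine Fin.lastCases ?_ (fun i' => ?_) i <;> refine Fin.lastCases ?_ (fun j' => ?_) j <;>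
    simp [blkL_ll, blkL_lc, blkL_cl, blkL_cc, h0, h1]

theorem det_blkL {m : ℕ} (A : Matrix (Fin m) (Fin m) F) (a : F) :
    (blkL A a).det = A.det * a := by
  rw [Matrix.det_succ_row _ (Fin.last m), Fin.sum_univ_castSucc]
  have h1 : ∀ j : Fin m, (-1 : F) ^ ((Fin.last m : ℕ) + (j.castSucc : ℕ)) *
      blkL A a (Fin.last m) j.castSucc *
      ((blkL A a).submatrix (Fin.last m).succAbove j.castSucc.succAbove).det = 0 := by
    intro j
    rw [blkL_lc, mul_zero, zero_mul]
  rw [Finset.sum_eq_zero (fun j _ => h1 j), zero_add, blkL_ll, Fin.succAbove_last]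
  have h2 : (blkL A a).submatrix Fin.castSucc Fin.castSucc = A := by
    ext i j
    rw [Matrix.submatrix_apply, blkL_cc]
  have h3 : (-1 : F) ^ ((Fin.last m : ℕ) + (Fin.last m : ℕ)) = 1 :=
    Even.neg_one_pow ⟨_, rfl⟩
  rw [h2, h3, one_mul, mul_comm]

/-- the diagonal of the involution -/
def tvec (m : ℕ) : Fin (m + 1) → F := fun i => if (i : ℕ) + 1 = m + 1 then (1 : F) else -1

theorem tvec_l (m : ℕ) : (tvec m : Fin (m + 1) → F) (Fin.last m) = 1 := by
  simp [tvec]

theorem tvec_c (m : ℕ) (i : Fin m) : (tvec m : Fin (m + 1) → F) i.castSucc = -1 := by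
  have h : ¬ ((i.castSucc : Fin (m + 1)) : ℕ) + 1 = m + 1 := by
    rw [Fin.val_castSucc]
    have := i.2
    omega
  simp only [tvec, if_neg h]

theorem diag_eq_blkL (m : ℕ) :
    Matrix.diagonal (tvec m : Fin (m + 1) → F) = blkL (-1 : Matrix (Fin m) (Fin m) F) 1 := by
  ext i j
  refine Fin.lastCases ?_ (fun i' => ?_) i <;> refine Fin.lastCases ?_ (fun j' => ?_) j
  · simp [blkL_ll, tvec_l]
  · simp [blkL_lc, Matrix.diagonal_apply, (Fin.castSucc_ne_last _).symm]
  · simp [blkL_cl, Matrix.diagonal_apply, Fin.castSucc_ne_last]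
  · by_cases h : i' = j'
    · simp [blkL_cc, Matrix.diagonal_apply, Matrix.one_apply, tvec_c, h]
    · simp [blkL_cc, Matrix.diagonal_apply, Matrix.one_apply, tvec_c, h]

theorem blkL_of_comm {m : ℕ} (h2 : (2 : F) ≠ 0) (M : Matrix (Fin (m + 1)) (Fin (m + 1)) F)
    (hc : M * Matrix.diagonal (tvec m : Fin (m + 1) → F) =
      Matrix.diagonal (tvec m : Fin (m + 1) → F) * M) :
    M = blkL (M.submatrix Fin.castSucc Fin.castSucc) (M (Fin.last m) (Fin.last m)) := by
  apply eq_blkL
  · intro j
    have h := congrFun (congrFun hc (Fin.last m)) j.castSucc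
    rw [Matrix.diagonal_mul, Matrix.mul_diagonal, tvec_l, tvec_c] at h
    have h3 : (2 : F) * M (Fin.last m) j.castSucc = 0 := by linear_combination -h
    exact (mul_eq_zero.1 h3).resolve_left h2
  · intro i
    have h := congrFun (congrFun hc i.castSucc) (Fin.last m)
    rw [Matrix.diagonal_mul, Matrix.mul_diagonal, tvec_l, tvec_c] at h
    have h3 : (2 : F) * M i.castSucc (Fin.last m) = 0 := by linear_combination h
    exact (mul_eq_zero.1 h3).resolve_left h2

/-- the block embedding of the special linear group -/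
def fS (m : ℕ) : Matrix.SpecialLinearGroup (Fin m) F →*
    Matrix.SpecialLinearGroup (Fin (m + 1)) F where
  toFun A := ⟨blkL A.1 1, by rw [det_blkL, A.2, mul_one]⟩
  map_one' := Subtype.ext blkL_one
  map_mul' A B := Subtype.ext (by
    show blkL (A.1 * B.1) 1 = blkL A.1 1 * blkL B.1 1
    rw [blkL_mul, mul_one])

theorem fS_val (m : ℕ) (A : Matrix.SpecialLinearGroup (Fin m) F) :
    (fS m A).1 = blkL A.1 1 := rfl

theorem fS_inj (m : ℕ) : Function.Injective (fS (F := F) m) := by
  intro A B h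
  have h1 : blkL A.1 (1 : F) = blkL B.1 1 := congrArg Subtype.val h
  exact Subtype.ext (blkL_inj h1).1

end blocks

end StdSub
end Cfsg.Agent.Helper28
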