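import Mathlib
import Cfsg.Agent.Helper28.StdB

set_option autoImplicit false

namespace Cfsg.Agent.Helper28
namespace StdSub

open Matrix
open scoped commutatorElement

/-! ### The layer of the centralizer of the involution is a standard subgroup -/

section final

variable {F : Type*} [Field F]

theorem blk_pair (h2 : (2 : F) ≠ 0) (m : ℕ) (t g : Matrix.SpecialLinearGroup (Fin (m + 1)) F)
    (ht : t.1 = Matrix.diagonal (tvec m)) (hg : g * t = t * g) :
    ∃ (B B' : Matrix (Fin m) (Fin m) F) (b b' : F), g.1 = blkL B b ∧ (g⁻¹).1 = blkL B' b' ∧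
      B * B' = 1 ∧ b * b' = 1 := by
  have hcM : g.1 * Matrix.diagonal (tvec m : Fin (m + 1) → F) =
      Matrix.diagonal (tvec m : Fin (m + 1) → F) * g.1 := by
    rw [← ht]
    exact congrArg Subtype.val hg
  have hg' : g⁻¹ * t = t * g⁻¹ := by
    have e1 : g⁻¹ * t = g⁻¹ * (t * g) * g⁻¹ := by group
    rw [e1, ← hg]
    group
  have hcI : (g⁻¹).1 * Matrix.diagonal (tvec m : Fin (m + 1) → F) =
      Matrix.diagonal (tvec m : Fin (m + 1) → F) * (g⁻¹).1 := by
    rw [← ht]
    exact congrArg Subtype.val hg'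
  have eM := blkL_of_comm h2 _ hcM
  have eI := blkL_of_comm h2 _ hcI
  have hmul : g.1 * (g⁻¹).1 = 1 := congrArg Subtype.val (mul_inv_cancel g)
  rw [eM, eI, blkL_mul, ← blkL_one] at hmul
  obtain ⟨hBB, hbb⟩ := blkL_inj hmul
  exact ⟨_, _, _, _, eM, eI, hBB, hbb⟩

theorem conj_fS (h2 : (2 : F) ≠ 0) (m : ℕ) (t g : Matrix.SpecialLinearGroup (Fin (m + 1)) F)
    (ht : t.1 = Matrix.diagonal (tvec m)) (hg : g * t = t * g)
    (A : Matrix.SpecialLinearGroup (Fin m) F) : ∃ A', fS m A' = g * fS m A * g⁻¹ := by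
  obtain ⟨B, B', b, b', eM, eI, hBB, hbb⟩ := blk_pair h2 m t g ht hg
  have hdet : (B * A.1 * B').det = 1 := by
    rw [Matrix.det_mul, Matrix.det_mul, A.2, mul_one, ← Matrix.det_mul, hBB, Matrix.det_one]
  refine ⟨⟨B * A.1 * B', hdet⟩, ?_⟩
  apply Subtype.ext
  show blkL (B * A.1 * B') 1 = g.1 * blkL A.1 1 * (g⁻¹).1
  rw [eM, eI, blkL_mul, blkL_mul, mul_one, hbb]

theorem fS_comm (m : ℕ) (t : Matrix.SpecialLinearGroup (Fin (m + 1)) F)
    (ht : t.1 = Matrix.diagonal (tvec m)) (A : Matrix.SpecialLinearGroup (Fin m) F) :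
    fS m A * t = t * fS m A := by
  apply Subtype.ext
  show blkL A.1 1 * t.1 = t.1 * blkL A.1 1
  rw [ht, diag_eq_blkL, blkL_mul, blkL_mul]
  simp

theorem det_neg_one (m : ℕ) (hm : Even m) : (-1 : Matrix (Fin m) (Fin m) F).det = 1 := by
  rw [Matrix.det_neg, Matrix.det_one, mul_one, Fintype.card_fin, hm.neg_one_pow]

theorem cent_shape (h2 : (2 : F) ≠ 0) (m : ℕ) (hm : Even m)
    (t : Matrix.SpecialLinearGroup (Fin (m + 1)) F) (ht : t.1 = Matrix.diagonal (tvec m))
    (u : Matrix.SpecialLinearGroup (Fin (m + 1)) F)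
    (hu : u ∈ Subgroup.centralizer ((fS (F := F) m).range : Set _)) :
    ∃ l μ : F, u.1 = blkL (Matrix.scalar (Fin m) l) μ := by
  have hut : u * t = t * u := by
    have ht' : t = fS m ⟨-1, det_neg_one m hm⟩ := Subtype.ext (by
      rw [ht, diag_eq_blkL]
      rfl)
    have h1 := Subgroup.mem_centralizer_iff.1 hu t (by rw [ht']; exact ⟨_, rfl⟩)
    exact h1.symm
  have eM := blkL_of_comm h2 u.1 (by rw [← ht]; exact congrArg Subtype.val hut)
  have hP : (u.1.submatrix Fin.castSucc Fin.castSucc) ∈ Set.range (Matrix.scalar (Fin m)) := by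
    apply Matrix.mem_range_scalar_of_commute_single
    intro i j hij
    have h1 := Subgroup.mem_centralizer_iff.1 hu
      (fS m (Matrix.SpecialLinearGroup.transvection hij 1)) ⟨_, rfl⟩
    have h3 : blkL (1 + Matrix.single i j (1 : F)) 1 * u.1 =
        u.1 * blkL (1 + Matrix.single i j (1 : F)) 1 := congrArg Subtype.val h1
    rw [eM, blkL_mul, blkL_mul] at h3
    have h4 := (blkL_inj h3).1
    rw [add_mul, mul_add, one_mul, mul_one] at h4
    exact add_left_cancel h4
  obtain ⟨l, hl⟩ := hP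
  exact ⟨l, _, by rw [hl]; exact eM⟩

theorem cent_inv (h2 : (2 : F) ≠ 0) (m : ℕ) (hm : Even m) (hm1 : 1 ≤ m)
    (t : Matrix.SpecialLinearGroup (Fin (m + 1)) F) (ht : t.1 = Matrix.diagonal (tvec m))
    (u : Matrix.SpecialLinearGroup (Fin (m + 1)) F)
    (hu : u ∈ Subgroup.centralizer ((fS (F := F) m).range : Set _))
    (huu : u * u = 1) (hu1 : u ≠ 1) : u = t := by
  obtain ⟨l, μ, e⟩ := cent_shape h2 m hm t ht u hu
  have h1 : u.1 * u.1 = 1 := congrArg Subtype.val huu
  rw [e, blkL_mul, ← blkL_one, ← map_mul] at h1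
  obtain ⟨hs, hμ⟩ := blkL_inj h1
  have hl : l * l = 1 := by
    have : Nonempty (Fin m) := ⟨⟨0, hm1⟩⟩
    rw [← map_one (Matrix.scalar (Fin m))] at hs
    exact Matrix.scalar_inj.1 hs
  have hdet : u.1.det = 1 := u.2
  rw [e, det_blkL, Matrix.scalar_apply, Matrix.det_diagonal, Finset.prod_const, Finset.card_univ,
    Fintype.card_fin] at hdet
  obtain ⟨k, hk⟩ := hm
  have hlm : l ^ m = 1 := by rw [hk, ← two_mul, pow_mul, pow_two, hl, one_pow]
  rw [hlm, one_mul] at hdet
  rcases mul_self_eq_one_iff.1 hl with h | h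
  · exfalso
    apply hu1
    apply Subtype.ext
    rw [e, h, hdet, map_one]
    exact blkL_one
  · apply Subtype.ext
    rw [e, h, hdet, ht, diag_eq_blkL, map_neg, map_one]

theorem cent_comm (h2 : (2 : F) ≠ 0) (m : ℕ) (hm : Even m)
    (t : Matrix.SpecialLinearGroup (Fin (m + 1)) F) (ht : t.1 = Matrix.diagonal (tvec m))
    (u : Matrix.SpecialLinearGroup (Fin (m + 1)) F)
    (hu : u ∈ Subgroup.centralizer ((fS (F := F) m).range : Set _))
    (v : Matrix.SpecialLinearGroup (Fin (m + 1)) F)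
    (hv : v ∈ Subgroup.centralizer ((fS (F := F) m).range : Set _)) : u * v = v * u := by
  obtain ⟨l, μ, e⟩ := cent_shape h2 m hm t ht u hu
  obtain ⟨l', μ', e'⟩ := cent_shape h2 m hm t ht v hv
  apply Subtype.ext
  show u.1 * v.1 = v.1 * u.1
  rw [e, e', blkL_mul, blkL_mul, ← map_mul, ← map_mul, mul_comm l l', mul_comm μ μ']

/-- the block embedding, into the centralizer -/
def fC (m : ℕ) (t : Matrix.SpecialLinearGroup (Fin (m + 1)) F)
    (ht : t.1 = Matrix.diagonal (tvec m)) : Matrix.SpecialLinearGroup (Fin m) F →*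
    ↥(Subgroup.centralizer ({t} : Set (Matrix.SpecialLinearGroup (Fin (m + 1)) F))) :=
  (fS m).codRestrict _ (fun A => by
    rw [Subgroup.mem_centralizer_iff]
    intro h hh
    rw [Set.mem_singleton_iff.1 hh]
    exact (fS_comm m t ht A).symm)

theorem fC_normal (h2 : (2 : F) ≠ 0) (m : ℕ) (t : Matrix.SpecialLinearGroup (Fin (m + 1)) F)
    (ht : t.1 = Matrix.diagonal (tvec m)) : (fC m t ht).range.Normal := by
  refine ⟨fun k hk h => ?_⟩
  obtain ⟨A, rfl⟩ := hk
  have hh : h.1 * t = t * h.1 := (Subgroup.mem_centralizer_iff.1 h.2 t rfl).symm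
  obtain ⟨A', hA'⟩ := conj_fS h2 m t h.1 ht hh A
  exact ⟨A', Subtype.ext hA'⟩

theorem fC_comm (h2 : (2 : F) ≠ 0) (m : ℕ) (t : Matrix.SpecialLinearGroup (Fin (m + 1)) F)
    (ht : t.1 = Matrix.diagonal (tvec m)) :
    commutator ↥(Subgroup.centralizer ({t} : Set (Matrix.SpecialLinearGroup (Fin (m + 1)) F))) ≤
      (fC m t ht).range := by
  rw [commutator_def, Subgroup.commutator_le]
  intro g1 _ g2 _
  obtain ⟨B, B', b, b', eM, eI, hBB, hbb⟩ := blk_pair h2 m t g1.1 ht
    (Subgroup.mem_centralizer_iff.1 g1.2 t rfl).symm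
  obtain ⟨D, D', d, d', eM2, eI2, hDD, hdd⟩ := blk_pair h2 m t g2.1 ht
    (Subgroup.mem_centralizer_iff.1 g2.2 t rfl).symm
  have hdet : (B * D * B' * D').det = 1 := by
    rw [Matrix.det_mul, Matrix.det_mul, Matrix.det_mul]
    have h1 : B.det * B'.det = 1 := by rw [← Matrix.det_mul, hBB, Matrix.det_one]
    have h3 : D.det * D'.det = 1 := by rw [← Matrix.det_mul, hDD, Matrix.det_one]
    linear_combination D.det * D'.det * h1 + h3
  refine ⟨⟨B * D * B' * D', hdet⟩, ?_⟩
  apply Subtype.ext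
  apply Subtype.ext
  show blkL (B * D * B' * D') 1 = g1.1.1 * g2.1.1 * (g1.1⁻¹).1 * (g2.1⁻¹).1
  rw [eM, eI, eM2, eI2, blkL_mul, blkL_mul, blkL_mul]
  congr 1
  linear_combination -(d * d') * hbb - hdd

theorem std_main [Fintype F] [DecidableEq F] (hF : Odd (Fintype.card F)) (m : ℕ) (hm : Even m)
    (hm3 : 3 ≤ m) (t : Matrix.SpecialLinearGroup (Fin (m + 1)) F)
    (ht : t.1 = Matrix.diagonal (tvec m)) :
    Cfsg.IsStandardSubgroup ((Cfsg.layer ↥(Subgroup.centralizer
      ({t} : Set (Matrix.SpecialLinearGroup (Fin (m + 1)) F)))).map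
        (Subgroup.centralizer ({t} : Set (Matrix.SpecialLinearGroup (Fin (m + 1)) F))).subtype) := by
  have hchar : ringChar F ≠ 2 := by
    intro hc
    have h := FiniteField.even_card_of_char_two hc
    rw [Nat.odd_iff] at hF
    omega
  have h2 : (2 : F) ≠ 0 := Ring.two_ne_zero hchar
  have hperf : Group.IsPerfect (Matrix.SpecialLinearGroup (Fin m) F) :=
    ⟨Cfsg.Agent.S0248.result m hm3⟩
  have hsimp : IsSimpleGroup (Matrix.SpecialLinearGroup (Fin m) F ⧸
      Subgroup.center (Matrix.SpecialLinearGroup (Fin m) F)) := Cfsg.Agent.S0249.result m hm3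
  have hfCinj : Function.Injective (fC m t ht) := fun A B h => fS_inj m (congrArg Subtype.val h)
  have hlayer : Cfsg.layer ↥(Subgroup.centralizer
      ({t} : Set (Matrix.SpecialLinearGroup (Fin (m + 1)) F))) = (fC m t ht).range :=
    layer_eq _ (fC_normal h2 m t ht) (quasi_range _ hfCinj hperf hsimp) (fC_comm h2 m t ht)
  have hmap : ((fC m t ht).range).map (Subgroup.centralizer
      ({t} : Set (Matrix.SpecialLinearGroup (Fin (m + 1)) F))).subtype = (fS m).range := by
    rw [MonoidHom.map_range]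
    rfl
  rw [hlayer, hmap]
  have ht1 : t ≠ 1 := by
    intro h
    have h1 : Matrix.diagonal (tvec m : Fin (m + 1) → F) = 1 := by
      rw [← ht, h]
      rfl
    have h3 := congrFun (congrFun h1 (Fin.castSucc ⟨0, by omega⟩)) (Fin.castSucc ⟨0, by omega⟩)
    rw [Matrix.diagonal_apply_eq, Matrix.one_apply_eq, tvec_c] at h3
    apply h2
    linear_combination -h3
  have ht2 : t * t = 1 := by
    apply Subtype.ext
    show t.1 * t.1 = 1
    rw [ht, diag_eq_blkL, blkL_mul, neg_mul_neg, one_mul, one_mul, blkL_one]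
  exact standard_of (fS m).range t (quasi_range _ (fS_inj m) hperf hsimp)
    (fun g hg x hx => by
      obtain ⟨A, rfl⟩ := hx
      obtain ⟨A', hA'⟩ := conj_fS h2 m t g ht hg A
      exact ⟨A', hA'⟩)
    ht1 ht2
    (by
      rw [Subgroup.mem_centralizer_iff]
      rintro h ⟨A, rfl⟩
      exact fS_comm m t ht A)
    (fun u hu huu hu1 => cent_inv h2 m hm (by omega) t ht u hu huu hu1)
    (fun u hu v hv => cent_comm h2 m hm t ht u hu v hv)

end final

end StdSub
end Cfsg.Agent.Helper28
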