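import Mathlib
import Cfsg.Prelude.Def_GeometricClasses

set_option autoImplicit false

namespace Cfsg.Agent.Helper28

open Matrix

/-- A transvection `x ↦ x + (a ⬝ᵥ x) • v` of determinant one with prescribed behaviour. -/
theorem exists_transv {F : Type*} [Field F] {n : ℕ} (P : Submodule F (Fin n → F))
    (u v : Fin n → F) (hu : u ∉ P ⊔ Submodule.span F {v}) :
    ∃ g : Matrix.GeneralLinearGroup (Fin n) F, g ∈ Cfsg.Geo.specialLinear (Fin n) F ∧
      ∃ a : Fin n → F, (∀ x, (g : Matrix (Fin n) (Fin n) F) *ᵥ x = x + (a ⬝ᵥ x) • v) ∧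
        (∀ x ∈ P, a ⬝ᵥ x = 0) ∧ a ⬝ᵥ u = 1 ∧ a ⬝ᵥ v = 0 := by
  obtain ⟨f, hfu, hf⟩ := Submodule.exists_le_ker_of_notMem hu
  set a : Fin n → F := fun j => (f u)⁻¹ * f (fun k => if j = k then 1 else 0) with ha
  have hax : ∀ x, a ⬝ᵥ x = (f u)⁻¹ * f x := by
    intro x
    rw [LinearMap.pi_apply_eq_sum_univ f x, Finset.mul_sum]
    unfold dotProduct
    refine Finset.sum_congr rfl fun i _ => ?_
    rw [ha]
    simp only [smul_eq_mul]
    ring
  have hav : a ⬝ᵥ v = 0 := by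
    rw [hax]
    have : f v = 0 := hf (Submodule.mem_sup_right (Submodule.mem_span_singleton_self v))
    rw [this, mul_zero]
  have hdet : (1 + vecMulVec v a).det = 1 := by
    rw [Matrix.vecMulVec_eq Unit, det_one_add_replicateCol_mul_replicateRow, hav, add_zero]
  refine ⟨Matrix.GeneralLinearGroup.mkOfDetNeZero (1 + vecMulVec v a)
    (by rw [hdet]; exact one_ne_zero), ?_, a, ?_, ?_, ?_, hav⟩
  · unfold Cfsg.Geo.specialLinear
    rw [MonoidHom.mem_ker]
    apply Units.ext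
    rw [Matrix.GeneralLinearGroup.val_det_apply]
    exact hdet
  · intro x
    show (1 + vecMulVec v a) *ᵥ x = x + (a ⬝ᵥ x) • v
    rw [Matrix.add_mulVec, Matrix.one_mulVec, Matrix.vecMulVec_mulVec, op_smul_eq_smul]
  · intro x hx
    rw [hax]
    have : f x = 0 := hf (Submodule.mem_sup_left hx)
    rw [this, mul_zero]
  · rw [hax, inv_mul_cancel₀ hfu]

/-- A transvection along a vector of `W` stabilises `W`. -/
theorem mem_stab_of_dir {F : Type*} [Field F] {n : ℕ} (W : Submodule F (Fin n → F))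
    (g : Matrix.GeneralLinearGroup (Fin n) F) (a v : Fin n → F)
    (hg : ∀ x, (g : Matrix (Fin n) (Fin n) F) *ᵥ x = x + (a ⬝ᵥ x) • v) (hv : v ∈ W) :
    g ∈ Cfsg.Geo.subspaceStabilizer W := by
  intro x
  show x ∈ W ↔ (g : Matrix (Fin n) (Fin n) F) *ᵥ x ∈ W
  rw [hg x]
  constructor
  · intro hx
    exact W.add_mem hx (W.smul_mem _ hv)
  · intro hx
    have := W.sub_mem hx (W.smul_mem (a ⬝ᵥ x) hv)
    simpa using this

/-- A transvection whose functional vanishes on `W` stabilises `W`. -/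
theorem mem_stab_of_ker {F : Type*} [Field F] {n : ℕ} (W : Submodule F (Fin n → F))
    (g : Matrix.GeneralLinearGroup (Fin n) F) (a v : Fin n → F)
    (hg : ∀ x, (g : Matrix (Fin n) (Fin n) F) *ᵥ x = x + (a ⬝ᵥ x) • v)
    (ha : ∀ x ∈ W, a ⬝ᵥ x = 0) (hav : a ⬝ᵥ v = 0) :
    g ∈ Cfsg.Geo.subspaceStabilizer W := by
  intro x
  show x ∈ W ↔ (g : Matrix (Fin n) (Fin n) F) *ᵥ x ∈ W
  rw [hg x]
  constructor
  · intro hx
    rw [ha x hx, zero_smul, add_zero]
    exact hx
  · intro hx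
    have h1 := ha _ hx
    rw [dotProduct_add, dotProduct_smul, hav, smul_zero, add_zero] at h1
    rw [h1, zero_smul, add_zero] at hx
    exact hx

/-- A transvection moving a vector of `U` out of `U` does not stabilise `U`. -/
theorem not_mem_stab {F : Type*} [Field F] {n : ℕ} (U : Submodule F (Fin n → F))
    (g : Matrix.GeneralLinearGroup (Fin n) F) (a u v : Fin n → F)
    (hg : ∀ x, (g : Matrix (Fin n) (Fin n) F) *ᵥ x = x + (a ⬝ᵥ x) • v)
    (hu : u ∈ U) (hau : a ⬝ᵥ u = 1) (hv : v ∉ U) :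
    g ∉ Cfsg.Geo.subspaceStabilizer U := by
  intro h
  have h1 : (g : Matrix (Fin n) (Fin n) F) *ᵥ u ∈ U := (h u).1 hu
  rw [hg u, hau, one_smul] at h1
  apply hv
  have := U.sub_mem h1 hu
  simpa using this

/-- The stabiliser in `SL` of a proper non-zero subspace is a proper subgroup of `SL`. -/
theorem stab_inf_sl_lt {F : Type*} [Field F] {n : ℕ} (W : Submodule F (Fin n → F))
    (hW0 : W ≠ ⊥) (hW1 : W ≠ ⊤) :
    Cfsg.Geo.subspaceStabilizer W ⊓ Cfsg.Geo.specialLinear (Fin n) F <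
      Cfsg.Geo.specialLinear (Fin n) F := by
  refine lt_of_le_of_ne inf_le_right ?_
  intro heq
  obtain ⟨w, hw, hw0⟩ := (Submodule.ne_bot_iff W).1 hW0
  obtain ⟨v, hv⟩ : ∃ v, v ∉ W := by
    by_contra hcon
    push Not at hcon
    exact hW1 (eq_top_iff.2 fun x _ => hcon x)
  have hwv : w ∉ (⊥ : Submodule F (Fin n → F)) ⊔ Submodule.span F {v} := by
    rw [bot_sup_eq, Submodule.mem_span_singleton]
    rintro ⟨c, hc⟩
    have hc0 : c ≠ 0 := by
      rintro rfl
      rw [zero_smul] at hc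
      exact hw0 hc.symm
    apply hv
    have : v = c⁻¹ • w := by rw [← hc, smul_smul, inv_mul_cancel₀ hc0, one_smul]
    rw [this]
    exact W.smul_mem _ hw
  obtain ⟨g, hgS, a, hg, -, hau, -⟩ := exists_transv ⊥ w v hwv
  have : g ∈ Cfsg.Geo.subspaceStabilizer W ⊓ Cfsg.Geo.specialLinear (Fin n) F := by
    rw [heq]; exact hgS
  exact not_mem_stab W g a w v hg hw hau hv this.1

end Cfsg.Agent.Helper28
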