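import Mathlib
import Cfsg.Agent.Helper28.Fast

set_option autoImplicit false

namespace Cfsg.Agent.Helper28
namespace Golay

open Cfsg
open scoped Pointwise

/-- the number of members of a family meeting a set -/
def nmeet (Y : Finset GolayPt) (S : Finset (Finset GolayPt)) : ℕ :=
  (S.filter fun t => (t ∩ Y).Nonempty).card

theorem nmeet_smul (g : Equiv.Perm GolayPt) (Y : Finset GolayPt) (S : Finset (Finset GolayPt)) :
    nmeet (g • Y) (g • S) = nmeet Y S := by
  unfold nmeet
  have e2 : g • S = S.image (fun b => g • b) := rfl
  rw [e2, Finset.filter_image, Finset.card_image_of_injective _ (MulAction.injective g)]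
  congr 1
  refine Finset.filter_congr fun t _ => ?_
  rw [← Finset.smul_finset_inter, Finset.smul_finset_nonempty]

/-- the value of the histogram in terms of the number of tetrads met -/
def gk (k : ℕ) : ℕ := if k = 1 then 1000005 else if k = 2 then 10104 else if k = 3 then 303 else 0

theorem gk_inj {a k : ℕ} (ha : a = 1 ∨ a = 2 ∨ a = 3) (hk : k = 1 ∨ k = 2 ∨ k = 3)
    (h : gk a = gk k) : a = k := by
  rcases ha with rfl | rfl | rfl <;> rcases hk with rfl | rfl | rfl <;>
    first | rfl | (exfalso; revert h; decide)

/-- the number of masks of a list meeting a mask -/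
def nmeetM (y : Nat) (L : List Nat) : ℕ := (L.map fun m => if 0 < wt (m &&& y) then 1 else 0).sum

theorem nmeet_eq {L : List Nat} {X : Finset (Finset GolayPt)} (hX : Presents L X) (y : Nat) :
    nmeet (toSet y) X = nmeetM y L := by
  unfold nmeet nmeetM
  rw [Finset.card_filter, hX fun u => if (u ∩ toSet y).Nonempty then 1 else 0]
  congr 1
  refine List.map_congr_left fun m _ => ?_
  exact if_congr (by rw [← toSet_and, ← Finset.card_pos, card_toSet]) rfl rfl

/-- the check of the correspondence for a sextet -/
def okY (y : Nat) (L : List Nat) : Bool :=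
  (nmeetM y L == 1 || nmeetM y L == 2 || nmeetM y L == 3) &&
    Nat.beq (histM [y] L) (gk (nmeetM y L))

set_option maxRecDepth 100000 in
theorem okY_all : sextLL.all (okY 8388613) = true := by decide +kernel

theorem nmeet_base (X : Finset (Finset GolayPt)) (hX : X ∈ sextets) :
    (nmeet (toSet 8388613) X = 1 ∨ nmeet (toSet 8388613) X = 2 ∨ nmeet (toSet 8388613) X = 3) ∧
    hist {toSet 8388613} X = gk (nmeet (toSet 8388613) X) := by
  obtain ⟨L, hL, rfl⟩ := sextLL_dec hX
  have hP := presents_sextLL hL
  have h := List.all_eq_true.1 okY_all L hL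
  rw [nmeet_eq hP, hist_eq (presents_single _) hP]
  unfold okY at h
  simp only [Bool.and_eq_true, Bool.or_eq_true, beq_iff_eq, nbeq_iff] at h
  exact ⟨by tauto, h.2⟩

theorem base_tri : toSet 8388613 = ({pt 23, pt 0, pt 2} : Finset GolayPt) := by decide +kernel

end Golay
end Cfsg.Agent.Helper28
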