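import Mathlib
import Cfsg.Agent.Helper28.SixSets

set_option autoImplicit false

namespace Cfsg.Agent.Helper28

open scoped Pointwise

/-- restriction of a subgroup of a permutation group to an invariant set -/
def restrSub {α : Type*} [DecidableEq α] (G : Subgroup (Equiv.Perm α)) (J : Subgroup ↥G)
    (s : Finset α) (h : ∀ j ∈ J, (j : Equiv.Perm α) • s = s) : ↥J →* Equiv.Perm ↥s :=
  (restr G s).comp
    { toFun := fun j => ⟨j.1.1, Subgroup.mem_inf.2 ⟨j.1.2,
        MulAction.mem_stabilizer_iff.2 (h j.1 j.2)⟩⟩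
      map_one' := rfl
      map_mul' := fun _ _ => rfl }

theorem restrSub_apply {α : Type*} [DecidableEq α] (G : Subgroup (Equiv.Perm α))
    (J : Subgroup ↥G) (s : Finset α) (h : ∀ j ∈ J, (j : Equiv.Perm α) • s = s) (j : ↥J)
    (x : ↥s) : ((restrSub G J s h j x : ↥s) : α) = j.1.1 x := rfl

theorem restrSub_eq_one {α : Type*} [DecidableEq α] (G : Subgroup (Equiv.Perm α))
    (J : Subgroup ↥G) (s : Finset α) (h : ∀ j ∈ J, (j : Equiv.Perm α) • s = s) (j : ↥J)
    (hj : restrSub G J s h j = 1) : ∀ p ∈ s, j.1.1 p = p := by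
  intro p hp
  have := congrArg (fun e : Equiv.Perm ↥s => ((e ⟨p, hp⟩ : ↥s) : α)) hj
  exact this

namespace Golay

open Cfsg

/-- an octad meeting the standard octad in two points -/
def O2 : Nat := 31554

theorem O2_mem : toSet O2 ∈ octads := toSet_mem_octads (by decide +kernel) (by decide +kernel)

theorem O2_inter : (toSet O0 ∩ toSet O2).card = 2 := by
  rw [← toSet_and, card_toSet]
  decide +kernel

theorem regO2 : ((chainElems chO).all fun T => (T == idT) ||
    (List.range 24).any fun i => O2.testBit i && !(O2.testBit (tf T i))) = true := by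
  decide +kernel

/-- a pair of octads meeting in two points can be moved to the standard pair -/
theorem two_oct_normal (o o' : Finset GolayPt) (ho : o ∈ octads) (ho' : o' ∈ octads)
    (h2 : (o ∩ o').card = 2) : ∃ σ ∈ M24, σ • o = toSet O0 ∧ σ • o' = toSet O2 := by
  obtain ⟨σ0, hσ0, h0⟩ := octad_trans o (toSet O0) ho O0_mem
  have h1 : (toSet O0 ∩ σ0 • o').card = (toSet O0 ∩ toSet O2).card := by
    rw [O2_inter, ← h0, ← Finset.smul_finset_inter, Finset.card_smul_finset, h2]
  obtain ⟨g, hg, e1, e2⟩ := oct_orb (toSet O0) (σ0 • o') (toSet O2) O0_mem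
    (smul_mem_octads hσ0 ho') O2_mem h1
  exact ⟨g * σ0, M24.mul_mem hg hσ0, by rw [mul_smul, h0, e1], by rw [mul_smul, e2]⟩

/-- the pointwise stabiliser of an octad meets the stabiliser of an octad meeting it in two
points trivially -/
theorem two_oct_fix (o o' : Finset GolayPt) (ho : o ∈ octads) (ho' : o' ∈ octads)
    (h2 : (o ∩ o').card = 2) (g : Equiv.Perm GolayPt)
    (hg : g ∈ M24 ⊓ fixingSubgroup (Equiv.Perm GolayPt) (o : Set GolayPt))
    (hst : g • o' = o') : g = 1 := by
  obtain ⟨σ, hσ, e1, e2⟩ := two_oct_normal o o' ho ho' h2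
  have h1 := (fix_octad_conj o σ hσ e1 g).1 hg
  have h3 : (σ * g * σ⁻¹) • toSet O2 = toSet O2 := by
    rw [← e2, mul_smul, mul_smul, inv_smul_smul, hst]
  obtain ⟨T, hT, hT1, hT2⟩ := chain_enum [] chO Opts lvO finO _ h1
  have h4 := List.all_eq_true.1 regO2 T hT
  rw [Bool.or_eq_true] at h4
  have h5 : σ * g * σ⁻¹ = 1 := by
    rcases h4 with h4 | h4
    · rw [hT2, eq_of_beq h4, permOf_idT]
    · exfalso
      rw [List.any_eq_true] at h4
      obtain ⟨i, hi, h4⟩ := h4
      rw [List.mem_range] at hi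
      rw [Bool.and_eq_true, Bool.not_eq_true'] at h4
      have h6 : pt i ∈ toSet O2 := by
        rw [mem_toSet, idx_pt i hi]
        exact h4.1
      have h7 : (σ * g * σ⁻¹) (pt i) ∈ toSet O2 := by
        have := Finset.smul_mem_smul_finset (a := σ * g * σ⁻¹) h6
        rwa [h3] at this
      rw [hT2, permOf_pt hT1 hi, mem_toSet, idx_pt _ (tf_lt hT1 hi), h4.2] at h7
      exact absurd h7 (by simp)
  have h8 := congrArg (fun z => σ⁻¹ * z * σ) h5
  simpa [mul_assoc] using h8

end Golay
end Cfsg.Agent.Helper28
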